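import Mathlib
import Cfsg.Agent.Lib.Helper16.SpinQuot
import Cfsg.Agent.Lib.Helper3.SLn

set_option autoImplicit false

namespace Cfsg.Agent.Lib.Helper3

open Matrix

section Generic

/-- A surjective homomorphism that reflects centrality induces an isomorphism of the central
quotients. -/
theorem quot_center_equiv {S T : Type*} [Group S] [Group T] (φ : S →* T)
    (hs : Function.Surjective φ)
    (hc : ∀ g, φ g ∈ Subgroup.center T → g ∈ Subgroup.center S) :
    Nonempty (T ⧸ Subgroup.center T ≃* S ⧸ Subgroup.center S) := by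
  let f : S →* T ⧸ Subgroup.center T := (QuotientGroup.mk' (Subgroup.center T)).comp φ
  have hfs : Function.Surjective f := (QuotientGroup.mk'_surjective _).comp hs
  have hfk : f.ker = Subgroup.center S := by
    ext g
    rw [MonoidHom.mem_ker]
    show ((φ g : T) : T ⧸ Subgroup.center T) = 1 ↔ _
    rw [QuotientGroup.eq_one_iff]
    refine ⟨hc g, fun hg => ?_⟩
    rw [Subgroup.mem_center_iff]
    intro x
    obtain ⟨h, rfl⟩ := hs x
    rw [← map_mul, ← map_mul, Subgroup.mem_center_iff.1 hg h]
  exact ⟨((QuotientGroup.quotientMulEquivOfEq hfk).symm.trans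
    (QuotientGroup.quotientKerEquivOfSurjective f hfs)).symm⟩

/-- For a perfect group, a homomorphism with central kernel reflects centrality. -/
theorem central_of_perfect {S T : Type*} [Group S] [Group T] (φ : S →* T)
    (hk : φ.ker ≤ Subgroup.center S) (hp : commutator S = ⊤) (g : S)
    (hg : φ g ∈ Subgroup.center T) : g ∈ Subgroup.center S := by
  have hmem : ∀ h : S, g * h * g⁻¹ * h⁻¹ ∈ Subgroup.center S := by
    intro h
    apply hk
    rw [MonoidHom.mem_ker, map_mul, map_mul, map_mul, map_inv, map_inv,
      ← Subgroup.mem_center_iff.1 hg (φ h)]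
    group
  let c : S →* Subgroup.center S :=
    { toFun := fun h => ⟨g * h * g⁻¹ * h⁻¹, hmem h⟩
      map_one' := by
        apply Subtype.ext
        show g * 1 * g⁻¹ * 1⁻¹ = 1
        group
      map_mul' := by
        intro a b
        apply Subtype.ext
        show g * (a * b) * g⁻¹ * (a * b)⁻¹ = (g * a * g⁻¹ * a⁻¹) * (g * b * g⁻¹ * b⁻¹)
        have h1 := Subgroup.mem_center_iff.1 (hmem b) a
        have e : g * (a * b) * g⁻¹ * (a * b)⁻¹ = (g * a * g⁻¹) * (g * b * g⁻¹ * b⁻¹) * a⁻¹ := by
          group
        rw [e, mul_assoc (g * a * g⁻¹), ← Subgroup.mem_center_iff.1 (hmem b) a⁻¹]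
        group }
  have hker : ∀ h, c h = 1 := by
    have hle : commutator S ≤ c.ker := by
      rw [commutator_def, Subgroup.commutator_le]
      intro a _ b _
      rw [MonoidHom.mem_ker, commutatorElement_def, map_mul, map_mul, map_mul, map_inv, map_inv]
      apply Subtype.ext
      have hcomm := Subgroup.mem_center_iff.1 (c b).2 (c a).1
      show (c a).1 * (c b).1 * (c a).1⁻¹ * (c b).1⁻¹ = 1
      rw [hcomm]
      group
    intro h
    exact MonoidHom.mem_ker.1 (hle (hp ▸ Subgroup.mem_top h))
  rw [Subgroup.mem_center_iff]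
  intro h
  have h1 : c h = 1 := hker h
  have h2 : g * h * g⁻¹ * h⁻¹ = 1 := congrArg Subtype.val h1
  have h3 : g * h = h * g := by
    have := congrArg (fun x => x * h * g) h2
    simpa [mul_assoc] using this
  exact h3.symm

/-- The image of a perfect group lies in the commutator subgroup. -/
theorem map_mem_commutator_of_perfect {S T : Type*} [Group S] [Group T] (φ : S →* T)
    (hp : commutator S = ⊤) (g : S) : φ g ∈ commutator T := by
  have h1 : g ∈ commutator S := hp ▸ Subgroup.mem_top g
  rw [commutator_def] at h1 ⊢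
  have h2 := Subgroup.mem_map_of_mem φ h1
  rw [Subgroup.map_commutator] at h2
  exact Subgroup.commutator_mono le_top le_top h2

/-- A perfect subgroup of index two in a finite group is the commutator subgroup. -/
theorem range_eq_commutator_of_index_two {S T : Type*} [Group S] [Group T] [Finite T]
    (φ : S →* T) (hp : commutator S = ⊤) (hcard : Nat.card T = 2 * Nat.card φ.range) :
    φ.range = commutator T := by
  apply le_antisymm
  · rintro _ ⟨g, rfl⟩
    exact map_mem_commutator_of_perfect φ hp g
  · apply Cfsg.Agent.Lib.Helper16.commutator_le_of_index_two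
    have h := Subgroup.card_mul_index φ.range
    have hpos : 0 < Nat.card φ.range := Nat.card_pos
    rw [hcard, mul_comm 2] at h
    exact Nat.eq_of_mul_eq_mul_left hpos h

/-- The product of the central quotients is the central quotient of the product. -/
theorem prod_quot_center_equiv (A B : Type*) [Group A] [Group B] :
    Nonempty ((A × B) ⧸ Subgroup.center (A × B) ≃*
      (A ⧸ Subgroup.center A) × (B ⧸ Subgroup.center B)) := by
  let p : A × B →* (A ⧸ Subgroup.center A) × (B ⧸ Subgroup.center B) :=
    MonoidHom.prodMap (QuotientGroup.mk' (Subgroup.center A)) (QuotientGroup.mk' (Subgroup.center B))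
  have hps : Function.Surjective p := by
    rintro ⟨a, b⟩
    obtain ⟨a, rfl⟩ := QuotientGroup.mk'_surjective _ a
    obtain ⟨b, rfl⟩ := QuotientGroup.mk'_surjective _ b
    exact ⟨(a, b), rfl⟩
  have hpk : p.ker = Subgroup.center (A × B) := by
    ext ⟨a, b⟩
    rw [MonoidHom.mem_ker, Subgroup.center_prod, Subgroup.mem_prod]
    show ((QuotientGroup.mk' (Subgroup.center A)) a, (QuotientGroup.mk' (Subgroup.center B)) b)
      = 1 ↔ _
    rw [Prod.ext_iff]
    simp only [QuotientGroup.mk'_apply, Prod.fst_one, Prod.snd_one, QuotientGroup.eq_one_iff]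
  exact ⟨(QuotientGroup.quotientMulEquivOfEq hpk).symm.trans
    (QuotientGroup.quotientKerEquivOfSurjective p hps)⟩

end Generic

section Spin

open Cfsg.Agent.Lib.Helper16

variable {ι : Type} [Fintype ι] [DecidableEq ι] {F : Type*} [Field F] [Fintype F]
variable (Q : QuadraticForm F (ι → F))

/-- Squares of isometries lie in `Ω` (odd characteristic). -/
theorem sq_mem_omega (h2 : (2 : F) ≠ 0) (hQ : (QuadraticMap.polarBilin Q).Nondegenerate)
    (hn : 2 ≤ Fintype.card ι) (x : ↥(Cfsg.isometryGroup F (⇑Q))) :
    x * x ∈ Cfsg.Omega F (⇑Q) := by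
  rw [← detSign_ker Q h2 hQ hn, MonoidHom.mem_ker, map_mul]
  apply Prod.ext
  · apply Units.ext
    simp only [Prod.fst_mul, Units.val_mul, Prod.fst_one, Units.val_one]
    rw [detSign_fst]
    rcases det_isom_cases Q h2 hQ x with h | h <;> rw [h] <;> norm_num
  · simp only [Prod.snd_mul, Prod.snd_one]
    exact Int.units_mul_self _

/-- Any homomorphism from a special linear group to an isometry group has image in `Ω`
(odd characteristic): the elementary transvections are squares. -/
theorem sl_map_mem_omega (h2 : (2 : F) ≠ 0) (hQ : (QuadraticMap.polarBilin Q).Nondegenerate)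
    (hn : 2 ≤ Fintype.card ι) {κ : Type*} [Fintype κ] [DecidableEq κ] [Nontrivial κ]
    (f : Matrix.SpecialLinearGroup κ F →* ↥(Cfsg.isometryGroup F (⇑Q)))
    (g : Matrix.SpecialLinearGroup κ F) : f g ∈ Cfsg.Omega F (⇑Q) := by
  refine sl_transvection_induction (fun g => f g ∈ Cfsg.Omega F (⇑Q)) ?_ ?_ g
  · intro i j hij a
    have : Matrix.SpecialLinearGroup.transvection hij a
        = Matrix.SpecialLinearGroup.transvection hij (a / 2)
          * Matrix.SpecialLinearGroup.transvection hij (a / 2) := by
      apply Subtype.ext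
      rw [Matrix.SpecialLinearGroup.coe_mul, Matrix.SpecialLinearGroup.transvection_coe,
        Matrix.SpecialLinearGroup.transvection_coe]
      show Matrix.transvection i j a
        = Matrix.transvection i j (a / 2) * Matrix.transvection i j (a / 2)
      rw [Matrix.transvection_mul_transvection_same i j hij]
      congr 1
      field_simp
      ring
    show f (Matrix.SpecialLinearGroup.transvection hij a) ∈ Cfsg.Omega F (⇑Q)
    rw [this, map_mul]
    exact sq_mem_omega Q h2 hQ hn _
  · intro A B hA hB
    show f (A * B) ∈ Cfsg.Omega F (⇑Q)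
    rw [map_mul]
    exact Subgroup.mul_mem _ hA hB

/-- Odd characteristic: a homomorphism into `Ω` whose image is large enough is onto `Ω`. -/
theorem range_eq_omega_odd (h2 : (2 : F) ≠ 0) (hQ : (QuadraticMap.polarBilin Q).Nondegenerate)
    (hn : 2 ≤ Fintype.card ι) {S : Type*} [Group S] [Finite S]
    (f : S →* ↥(Cfsg.isometryGroup F (⇑Q))) (hmem : ∀ g, f g ∈ Cfsg.Omega F (⇑Q))
    (hcard : Nat.card ↥(Cfsg.isometryGroup F (⇑Q)) * Nat.card f.ker ≤ 4 * Nat.card S) :
    f.range = Cfsg.Omega F (⇑Q) := by
  have hle : f.range ≤ Cfsg.Omega F (⇑Q) := by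
    rintro _ ⟨g, rfl⟩
    exact hmem g
  have hidx := omega_index Q h2 hQ hn
  have hΩ := Subgroup.card_mul_index (Cfsg.Omega F (⇑Q))
  rw [hidx] at hΩ
  have hkr := Subgroup.card_mul_index f.ker
  rw [Subgroup.index_ker] at hkr
  have hkpos : 0 < Nat.card f.ker := Nat.card_pos
  apply Subgroup.eq_of_le_of_card_ge hle
  have h5 : Nat.card ↥(Cfsg.Omega F (⇑Q)) * 4 * Nat.card f.ker
      ≤ 4 * (Nat.card f.ker * Nat.card f.range) := by
    rw [hΩ, hkr]
    exact hcard
  have h6 : Nat.card f.ker * (Nat.card ↥(Cfsg.Omega F (⇑Q)) * 4)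
      ≤ Nat.card f.ker * (Nat.card f.range * 4) := by
    calc Nat.card f.ker * (Nat.card ↥(Cfsg.Omega F (⇑Q)) * 4)
        = Nat.card ↥(Cfsg.Omega F (⇑Q)) * 4 * Nat.card f.ker := by ring
      _ ≤ 4 * (Nat.card f.ker * Nat.card f.range) := h5
      _ = Nat.card f.ker * (Nat.card f.range * 4) := by ring
  have h7 := Nat.le_of_mul_le_mul_left h6 hkpos
  omega

end Spin

end Cfsg.Agent.Lib.Helper3
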