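import Mathlib
import Cfsg.Prelude
import Cfsg.Agent.Lib.Helper3.OrthCount

set_option autoImplicit false

namespace Cfsg.Agent.Lib.Helper3

open Cfsg Matrix QuadraticMap

section orthforms

variable {F : Type*} [Field F]

/-! ### plus type -/

/-- the hyperbolic form, bundled -/
noncomputable def plusQ (m : ℕ) (F : Type*) [Field F] : QuadraticForm F (Fin m ⊕ Fin m → F) :=
  ∑ i : Fin m, QuadraticMap.linMulLin (LinearMap.proj (Sum.inl i)) (LinearMap.proj (Sum.inr i))

theorem plusQ_coe (m : ℕ) : ⇑(plusQ m F) = Cfsg.quadFormPlus m F := by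
  funext v
  simp [plusQ, Cfsg.quadFormPlus, QuadraticMap.linMulLin_apply]

/-- index bookkeeping for splitting off a hyperbolic plane -/
def plusE (m : ℕ) : (Fin m ⊕ Fin m) ⊕ Fin 2 ≃ Fin (m + 1) ⊕ Fin (m + 1) where
  toFun := Sum.elim (Sum.map Fin.succ Fin.succ) ![Sum.inl 0, Sum.inr 0]
  invFun := Sum.elim (Fin.cases (Sum.inr 0) (fun i => Sum.inl (Sum.inl i)))
    (Fin.cases (Sum.inr 1) (fun i => Sum.inl (Sum.inr i)))
  left_inv := by
    rintro ((i | i) | t)
    · simp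
    · simp
    · fin_cases t <;> simp
  right_inv := by
    rintro (i | i) <;> refine Fin.cases ?_ (fun i => ?_) i <;> simp

theorem plusQ_step (m : ℕ) (x : Fin (m + 1) ⊕ Fin (m + 1) → F) :
    plusQ (m + 1) F x = plusQ m F (fun k => x (plusE m (Sum.inl k)))
      + x (plusE m (Sum.inr 0)) * x (plusE m (Sum.inr 1)) := by
  rw [plusQ_coe, plusQ_coe]
  unfold Cfsg.quadFormPlus
  rw [Fin.sum_univ_succ]
  simp [plusE]
  ring

theorem plusQ_nondeg (m : ℕ) : ∀ x, (∀ y, polar (plusQ m F) x y = 0) → x = 0 := by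
  induction m with
  | zero =>
    intro x _
    funext i
    rcases i with i | i <;> exact i.elim0
  | succ m ih => exact nondeg_step (plusE m) _ _ (plusQ_step m) ih

theorem card_plus_succ [Fintype F] (m : ℕ) :
    Nat.card (Cfsg.isometryGroup F (Cfsg.quadFormPlus (m + 1) F))
      = (Nat.card {x : Fin (m + 1) ⊕ Fin (m + 1) → F // Cfsg.quadFormPlus (m + 1) F x = 0} - 1)
        * Fintype.card F ^ (2 * m) * Nat.card (Cfsg.isometryGroup F (Cfsg.quadFormPlus m F)) := by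
  have h := card_isom_step (plusE m) (plusQ (m + 1) F) (plusQ m F) (plusQ_step m)
    (plusQ_nondeg m)
  rw [plusQ_coe, plusQ_coe] at h
  rw [h, Fintype.card_sum, Fintype.card_fin, two_mul]

theorem card_plus_zero : Nat.card (Cfsg.isometryGroup F (Cfsg.quadFormPlus 0 F)) = 1 := by
  rw [Nat.card_eq_one_iff_unique]
  refine ⟨⟨fun a b => ?_⟩, ⟨1⟩⟩
  apply Subtype.ext
  apply Units.ext
  ext i
  rcases i with i | i <;> exact i.elim0

/-! ### odd dimension -/

/-- the odd-dimensional form, bundled -/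
noncomputable def oddQ (m : ℕ) (F : Type*) [Field F] :
    QuadraticForm F (Unit ⊕ (Fin m ⊕ Fin m) → F) :=
  QuadraticMap.linMulLin (LinearMap.proj (Sum.inl ())) (LinearMap.proj (Sum.inl ()))
    + ∑ i : Fin m, QuadraticMap.linMulLin (LinearMap.proj (Sum.inr (Sum.inl i)))
        (LinearMap.proj (Sum.inr (Sum.inr i)))

theorem oddQ_coe (m : ℕ) : ⇑(oddQ m F) = Cfsg.quadFormOdd m F := by
  funext v
  simp [oddQ, Cfsg.quadFormOdd, QuadraticMap.linMulLin_apply, pow_two]

def oddE (m : ℕ) :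
    (Unit ⊕ (Fin m ⊕ Fin m)) ⊕ Fin 2 ≃ Unit ⊕ (Fin (m + 1) ⊕ Fin (m + 1)) where
  toFun := Sum.elim (Sum.map id (Sum.map Fin.succ Fin.succ))
    ![Sum.inr (Sum.inl 0), Sum.inr (Sum.inr 0)]
  invFun := Sum.elim (fun _ => Sum.inl (Sum.inl ()))
    (Sum.elim (Fin.cases (Sum.inr 0) (fun i => Sum.inl (Sum.inr (Sum.inl i))))
      (Fin.cases (Sum.inr 1) (fun i => Sum.inl (Sum.inr (Sum.inr i)))))
  left_inv := by
    rintro ((u | i | i) | t)
    · simp
    · simp
    · simp
    · fin_cases t <;> simp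
  right_inv := by
    rintro (u | i | i)
    · simp
    · refine Fin.cases ?_ (fun i => ?_) i <;> simp
    · refine Fin.cases ?_ (fun i => ?_) i <;> simp

theorem oddQ_step (m : ℕ) (x : Unit ⊕ (Fin (m + 1) ⊕ Fin (m + 1)) → F) :
    oddQ (m + 1) F x = oddQ m F (fun k => x (oddE m (Sum.inl k)))
      + x (oddE m (Sum.inr 0)) * x (oddE m (Sum.inr 1)) := by
  rw [oddQ_coe, oddQ_coe]
  unfold Cfsg.quadFormOdd
  rw [Fin.sum_univ_succ]
  simp [oddE]
  ring

theorem oddQ_nondeg (h2 : (2 : F) ≠ 0) (m : ℕ) :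
    ∀ x, (∀ y, polar (oddQ m F) x y = 0) → x = 0 := by
  induction m with
  | zero =>
    intro x hx
    have h1 := hx (fun _ => 1)
    unfold polar at h1
    rw [oddQ_coe] at h1
    simp only [Cfsg.quadFormOdd, Finset.univ_eq_empty, Finset.sum_empty, add_zero,
      Pi.add_apply] at h1
    have h3 : 2 * x (Sum.inl ()) = 0 := by linear_combination h1
    have h4 : x (Sum.inl ()) = 0 := by
      rcases mul_eq_zero.mp h3 with h | h
      · exact absurd h h2
      · exact h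
    funext i
    rcases i with i | i | i
    · exact h4
    · exact i.elim0
    · exact i.elim0
  | succ m ih => exact nondeg_step (oddE m) _ _ (oddQ_step m) ih

theorem card_odd_succ [Fintype F] (h2 : (2 : F) ≠ 0) (m : ℕ) :
    Nat.card (Cfsg.isometryGroup F (Cfsg.quadFormOdd (m + 1) F))
      = (Nat.card {x : Unit ⊕ (Fin (m + 1) ⊕ Fin (m + 1)) → F //
          Cfsg.quadFormOdd (m + 1) F x = 0} - 1)
        * Fintype.card F ^ (2 * m + 1)
        * Nat.card (Cfsg.isometryGroup F (Cfsg.quadFormOdd m F)) := by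
  have h := card_isom_step (oddE m) (oddQ (m + 1) F) (oddQ m F) (oddQ_step m)
    (oddQ_nondeg h2 m)
  rw [oddQ_coe, oddQ_coe] at h
  rw [h, Fintype.card_sum, Fintype.card_sum, Fintype.card_fin, Fintype.card_unit]
  congr 3
  omega

theorem card_odd_zero [Fintype F] (h2 : (2 : F) ≠ 0) :
    Nat.card (Cfsg.isometryGroup F (Cfsg.quadFormOdd 0 F)) = 2 := by
  classical
  have hQ : ∀ v : Unit ⊕ (Fin 0 ⊕ Fin 0) → F, Cfsg.quadFormOdd 0 F v = v (Sum.inl ()) ^ 2 := by
    intro v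
    simp [Cfsg.quadFormOdd]
  have hmv : ∀ (A : Matrix (Unit ⊕ (Fin 0 ⊕ Fin 0)) (Unit ⊕ (Fin 0 ⊕ Fin 0)) F)
      (v : Unit ⊕ (Fin 0 ⊕ Fin 0) → F),
      (A *ᵥ v) (Sum.inl ()) = A (Sum.inl ()) (Sum.inl ()) * v (Sum.inl ()) := by
    intro A v
    simp [Matrix.mulVec, dotProduct, Fintype.sum_sum_type]
  have e : Cfsg.isometryGroup F (Cfsg.quadFormOdd 0 F) ≃ {c : F // c ^ 2 = 1} := by
    refine Equiv.ofBijective (fun g => ⟨((g : Matrix.GeneralLinearGroup (Unit ⊕ (Fin 0 ⊕ Fin 0)) F) :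
      Matrix (Unit ⊕ (Fin 0 ⊕ Fin 0)) (Unit ⊕ (Fin 0 ⊕ Fin 0)) F) (Sum.inl ()) (Sum.inl ()),
      ?_⟩) ⟨?_, ?_⟩
    · have h := (mem_isometryGroup_iff _ g.1).mp g.2 (fun _ => 1)
      rw [hQ, hQ, hmv] at h
      simpa using h
    · intro g h hgh
      apply Subtype.ext
      apply Units.ext
      ext i j
      rcases i with i | i | i
      · rcases j with j | j | j
        · exact congrArg Subtype.val hgh
        · exact j.elim0
        · exact j.elim0
      · exact i.elim0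
      · exact i.elim0
    · rintro ⟨c, hc⟩
      have hc0 : c ≠ 0 := by
        rintro rfl
        simp at hc
      obtain ⟨g, hg⟩ : ∃ g : Matrix.GeneralLinearGroup (Unit ⊕ (Fin 0 ⊕ Fin 0)) F,
          (g : Matrix (Unit ⊕ (Fin 0 ⊕ Fin 0)) (Unit ⊕ (Fin 0 ⊕ Fin 0)) F) = c • 1 :=
        ⟨⟨c • 1, c⁻¹ • 1, by simp [hc0], by simp [hc0]⟩, rfl⟩
      refine ⟨⟨g, (mem_isometryGroup_iff _ _).mpr ?_⟩, ?_⟩
      · intro v
        rw [hQ, hQ, hmv, hg]
        simp only [Matrix.smul_apply, Matrix.one_apply_eq, smul_eq_mul, mul_one]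
        rw [mul_pow, hc, one_mul]
      · apply Subtype.ext
        show (g : Matrix (Unit ⊕ (Fin 0 ⊕ Fin 0)) (Unit ⊕ (Fin 0 ⊕ Fin 0)) F)
          (Sum.inl ()) (Sum.inl ()) = c
        rw [hg]
        simp
  rw [Nat.card_congr e, Nat.card_eq_fintype_card, Fintype.card_subtype]
  have h3 : Finset.univ.filter (fun c : F => c ^ 2 = 1) = {1, -1} := by
    ext c
    simp
  rw [h3, Finset.card_pair]
  intro h
  apply h2
  linear_combination h

end orthforms

end Cfsg.Agent.Lib.Helper3
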