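import Mathlib
import Cfsg.Prelude
import Cfsg.Agent.S0765
import Cfsg.Agent.S0766

set_option autoImplicit false

namespace Cfsg.Agent.Lib.Helper3

open Matrix Cfsg
open scoped commutatorElement

section sp

variable {F : Type*} [Field F] (m : ℕ)

/-- block upper unitriangular matrices with symmetric corner are symplectic -/
theorem spU_mem (S : Matrix (Fin m) (Fin m) F) (hS : Sᵀ = S) :
    Matrix.fromBlocks 1 S 0 1 ∈ Matrix.symplecticGroup (Fin m) F := by
  rw [SymplecticGroup.mem_iff]
  unfold Matrix.J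
  rw [Matrix.fromBlocks_transpose, Matrix.fromBlocks_multiply, Matrix.fromBlocks_multiply]
  simp [hS]

/-- block lower unitriangular matrices with symmetric corner are symplectic -/
theorem spL_mem (S : Matrix (Fin m) (Fin m) F) (hS : Sᵀ = S) :
    Matrix.fromBlocks 1 0 S 1 ∈ Matrix.symplecticGroup (Fin m) F := by
  rw [SymplecticGroup.mem_iff]
  unfold Matrix.J
  rw [Matrix.fromBlocks_transpose, Matrix.fromBlocks_multiply, Matrix.fromBlocks_multiply]
  simp [hS]

/-- block diagonal matrices `diag(P, Qᵀ)` with `P * Q = 1` are symplectic -/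
theorem spD_mem (P Q : Matrix (Fin m) (Fin m) F) (h : P * Q = 1) :
    Matrix.fromBlocks P 0 0 Qᵀ ∈ Matrix.symplecticGroup (Fin m) F := by
  rw [SymplecticGroup.mem_iff]
  unfold Matrix.J
  rw [Matrix.fromBlocks_transpose, Matrix.fromBlocks_multiply, Matrix.fromBlocks_multiply]
  have h2 : Qᵀ * Pᵀ = 1 := by rw [← Matrix.transpose_mul, h, Matrix.transpose_one]
  simp [h, h2]

/-- the property: the block unitriangular matrix of `S` is (the value of) an element of the
commutator subgroup -/
def SpUComm (S : Matrix (Fin m) (Fin m) F) : Prop :=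
  ∃ g ∈ commutator (Matrix.symplecticGroup (Fin m) F),
    (g : Matrix (Fin m ⊕ Fin m) (Fin m ⊕ Fin m) F) = Matrix.fromBlocks 1 S 0 1

theorem spUComm_key (P Q : Matrix (Fin m) (Fin m) F) (h : P * Q = 1)
    (S : Matrix (Fin m) (Fin m) F) (hS : Sᵀ = S) : SpUComm m (P * S * Pᵀ - S) := by
  have h' : Q * P = 1 := mul_eq_one_comm.mp h
  obtain ⟨d, hd⟩ : ∃ d : Matrix.symplecticGroup (Fin m) F,
      (d : Matrix (Fin m ⊕ Fin m) (Fin m ⊕ Fin m) F) = Matrix.fromBlocks P 0 0 Qᵀ :=
    ⟨⟨_, spD_mem m P Q h⟩, rfl⟩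
  obtain ⟨d', hd'⟩ : ∃ d' : Matrix.symplecticGroup (Fin m) F,
      (d' : Matrix (Fin m ⊕ Fin m) (Fin m ⊕ Fin m) F) = Matrix.fromBlocks Q 0 0 Pᵀ :=
    ⟨⟨_, spD_mem m Q P h'⟩, rfl⟩
  obtain ⟨u, hu⟩ : ∃ u : Matrix.symplecticGroup (Fin m) F,
      (u : Matrix (Fin m ⊕ Fin m) (Fin m ⊕ Fin m) F) = Matrix.fromBlocks 1 S 0 1 :=
    ⟨⟨_, spU_mem m S hS⟩, rfl⟩
  obtain ⟨u', hu'⟩ : ∃ u' : Matrix.symplecticGroup (Fin m) F,
      (u' : Matrix (Fin m ⊕ Fin m) (Fin m ⊕ Fin m) F) = Matrix.fromBlocks 1 (-S) 0 1 :=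
    ⟨⟨_, spU_mem m (-S) (by rw [Matrix.transpose_neg, hS])⟩, rfl⟩
  have h2 : Qᵀ * Pᵀ = 1 := by rw [← Matrix.transpose_mul, h, Matrix.transpose_one]
  have hdd : d * d' = 1 := by
    apply Subtype.ext
    rw [Submonoid.coe_mul, hd, hd', Matrix.fromBlocks_multiply]
    simp [h, h2, Matrix.fromBlocks_one]
  have huu : u * u' = 1 := by
    apply Subtype.ext
    rw [Submonoid.coe_mul, hu, hu', Matrix.fromBlocks_multiply]
    simp [Matrix.fromBlocks_one]
  refine ⟨⁅d, u⁆, Subgroup.commutator_mem_commutator (Subgroup.mem_top d) (Subgroup.mem_top u), ?_⟩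
  rw [commutatorElement_def, ← eq_inv_of_mul_eq_one_right hdd, ← eq_inv_of_mul_eq_one_right huu]
  simp only [Submonoid.coe_mul, hd, hd', hu, hu', Matrix.fromBlocks_multiply]
  simp [h, h2, sub_eq_neg_add]

theorem spUComm_add (S1 S2 : Matrix (Fin m) (Fin m) F) (h1 : SpUComm m S1) (h2 : SpUComm m S2) :
    SpUComm m (S1 + S2) := by
  obtain ⟨g1, hg1, e1⟩ := h1
  obtain ⟨g2, hg2, e2⟩ := h2
  refine ⟨g1 * g2, mul_mem hg1 hg2, ?_⟩
  rw [Submonoid.coe_mul, e1, e2, Matrix.fromBlocks_multiply]
  simp [add_comm]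

theorem one_add_single_mul (i j : Fin m) (hij : i ≠ j) :
    (1 + Matrix.single i j (1 : F)) * (1 + Matrix.single i j (-1 : F)) = 1 := by
  have h0 : Matrix.single i j (1 : F) * Matrix.single i j (-1 : F) = 0 :=
    Matrix.single_mul_single_of_ne (h := hij.symm) ..
  simp only [mul_add, add_mul, mul_one, one_mul, h0, add_zero]
  rw [add_assoc, ← Matrix.single_add]
  simp

/-- three distinct indices: all fields -/
theorem spUComm_single_of_three (i j k : Fin m) (hij : i ≠ j) (hik : i ≠ k) (hjk : j ≠ k) (c : F) :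
    SpUComm m (Matrix.single i i c) := by
  have e1 : SpUComm m (Matrix.single i i c + Matrix.single i j c + Matrix.single j i c) := by
    have hPQ : (1 + Matrix.single i j (1 : F)) * (1 + Matrix.single i j (-1 : F)) = 1 := by
      exact one_add_single_mul m i j hij
    have := spUComm_key m _ _ hPQ (Matrix.single j j c) (by simp [Matrix.transpose_single])
    convert this using 1
    simp [mul_add, add_mul, Matrix.transpose_single, Matrix.single_mul_single_of_ne,
      Matrix.single_mul_single_same, hij, hij.symm]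
    abel
  have e2 : SpUComm m (Matrix.single i j (-c) + Matrix.single j i (-c)) := by
    have hPQ : (1 + Matrix.single i k (1 : F)) * (1 + Matrix.single i k (-1 : F)) = 1 := by
      exact one_add_single_mul m i k hik
    have := spUComm_key m _ _ hPQ (Matrix.single k j (-c) + Matrix.single j k (-c))
      (by simp [Matrix.transpose_single, add_comm])
    convert this using 1
    simp [mul_add, add_mul, Matrix.transpose_single, Matrix.single_mul_single_of_ne,
      Matrix.single_mul_single_same, hij, hij.symm, hik, hik.symm, hjk, hjk.symm]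
    abel
  have := spUComm_add m _ _ e1 e2
  convert this using 1
  rw [← Matrix.single_neg, ← Matrix.single_neg]
  abel

/-- two distinct indices, characteristic not two -/
theorem spUComm_single_of_two (i j : Fin m) (hij : i ≠ j) (h2 : (2 : F) ≠ 0) (c : F) :
    SpUComm m (Matrix.single i i c) := by
  have hPQ : (1 + Matrix.single i j (1 : F)) * (1 + Matrix.single i j (-1 : F)) = 1 := by
    exact one_add_single_mul m i j hij
  have := spUComm_key m _ _ hPQ (Matrix.single i j (c / 2) + Matrix.single j i (c / 2))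
    (by simp [Matrix.transpose_single, add_comm])
  convert this using 1
  simp [mul_add, add_mul, Matrix.transpose_single, Matrix.single_mul_single_of_ne,
    Matrix.single_mul_single_same, hij, hij.symm]
  have hc : Matrix.single i i c = Matrix.single i i (c / 2) + Matrix.single i i (c / 2) := by
    have : NeZero (2 : F) := ⟨h2⟩
    rw [← Matrix.single_add, add_halves]
  rw [hc]
  abel

/-- one index, a scalar whose square is not one -/
theorem spUComm_single_of_sq (i : Fin m) (a : F) (ha : a ≠ 0) (ha2 : a ^ 2 ≠ 1) (c : F) :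
    SpUComm m (Matrix.single i i c) := by
  have hPQ : (1 + Matrix.single i i (a - 1)) * (1 + Matrix.single i i (a⁻¹ - 1)) = 1 := by
    simp only [mul_add, add_mul, mul_one, one_mul, Matrix.single_mul_single_same]
    rw [add_assoc, ← Matrix.single_add, ← Matrix.single_add]
    have : a - 1 + (a⁻¹ - 1 + (a - 1) * (a⁻¹ - 1)) = 0 := by field_simp; ring
    rw [this, Matrix.single_zero, add_zero]
  have hne : a ^ 2 - 1 ≠ 0 := sub_ne_zero.mpr ha2
  have := spUComm_key m _ _ hPQ (Matrix.single i i (c / (a ^ 2 - 1)))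
    (by simp [Matrix.transpose_single])
  convert this using 1
  simp only [mul_add, add_mul, mul_one, one_mul, Matrix.single_mul_single_same,
    Matrix.transpose_add, Matrix.transpose_one, Matrix.transpose_single]
  rw [sub_eq_add_neg, Matrix.single_neg, ← Matrix.single_add, ← Matrix.single_add,
    ← Matrix.single_add, ← Matrix.single_add]
  congr 1
  field_simp
  ring

/-- conjugating a symplectic transvection -/
theorem sp_conj_transvection (A : Matrix.symplecticGroup (Fin m) F) (w : Fin m ⊕ Fin m → F)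
    (c : F) :
    (A : Matrix (Fin m ⊕ Fin m) (Fin m ⊕ Fin m) F) * sympTransvection m w c *
        ((A⁻¹ : Matrix.symplecticGroup (Fin m) F) : Matrix (Fin m ⊕ Fin m) (Fin m ⊕ Fin m) F)
      = sympTransvection m ((A : Matrix (Fin m ⊕ Fin m) (Fin m ⊕ Fin m) F) *ᵥ w) c := by
  apply Matrix.mulVec_injective
  funext x
  have h1 : (A : Matrix (Fin m ⊕ Fin m) (Fin m ⊕ Fin m) F) *ᵥ
      (((A⁻¹ : Matrix.symplecticGroup (Fin m) F) : Matrix (Fin m ⊕ Fin m) (Fin m ⊕ Fin m) F)
        *ᵥ x) = x := by
    rw [Matrix.mulVec_mulVec, ← Submonoid.coe_mul, mul_inv_cancel, Submonoid.coe_one,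
      Matrix.one_mulVec]
  have h2 := Cfsg.Agent.S0766.form_pres m A
    (((A⁻¹ : Matrix.symplecticGroup (Fin m) F) : Matrix (Fin m ⊕ Fin m) (Fin m ⊕ Fin m) F)
        *ᵥ x) w
  rw [h1] at h2
  rw [← Matrix.mulVec_mulVec, ← Matrix.mulVec_mulVec, Cfsg.Agent.S0766.tv_mulVec,
    Cfsg.Agent.S0766.tv_mulVec, Matrix.mulVec_add, Matrix.mulVec_smul, h1, h2]

theorem sympTransvection_zero (c : F) : sympTransvection m (0 : Fin m ⊕ Fin m → F) c = 1 := by
  unfold sympTransvection
  simp

theorem sympTransvection_single (i : Fin m) (c : F) :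
    sympTransvection m (Pi.single (Sum.inl i) (1 : F)) c
      = Matrix.fromBlocks 1 (Matrix.single i i c) 0 1 := by
  apply Matrix.mulVec_injective
  funext x
  rw [Cfsg.Agent.S0766.tv_mulVec]
  ext (a | a)
  · simp [Matrix.mulVec, dotProduct, Matrix.fromBlocks, Fintype.sum_sum_type, Matrix.one_apply,
      Matrix.single_apply, sympForm, Matrix.J, Pi.single_apply]
    by_cases h : a = i
    · subst h; simp
    · have h' : ¬ i = a := fun e => h e.symm
      simp [h, h']
  · simp [Matrix.mulVec, dotProduct, Matrix.fromBlocks, Fintype.sum_sum_type, Matrix.one_apply,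
      Matrix.single_apply, sympForm, Matrix.J, Pi.single_apply]

end sp

end Cfsg.Agent.Lib.Helper3
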