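import Mathlib
import Cfsg.Agent.Lib.Helper3.Dihedral

set_option autoImplicit false
open Pointwise

namespace Cfsg.Agent.Lib.Helper3

variable {G : Type*} [Group G]

/-- `n^2 = ∑_g c(g)` where `c(g)` is the number of ordered pairs of involutions with product `g`. -/
theorem sq_card_invol_eq_sum [Fintype G] :
    Nat.card {t : G // orderOf t = 2} ^ 2 = ∑ g : G, Nat.card (InvPairs g) := by
  rw [← Nat.card_sigma, pow_two, ← Nat.card_prod]
  apply Nat.card_congr
  refine
    { toFun := fun q => ⟨q.1.1 * q.2.1, ⟨(q.1.1, q.2.1), q.1.2, q.2.2, rfl⟩⟩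
      invFun := fun σ => (⟨σ.2.1.1, σ.2.2.1⟩, ⟨σ.2.1.2, σ.2.2.2.1⟩)
      left_inv := fun q => rfl
      right_inv := ?_ }
  rintro ⟨g, ⟨⟨u, v⟩, hu, hv, rfl⟩⟩
  rfl

theorem card_invPairs_one [Finite G] :
    Nat.card (InvPairs (1 : G)) = Nat.card {t : G // orderOf t = 2} := by
  apply Nat.card_congr
  refine
    { toFun := fun p => ⟨p.1.1, p.2.1⟩
      invFun := fun t => ⟨(t.1, t.1), t.2, t.2, invol_mul_self t.2⟩
      left_inv := ?_
      right_inv := fun t => rfl }
  intro p
  apply Subtype.ext
  apply Prod.ext
  · rfl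
  · have := invPairs_snd p
    rw [mul_one] at this
    exact this.symm

theorem card_invPairs_le [Finite G] (x : G) :
    Nat.card (InvPairs x) ≤ Nat.card (Subgroup.centralizer ({x} : Set G)) := by
  by_cases hne : Nonempty (InvPairs x)
  · obtain ⟨p₀⟩ := hne
    rw [← card_inverting (invPairs_fst_inverts p₀)]
    exact Nat.card_le_card_of_injective
      (fun p : InvPairs x => (⟨p.1.1, invPairs_fst_inverts p⟩ : {g : G // g * x * g⁻¹ = x⁻¹}))
      (by
        intro p q h
        exact invPairs_fst_injective x (Subtype.ext_iff.mp h))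
  · rw [not_nonempty_iff] at hne
    simp

theorem invPairs_fst_ne {x : G} (p : InvPairs x) : p.1.1 ≠ x := by
  intro h
  have h3 := p.2.2.2
  rw [h] at h3
  have : p.1.2 = 1 := mul_left_cancel (h3.trans (mul_one x).symm)
  exact invol_ne_one p.2.2.1 this

theorem invPairs_fst_comm {x : G} (hx : orderOf x = 2) (p : InvPairs x) : x * p.1.1 = p.1.1 * x := by
  have h := invPairs_fst_inverts p
  rw [invol_inv hx] at h
  calc x * p.1.1 = p.1.1 * x * (p.1.1)⁻¹ * p.1.1 := by rw [h]
    _ = p.1.1 * x := by group

theorem card_invPairs_add_two_le [Finite G] {x : G} (hx : orderOf x = 2) :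
    Nat.card (InvPairs x) + 2 ≤ Nat.card (Subgroup.centralizer ({x} : Set G)) := by
  classical
  have hx1 := invol_ne_one hx
  let f : Option (Option (InvPairs x)) → Subgroup.centralizer ({x} : Set G) := fun o => match o with
    | none => 1
    | some none => ⟨x, mem_cent_singleton.mpr rfl⟩
    | some (some p) => ⟨p.1.1, mem_cent_singleton.mpr (invPairs_fst_comm hx p)⟩
  have hf : Function.Injective f := by
    intro a b hab
    have hab' : ((f a : Subgroup.centralizer ({x} : Set G)) : G) = f b := congrArg _ hab
    rcases a with _ | _ | p <;> rcases b with _ | _ | q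
    · rfl
    · exact absurd hab'.symm hx1
    · exact absurd hab'.symm (invol_ne_one q.2.1)
    · exact absurd hab' hx1
    · rfl
    · exact absurd hab'.symm (invPairs_fst_ne q)
    · exact absurd hab' (invol_ne_one p.2.1)
    · exact absurd hab' (invPairs_fst_ne p)
    · have := invPairs_fst_injective x hab'
      rw [this]
  have := Nat.card_le_card_of_injective f hf
  have h2 : Nat.card (Option (Option (InvPairs x))) = Nat.card (InvPairs x) + 2 := by
    simp
  omega

/-- membership in the extended centralizer -/
theorem mem_normalizer_pair {g h : G} :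
    h ∈ Subgroup.normalizer ({g, g⁻¹} : Set G) ↔ h * g * h⁻¹ = g ∨ h * g * h⁻¹ = g⁻¹ := by
  rw [Subgroup.mem_set_normalizer_iff]
  constructor
  · intro H
    have := (H g).mp (by simp)
    simpa using this
  · intro H n
    have hinv : h * g⁻¹ * h⁻¹ = (h * g * h⁻¹)⁻¹ := by group
    have back : ∀ y : G, h * n * h⁻¹ = y → n = h⁻¹ * y * h := by
      intro y hy; rw [← hy]; group
    have finv : h⁻¹ * g⁻¹ * h = (h⁻¹ * g * h)⁻¹ := by group
    rcases H with H | H
    · have f1 : h⁻¹ * g * h = g := by
        calc h⁻¹ * g * h = h⁻¹ * (h * g * h⁻¹) * h := by rw [H]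
          _ = g := by group
      have f2 : h⁻¹ * g⁻¹ * h = g⁻¹ := by rw [finv, f1]
      constructor
      · intro hn
        rcases hn with rfl | rfl
        · rw [H]; simp
        · rw [hinv, H]; simp
      · intro hn
        rcases hn with hn | hn
        · rw [back _ hn, f1]; simp
        · have hn' : h * n * h⁻¹ = g⁻¹ := hn
          rw [back _ hn', f2]; simp
    · have f1 : h⁻¹ * g * h = g⁻¹ := by
        calc h⁻¹ * g * h = (h⁻¹ * g⁻¹ * h)⁻¹ := by group
          _ = (h⁻¹ * (h * g * h⁻¹) * h)⁻¹ := by rw [H]
          _ = g⁻¹ := by group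
      have f2 : h⁻¹ * g⁻¹ * h = g := by rw [finv, f1, inv_inv]
      constructor
      · intro hn
        rcases hn with rfl | rfl
        · rw [H]; simp
        · rw [hinv, H]; simp
      · intro hn
        rcases hn with hn | hn
        · rw [back _ hn, f1]; simp
        · have hn' : h * n * h⁻¹ = g⁻¹ := hn
          rw [back _ hn', f2]; simp

theorem card_normalizer_pair [Finite G] {g u : G} (hg : g * g ≠ 1) (hu : u * g * u⁻¹ = g⁻¹) :
    Nat.card (Subgroup.normalizer ({g, g⁻¹} : Set G)) =
      2 * Nat.card (Subgroup.centralizer ({g} : Set G)) := by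
  classical
  have hne : g ≠ g⁻¹ := by
    intro h
    apply hg
    nth_rewrite 1 [h]
    exact inv_mul_cancel g
  have e : Subgroup.normalizer ({g, g⁻¹} : Set G) ≃
      Subgroup.centralizer ({g} : Set G) ⊕ {h : G // h * g * h⁻¹ = g⁻¹} :=
    { toFun := fun h => if hh : h.1 * g * h.1⁻¹ = g then
          Sum.inl ⟨h.1, by
            rw [mem_cent_singleton]
            calc g * h.1 = (h.1 * g * h.1⁻¹) * h.1 := by rw [hh]
              _ = h.1 * g := by group⟩
        else Sum.inr ⟨h.1, (mem_normalizer_pair.mp h.2).resolve_left hh⟩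
      invFun := fun s => match s with
        | Sum.inl c => ⟨c.1, mem_normalizer_pair.mpr (Or.inl (by
            have := mem_cent_singleton.mp c.2
            calc c.1 * g * c.1⁻¹ = g * c.1 * c.1⁻¹ := by rw [this]
              _ = g := by group))⟩
        | Sum.inr i => ⟨i.1, mem_normalizer_pair.mpr (Or.inr i.2)⟩
      left_inv := by
        intro h
        by_cases hh : h.1 * g * h.1⁻¹ = g
        · simp only [hh, dite_true]
        · simp only [hh, dite_false]
      right_inv := by
        intro s
        rcases s with c | i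
        · have := mem_cent_singleton.mp c.2
          have hh : c.1 * g * c.1⁻¹ = g := by
            calc c.1 * g * c.1⁻¹ = g * c.1 * c.1⁻¹ := by rw [this]
              _ = g := by group
          simp only [hh, dite_true]
        · have hh : ¬ (i.1 * g * i.1⁻¹ = g) := by
            rw [i.2]; exact fun h => hne h.symm
          simp only [hh, dite_false] }
  rw [Nat.card_congr e, Nat.card_sum, card_inverting hu, two_mul]

end Cfsg.Agent.Lib.Helper3
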