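import Mathlib
import Cfsg.Agent.Lib.Helper3.SpSqDL

/-!
Squares in the kernel of a "determinant" on the subgroup `T ≀ H` of a monomial system lie in the
commutator subgroup of that kernel (two sufficient conditions).
-/

set_option autoImplicit false

namespace Cfsg.Agent.Lib.Helper3

open scoped commutatorElement

universe u v

/-- squares modulo the commutator subgroup are multiplicative -/
theorem sq_mul_mem {X : Type*} [Group X] (K : Subgroup X) {y z : X} (hy : y ∈ K) (hz : z ∈ K)
    (hy2 : y ^ 2 ∈ ⁅K, K⁆) (hz2 : z ^ 2 ∈ ⁅K, K⁆) : (y * z) ^ 2 ∈ ⁅K, K⁆ := by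
  have h1 : (y * z) ^ 2 = y ^ 2 * ⁅y⁻¹, z⁆ * z ^ 2 := by
    rw [commutatorElement_def, pow_two, pow_two, pow_two]
    group
  rw [h1]
  exact Subgroup.mul_mem _ (Subgroup.mul_mem _ hy2
    (Subgroup.commutator_mem_commutator (K.inv_mem hy) hz)) hz2

namespace MonSys

variable {Ω : Type} {D : Type u} {X : Type v} [Group D] [Group X]

/-- **Squares in the determinant-one part of `T ≀ H`.** -/
theorem ker_sq [Fintype Ω] [DecidableEq Ω] {A : Type*} [CommGroup A] (S : MonSys Ω D X)
    (Δ : X →* A) (δ : D →* A)
    (hΔι : ∀ g : Ω → D, Δ (S.ι g) = ∏ i, δ (g i)) (hΔπ : ∀ σ : Equiv.Perm Ω, Δ (S.π σ) = 1)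
    (T : Subgroup D) (H : Subgroup (Equiv.Perm Ω))
    (hQ : ∀ t ∈ T ⊓ δ.ker, t ^ 2 ∈ ⁅T ⊓ δ.ker, T ⊓ δ.ker⁆)
    (hH : ∀ σ ∈ H, σ ^ 2 ∈ ⁅H, H⁆)
    (hcase : (∃ u ∈ T, u ^ 2 = 1 ∧ ∀ s ∈ T, δ s = 1 ∨ δ s = δ u) ∨
      (∀ i j : Ω, i ≠ j → ∃ τ ∈ H, τ i = j ∧ τ j = i)) :
    ∀ x ∈ S.sub T H ⊓ Δ.ker, x ^ 2 ∈ ⁅S.sub T H ⊓ Δ.ker, S.sub T H ⊓ Δ.ker⁆ := by
  classical
  have hιK : ∀ g : Ω → D, (∀ i, g i ∈ T) → (∏ i, δ (g i)) = 1 → S.ι g ∈ S.sub T H ⊓ Δ.ker := by
    intro g hg hprod
    refine ⟨⟨g, hg, 1, H.one_mem, by rw [map_one, mul_one]⟩, ?_⟩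
    show Δ (S.ι g) = 1
    rw [hΔι, hprod]
  have hπK : ∀ σ ∈ H, S.π σ ∈ S.sub T H ⊓ Δ.ker := by
    intro σ hσ
    exact ⟨⟨1, fun _ => T.one_mem, σ, hσ, by rw [map_one, one_mul]⟩,
      MonoidHom.mem_ker.mpr (hΔπ σ)⟩
  have h0 : ∀ s : Ω → D, (∀ i, s i ∈ T ⊓ δ.ker) →
      (S.ι s) ^ 2 ∈ ⁅S.sub T H ⊓ Δ.ker, S.sub T H ⊓ Δ.ker⁆ := by
    intro s hs
    have hs2 : s ^ 2 ∈ ⁅Subgroup.pi Set.univ (fun _ : Ω => T ⊓ δ.ker),
        Subgroup.pi Set.univ (fun _ : Ω => T ⊓ δ.ker)⁆ := by
      rw [Subgroup.commutator_pi_pi_of_finite]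
      intro i _
      exact hQ (s i) (hs i)
    have hle : (Subgroup.pi Set.univ (fun _ : Ω => T ⊓ δ.ker)).map S.ι ≤
        S.sub T H ⊓ Δ.ker := by
      rintro _ ⟨g', hg', rfl⟩
      refine hιK g' (fun i => (hg' i (Set.mem_univ i)).1) ?_
      exact Finset.prod_eq_one (fun i _ => MonoidHom.mem_ker.mp (hg' i (Set.mem_univ i)).2)
    have h2 : S.ι (s ^ 2) ∈ (⁅Subgroup.pi Set.univ (fun _ : Ω => T ⊓ δ.ker),
        Subgroup.pi Set.univ (fun _ : Ω => T ⊓ δ.ker)⁆).map S.ι :=
      Subgroup.mem_map_of_mem _ hs2
    rw [Subgroup.map_commutator] at h2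
    rw [← map_pow]
    exact Subgroup.commutator_mono hle hle h2
  -- the base part
  have h2 : ∀ g : Ω → D, (∀ i, g i ∈ T) → (∏ i, δ (g i)) = 1 →
      (S.ι g) ^ 2 ∈ ⁅S.sub T H ⊓ Δ.ker, S.sub T H ⊓ Δ.ker⁆ := by
    rcases hcase with ⟨u, huT, hu2, hu⟩ | hswap
    · intro g hg hprod
      let U : Ω → D := fun i => if δ (g i) = 1 then 1 else u
      let s : Ω → D := fun i => g i * (U i)⁻¹
      have hUT : ∀ i, U i ∈ T := by
        intro i
        show (if δ (g i) = 1 then 1 else u) ∈ T
        split_ifs
        · exact T.one_mem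
        · exact huT
      have hδU : ∀ i, δ (U i) = δ (g i) := by
        intro i
        show δ (if δ (g i) = 1 then 1 else u) = δ (g i)
        split_ifs with h
        · rw [map_one, h]
        · rcases hu (g i) (hg i) with h' | h'
          · exact absurd h' h
          · exact h'.symm
      have hsQ : ∀ i, s i ∈ T ⊓ δ.ker := by
        intro i
        refine ⟨T.mul_mem (hg i) (T.inv_mem (hUT i)), ?_⟩
        show δ (g i * (U i)⁻¹) = 1
        rw [map_mul, map_inv, hδU, mul_inv_cancel]
      have hU2 : U ^ 2 = 1 := by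
        funext i
        show (if δ (g i) = 1 then 1 else u) ^ 2 = 1
        split_ifs
        · exact one_pow 2
        · exact hu2
      have hgs : g = s * U := by
        funext i
        show g i = g i * (U i)⁻¹ * U i
        rw [inv_mul_cancel_right]
      have hUK : S.ι U ∈ S.sub T H ⊓ Δ.ker :=
        hιK U hUT (by rw [← hprod]; exact Finset.prod_congr rfl (fun i _ => hδU i))
      have hsK : S.ι s ∈ S.sub T H ⊓ Δ.ker :=
        hιK s (fun i => (hsQ i).1)
          (Finset.prod_eq_one (fun i _ => MonoidHom.mem_ker.mp (hsQ i).2))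
      rw [hgs, map_mul]
      refine sq_mul_mem _ hsK hUK (h0 s hsQ) ?_
      rw [← map_pow, hU2, map_one]
      exact Subgroup.one_mem _
    · -- the elements `e = (t at a, t⁻¹ at b)`
      have he : ∀ (a b : Ω), a ≠ b → ∀ t ∈ T,
          S.ι (fun i => if i = a then t else if i = b then t⁻¹ else 1) ∈ S.sub T H ⊓ Δ.ker ∧
          (S.ι (fun i => if i = a then t else if i = b then t⁻¹ else 1)) ^ 2 ∈
            ⁅S.sub T H ⊓ Δ.ker, S.sub T H ⊓ Δ.ker⁆ ∧
          (∏ i, δ ((fun i => if i = a then t else if i = b then t⁻¹ else 1 : Ω → D) i)) = 1 := by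
        intro a b hab t ht
        have heT : ∀ i, (fun i => if i = a then t else if i = b then t⁻¹ else 1 : Ω → D) i ∈ T := by
          intro i
          show (if i = a then t else if i = b then t⁻¹ else 1) ∈ T
          split_ifs
          · exact ht
          · exact T.inv_mem ht
          · exact T.one_mem
        have heprod : (∏ i, δ ((fun i => if i = a then t else if i = b then t⁻¹ else 1 : Ω → D) i))
            = 1 := by
          have h1 : ∀ i, δ ((fun i => if i = a then t else if i = b then t⁻¹ else 1 : Ω → D) i) =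
              (if i = a then δ t else 1) * (if i = b then (δ t)⁻¹ else 1) := by
            intro i
            show δ (if i = a then t else if i = b then t⁻¹ else 1) = _
            by_cases h1 : i = a
            · have h2 : i ≠ b := fun h => hab (h1.symm.trans h)
              rw [if_pos h1, if_pos h1, if_neg h2, mul_one]
            · by_cases h2 : i = b
              · rw [if_neg h1, if_pos h2, if_neg h1, if_pos h2, one_mul, map_inv]
              · rw [if_neg h1, if_neg h2, if_neg h1, if_neg h2, map_one, one_mul]
          rw [Finset.prod_congr rfl (fun i _ => h1 i), Finset.prod_mul_distrib,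
            Finset.prod_ite_eq' Finset.univ a (fun _ => δ t),
            Finset.prod_ite_eq' Finset.univ b (fun _ => (δ t)⁻¹),
            if_pos (Finset.mem_univ a), if_pos (Finset.mem_univ b), mul_inv_cancel]
        have heK := hιK _ heT heprod
        refine ⟨heK, ?_, heprod⟩
        obtain ⟨τ, hτ, hτa, hτb⟩ := hswap a b hab
        have hτa' : τ⁻¹ b = a := by rw [Equiv.Perm.inv_eq_iff_eq]; exact hτa.symm
        have hτb' : τ⁻¹ a = b := by rw [Equiv.Perm.inv_eq_iff_eq]; exact hτb.symm
        have hconj : S.π τ * S.ι (fun i => if i = a then t else if i = b then t⁻¹ else 1) =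
            (S.ι (fun i => if i = a then t else if i = b then t⁻¹ else 1))⁻¹ * S.π τ := by
          rw [S.star, ← map_inv]
          congr 2
          funext i
          show (if τ⁻¹ i = a then t else if τ⁻¹ i = b then t⁻¹ else 1) =
            (if i = a then t else if i = b then t⁻¹ else 1)⁻¹
          by_cases h1 : i = a
          · have h3 : τ⁻¹ i ≠ a := by
              rw [h1, hτb']
              exact fun h => hab h.symm
            have h4 : τ⁻¹ i = b := by rw [h1, hτb']
            rw [if_neg h3, if_pos h4, if_pos h1]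
          · by_cases h2 : i = b
            · have h4 : τ⁻¹ i = a := by rw [h2, hτa']
              rw [if_pos h4, if_neg h1, if_pos h2, inv_inv]
            · have h3 : τ⁻¹ i ≠ a := by
                intro h
                apply h2
                rw [← hτa, ← h]
                simp
              have h4 : τ⁻¹ i ≠ b := by
                intro h
                apply h1
                rw [← hτb, ← h]
                simp
              rw [if_neg h3, if_neg h4, if_neg h1, if_neg h2, inv_one]
        have hcomm : ⁅S.π τ, S.ι (fun i => if i = a then t else if i = b then t⁻¹ else 1)⁆ =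
            ((S.ι (fun i => if i = a then t else if i = b then t⁻¹ else 1)) ^ 2)⁻¹ := by
          rw [commutatorElement_def, hconj, pow_two]
          group
        have h5 := Subgroup.commutator_mem_commutator (hπK τ hτ) heK
        rw [hcomm] at h5
        have h6 := Subgroup.inv_mem _ h5
        rw [inv_inv] at h6
        exact h6
      -- induction on the set of coordinates with nontrivial determinant
      have hind : ∀ F : Finset Ω, ∀ g : Ω → D, (∀ i, g i ∈ T) → (∏ i, δ (g i)) = 1 →
          (∀ i, i ∉ F → δ (g i) = 1) →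
          (S.ι g) ^ 2 ∈ ⁅S.sub T H ⊓ Δ.ker, S.sub T H ⊓ Δ.ker⁆ := by
        intro F
        induction F using Finset.induction_on with
        | empty =>
          intro g hg _ hout
          exact h0 g (fun i => ⟨hg i, MonoidHom.mem_ker.mpr (hout i (Finset.notMem_empty i))⟩)
        | insert a F' haF ih =>
          intro g hg hprod hout
          by_cases hga : δ (g a) = 1
          · refine ih g hg hprod (fun i hi => ?_)
            by_cases hia : i = a
            · rw [hia]; exact hga
            · exact hout i (by simp [hia, hi])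
          · obtain ⟨b, hbF, hgb⟩ : ∃ b ∈ F', δ (g b) ≠ 1 := by
              by_contra hcon
              push Not at hcon
              apply hga
              rw [← hprod]
              symm
              refine Finset.prod_eq_single a (fun i _ hia => ?_) (fun h => absurd (Finset.mem_univ a) h)
              by_cases hiF : i ∈ F'
              · exact hcon i hiF
              · exact hout i (by simp [hia, hiF])
            have hba : b ≠ a := fun h => haF (h ▸ hbF)
            obtain ⟨heK, he2, heprod⟩ := he a b (Ne.symm hba) (g a) (hg a)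
            have hg'T : ∀ i, (fun i => g i *
                ((fun i => if i = a then g a else if i = b then (g a)⁻¹ else 1 : Ω → D) i)⁻¹) i ∈ T := by
              intro i
              show g i * (if i = a then g a else if i = b then (g a)⁻¹ else 1)⁻¹ ∈ T
              refine T.mul_mem (hg i) (T.inv_mem ?_)
              split_ifs
              · exact hg a
              · exact T.inv_mem (hg a)
              · exact T.one_mem
            have hg'prod : (∏ i, δ ((fun i => g i *
                ((fun i => if i = a then g a else if i = b then (g a)⁻¹ else 1 : Ω → D) i)⁻¹) i)) = 1 := by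
              have h1 : ∀ i, δ ((fun i => g i *
                  ((fun i => if i = a then g a else if i = b then (g a)⁻¹ else 1 : Ω → D) i)⁻¹) i) =
                  δ (g i) * (δ ((fun i => if i = a then g a else if i = b then (g a)⁻¹ else 1 : Ω → D) i))⁻¹ := by
                intro i
                show δ (g i * (if i = a then g a else if i = b then (g a)⁻¹ else 1)⁻¹) = _
                rw [map_mul, map_inv]
              rw [Finset.prod_congr rfl (fun i _ => h1 i), Finset.prod_mul_distrib,
                Finset.prod_inv_distrib, hprod, heprod, inv_one, mul_one]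
            have hg'out : ∀ i, i ∉ F' → δ ((fun i => g i *
                ((fun i => if i = a then g a else if i = b then (g a)⁻¹ else 1 : Ω → D) i)⁻¹) i) = 1 := by
              intro i hi
              show δ (g i * (if i = a then g a else if i = b then (g a)⁻¹ else 1)⁻¹) = 1
              by_cases hia : i = a
              · rw [if_pos hia, hia, mul_inv_cancel, map_one]
              · have hib : i ≠ b := fun h => hi (h ▸ hbF)
                rw [if_neg hia, if_neg hib, inv_one, mul_one]
                exact hout i (by simp [hia, hi])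
            have hdec : g = (fun i => g i *
                ((fun i => if i = a then g a else if i = b then (g a)⁻¹ else 1 : Ω → D) i)⁻¹) *
                (fun i => if i = a then g a else if i = b then (g a)⁻¹ else 1 : Ω → D) := by
              funext i
              show g i = g i * (if i = a then g a else if i = b then (g a)⁻¹ else 1)⁻¹ *
                (if i = a then g a else if i = b then (g a)⁻¹ else 1)
              rw [inv_mul_cancel_right]
            rw [hdec, map_mul]
            exact sq_mul_mem _ (hιK _ hg'T hg'prod) heK (ih _ hg'T hg'prod hg'out) he2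
      intro g hg hprod
      exact hind Finset.univ g hg hprod (fun i hi => absurd (Finset.mem_univ i) hi)
  -- the general element
  rintro x ⟨⟨g, hg, σ, hσ, rfl⟩, hxΔ⟩
  have hgΔ : (∏ i, δ (g i)) = 1 := by
    have hxΔ' : Δ (S.ι g * S.π σ) = 1 := hxΔ
    rw [map_mul, hΔπ, mul_one, hΔι] at hxΔ'
    exact hxΔ'
  refine sq_mul_mem _ (hιK g hg hgΔ) (hπK σ hσ) (h2 g hg hgΔ) ?_
  have hle : H.map S.π ≤ S.sub T H ⊓ Δ.ker := by
    rintro _ ⟨σ', hσ', rfl⟩
    exact hπK σ' hσ'
  have h3 : S.π (σ ^ 2) ∈ (⁅H, H⁆).map S.π := Subgroup.mem_map_of_mem _ (hH σ hσ)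
  rw [Subgroup.map_commutator] at h3
  rw [← map_pow]
  exact Subgroup.commutator_mono hle hle h3

end MonSys

end Cfsg.Agent.Lib.Helper3
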