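import Mathlib
import Cfsg.Agent.S0750
import Cfsg.Agent.Lib.Helper17.MaxTS
import Cfsg.Agent.Lib.Helper3.ReflClass

/-!
The commutator subgroup of the isometry group of a nondegenerate quadratic form over a finite
field is transitive on the nondegenerate subspaces of each isometry type (dimension at least
three).
-/

set_option autoImplicit false
set_option linter.unusedSectionVars false

namespace Cfsg.Agent.Lib.Helper3

open Cfsg.Agent.Lib.Helper16 Cfsg.Agent.Lib.Helper17 Matrix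

section OmegaTrans

variable {ι : Type} [Fintype ι] [DecidableEq ι] {F : Type*} [Field F] [Fintype F]
variable (Q : QuadraticForm F (ι → F))

/-- A linear isometry as an element of the isometry group. -/
theorem isom_of_linearEquiv (g : (ι → F) ≃ₗ[F] (ι → F)) (hg : ∀ v, Q (g v) = Q v) :
    ∃ γ : ↥(Cfsg.isometryGroup F (⇑Q)),
      ∀ x, ((γ : Matrix.GeneralLinearGroup ι F) : Matrix ι ι F) *ᵥ x = g x := by
  have h1 : LinearMap.toMatrix' (g : (ι → F) →ₗ[F] (ι → F))
      * LinearMap.toMatrix' (g.symm : (ι → F) →ₗ[F] (ι → F)) = 1 := by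
    rw [← LinearMap.toMatrix'_comp, LinearEquiv.comp_symm, LinearMap.toMatrix'_id]
  have h2 : LinearMap.toMatrix' (g.symm : (ι → F) →ₗ[F] (ι → F))
      * LinearMap.toMatrix' (g : (ι → F) →ₗ[F] (ι → F)) = 1 := by
    rw [← LinearMap.toMatrix'_comp, LinearEquiv.symm_comp, LinearMap.toMatrix'_id]
  have hmem : (⟨_, _, h1, h2⟩ : Matrix.GeneralLinearGroup ι F) ∈ Cfsg.isometryGroup F (⇑Q) := by
    rw [Cfsg.Agent.Lib.Helper16.mem_isometryGroup_iff]
    intro x
    show Q (LinearMap.toMatrix' (g : (ι → F) →ₗ[F] (ι → F)) *ᵥ x) = Q x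
    rw [LinearMap.toMatrix'_mulVec]
    exact hg x
  refine ⟨⟨_, hmem⟩, fun x => ?_⟩
  show LinearMap.toMatrix' (g : (ι → F) →ₗ[F] (ι → F)) *ᵥ x = g x
  rw [LinearMap.toMatrix'_mulVec]
  rfl

/-- An isometry mapping `W` into itself maps it onto itself. -/
theorem map_eq_of_le (s : ↥(Cfsg.isometryGroup F (⇑Q))) (W : Submodule F (ι → F))
    (h : ∀ x ∈ W, ((s : Matrix.GeneralLinearGroup ι F) : Matrix ι ι F) *ᵥ x ∈ W) :
    W.map (Matrix.mulVecLin ((s : Matrix.GeneralLinearGroup ι F) : Matrix ι ι F)) = W := by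
  apply Submodule.eq_of_le_of_finrank_eq
  · rintro _ ⟨x, hx, rfl⟩
    exact h x hx
  · exact finrank_map_actLin Q s W

theorem refl_stab_perp (W : Submodule F (ι → F)) (v : ι → F) (hv : Q v ≠ 0)
    (hperp : ∀ t ∈ W, QuadraticMap.polar (⇑Q) t v = 0) :
    W.map (Matrix.mulVecLin ((reflG Q v hv : Matrix.GeneralLinearGroup ι F) : Matrix ι ι F))
      = W := by
  apply map_eq_of_le
  intro x hx
  rw [reflG_coe, refl_mulVec, QuadraticMap.polar_comm, hperp x hx, mul_zero, zero_smul, sub_zero]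
  exact hx

theorem refl_stab_mem (W : Submodule F (ι → F)) (v : ι → F) (hv : Q v ≠ 0) (hmem : v ∈ W) :
    W.map (Matrix.mulVecLin ((reflG Q v hv : Matrix.GeneralLinearGroup ι F) : Matrix ι ι F))
      = W := by
  apply map_eq_of_le
  intro x hx
  rw [reflG_coe, refl_mulVec]
  exact W.sub_mem hx (W.smul_mem _ hmem)

theorem nondeg_of_inf (W : Submodule F (ι → F))
    (hW : W ⊓ LinearMap.BilinForm.orthogonal (QuadraticMap.polarBilin Q) W = ⊥) :
    ∀ x ∈ W, (∀ t ∈ W, QuadraticMap.polar (⇑Q) t x = 0) → x = 0 := by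
  intro x hx hall
  have h1 : x ∈ W ⊓ LinearMap.BilinForm.orthogonal (QuadraticMap.polarBilin Q) W :=
    ⟨hx, LinearMap.BilinForm.mem_orthogonal_iff.2 (fun t ht => hall t ht)⟩
  rw [hW] at h1
  exact (Submodule.mem_bot F).1 h1

/-- Reflections of prescribed norm stabilizing a nondegenerate subspace (odd characteristic,
dimension at least three). -/
theorem exists_stab_refl (h2 : (2 : F) ≠ 0) (hQ : (QuadraticMap.polarBilin Q).Nondegenerate)
    (hn : 3 ≤ Fintype.card ι) (W : Submodule F (ι → F))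
    (hW : W ⊓ LinearMap.BilinForm.orthogonal (QuadraticMap.polarBilin Q) W = ⊥) (c : F)
    (hc : c ≠ 0) :
    ∃ (v : ι → F) (hv : Q v ≠ 0), Q v = c ∧
      W.map (Matrix.mulVecLin ((reflG Q v hv : Matrix.GeneralLinearGroup ι F) : Matrix ι ι F))
        = W := by
  by_cases hd : Module.finrank F W + 2 ≤ Fintype.card ι
  · obtain ⟨z, hz, hzW⟩ := exists_perp_rep Q h2 hQ W (nondeg_of_inf Q W hW) hd c
    have hz0 : Q z ≠ 0 := by rw [hz]; exact hc
    exact ⟨z, hz0, hz, refl_stab_perp Q W z hz0 hzW⟩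
  · obtain ⟨W', hW'⟩ : ∃ W', W' = LinearMap.BilinForm.orthogonal (QuadraticMap.polarBilin Q) W :=
      ⟨_, rfl⟩
    have hfin := LinearMap.BilinForm.finrank_orthogonal hQ W
    rw [← hW', Module.finrank_fintype_fun_eq_card] at hfin
    have hdd : Module.finrank F W' + 2 ≤ Fintype.card ι := by omega
    have hoo : LinearMap.BilinForm.orthogonal (QuadraticMap.polarBilin Q) W' = W := by
      rw [hW']
      exact LinearMap.BilinForm.orthogonal_orthogonal hQ (polar_refl' Q) W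
    have hT : ∀ x ∈ W', (∀ t ∈ W', QuadraticMap.polar (⇑Q) t x = 0) → x = 0 := by
      intro x hx hall
      have hxW : x ∈ W := by
        rw [← hoo]
        exact LinearMap.BilinForm.mem_orthogonal_iff.2 (fun t ht => hall t ht)
      have h1 : x ∈ W ⊓ LinearMap.BilinForm.orthogonal (QuadraticMap.polarBilin Q) W := by
        rw [← hW']
        exact ⟨hxW, hx⟩
      rw [hW] at h1
      exact (Submodule.mem_bot F).1 h1
    obtain ⟨z, hz, hzW⟩ := exists_perp_rep Q h2 hQ W' hT hdd c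
    have hz0 : Q z ≠ 0 := by rw [hz]; exact hc
    have hzmem : z ∈ W := by
      rw [← hoo]
      exact LinearMap.BilinForm.mem_orthogonal_iff.2 (fun t ht => hzW t ht)
    exact ⟨z, hz0, hz, refl_stab_mem Q W z hz0 hzmem⟩

theorem list_cons_coe (g : ↥(Cfsg.isometryGroup F (⇑Q))) (vs : List (ι → F))
    (hg : ((g : Matrix.GeneralLinearGroup ι F) : Matrix ι ι F)
      = (vs.map (fun v => Cfsg.reflectionMatrix (⇑Q) v)).prod) (v : ι → F) (hv : Q v ≠ 0) :
    (((reflG Q v hv * g : ↥(Cfsg.isometryGroup F (⇑Q))) : Matrix.GeneralLinearGroup ι F) :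
      Matrix ι ι F) = ((v :: vs).map (fun v => Cfsg.reflectionMatrix (⇑Q) v)).prod := by
  rw [isomG_mul_coe, reflG_coe, hg, List.map_cons, List.prod_cons]

theorem crit_cons (h2 : (2 : F) ≠ 0) (hQ : (QuadraticMap.polarBilin Q).Nondegenerate)
    (hn : 2 ≤ Fintype.card ι) (g : ↥(Cfsg.isometryGroup F (⇑Q))) (vs : List (ι → F))
    (hvs : ∀ v ∈ vs, Q v ≠ 0)
    (hg : ((g : Matrix.GeneralLinearGroup ι F) : Matrix ι ι F)
      = (vs.map (fun v => Cfsg.reflectionMatrix (⇑Q) v)).prod) (v : ι → F) (hv : Q v ≠ 0) :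
    reflG Q v hv * g ∈ Cfsg.Omega F (⇑Q)
      ↔ (Even (vs.length + 1) ∧ IsSquare (Q v * (vs.map (fun v => Q v)).prod)) := by
  have hvs' : ∀ w ∈ v :: vs, Q w ≠ 0 := by
    intro w hw
    rcases List.mem_cons.1 hw with rfl | hw
    · exact hv
    · exact hvs w hw
  rw [spinor_criterion Q h2 hQ hn _ (v :: vs) hvs' (list_cons_coe Q g vs hg v hv),
    List.length_cons, List.map_cons, List.prod_cons]

/-- **Transitivity of `Ω`** on nondegenerate subspaces of a given isometry type. -/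
theorem omega_trans_subspace (hn : 3 ≤ Fintype.card ι)
    (h : Fintype.card F ≠ 2 ∨ Fintype.card ι ≠ 4)
    (hQ : (QuadraticMap.polarBilin Q).Nondegenerate) (U W : Submodule F (ι → F))
    (hW : W ⊓ LinearMap.BilinForm.orthogonal (QuadraticMap.polarBilin Q) W = ⊥)
    (e : U ≃ₗ[F] W) (he : ∀ u : U, Q (e u : ι → F) = Q (u : ι → F)) :
    ∃ g : ↥(Cfsg.isometryGroup F (⇑Q)), g ∈ Cfsg.Omega F (⇑Q) ∧
      U.map (Matrix.mulVecLin ((g : Matrix.GeneralLinearGroup ι F) : Matrix ι ι F)) = W := by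
  classical
  have : Nonempty ι := by
    rw [← Fintype.card_pos_iff]
    omega
  obtain ⟨g₁, hg₁, hg₁e⟩ := Cfsg.Agent.S0750.result Q hQ U W e he
  obtain ⟨g₀, hg₀⟩ := isom_of_linearEquiv Q g₁ hg₁
  have hmap : U.map (Matrix.mulVecLin ((g₀ : Matrix.GeneralLinearGroup ι F) : Matrix ι ι F))
      = W := by
    ext y
    constructor
    · rintro ⟨x, hx, rfl⟩
      rw [Matrix.mulVecLin_apply, hg₀, hg₁e ⟨x, hx⟩]
      exact (e ⟨x, hx⟩).2
    · intro hy
      obtain ⟨x, hx⟩ := e.surjective ⟨y, hy⟩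
      refine ⟨x, x.2, ?_⟩
      rw [Matrix.mulVecLin_apply, hg₀, hg₁e x, hx]
  have hcomp : ∀ s : ↥(Cfsg.isometryGroup F (⇑Q)),
      W.map (Matrix.mulVecLin ((s : Matrix.GeneralLinearGroup ι F) : Matrix ι ι F)) = W →
      U.map (Matrix.mulVecLin (((s * g₀ : ↥(Cfsg.isometryGroup F (⇑Q))) :
        Matrix.GeneralLinearGroup ι F) : Matrix ι ι F)) = W := by
    intro s hs
    rw [isomG_mul_coe, Matrix.mulVecLin_mul, Submodule.map_comp, hmap, hs]
  by_cases h2 : (2 : F) = 0
  · by_cases hmem : g₀ ∈ Cfsg.Omega F (⇑Q)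
    · exact ⟨g₀, hmem, hmap⟩
    · obtain ⟨v, hv, hstab⟩ : ∃ (v : ι → F) (hv : Q v ≠ 0),
          W.map (Matrix.mulVecLin ((reflG Q v hv : Matrix.GeneralLinearGroup ι F) :
            Matrix ι ι F)) = W := by
        by_cases hd : Module.finrank F W < Fintype.card ι
        · obtain ⟨b, hb, hbW⟩ := exists_perp_ns Q hQ W (nondeg_of_inf Q W hW) hd
          exact ⟨b, hb, refl_stab_perp Q W b hb hbW⟩
        · have htop : W = ⊤ := by
            apply Submodule.eq_top_of_finrank_eq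
            rw [Module.finrank_fintype_fun_eq_card]
            have := Submodule.finrank_le W
            rw [Module.finrank_fintype_fun_eq_card] at this
            omega
          obtain ⟨b, hb, -⟩ := exists_perp_ns Q hQ ⊥
            (by intro x hx _; exact (Submodule.mem_bot F).1 hx) (by rw [finrank_bot]; omega)
          exact ⟨b, hb, refl_stab_mem Q W b hb (by rw [htop]; exact Submodule.mem_top)⟩
      refine ⟨reflG Q v hv * g₀, ?_, hcomp _ hstab⟩
      rw [mem_omega_iff_even_rank Q h2 hQ h, isomG_mul_coe, reflG_coe,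
        rank_refl_mul_parity Q hQ g₀ v hv, ← mem_omega_iff_even_rank Q h2 hQ h]
      exact hmem
  · have hn2 : 2 ≤ Fintype.card ι := by omega
    obtain ⟨vs, hvs, hg₀m⟩ := exists_refl_list_matrix Q h2 hQ g₀
    obtain ⟨δ, hδ⟩ := FiniteField.exists_nonsquare (ringChar_ne_two_of h2)
    have hδ0 : δ ≠ 0 := by
      rintro rfl
      exact hδ IsSquare.zero
    obtain ⟨v1, hv1, hv1c, hs1⟩ := exists_stab_refl Q h2 hQ hn W hW 1 one_ne_zero
    obtain ⟨v2, hv2, hv2c, hs2⟩ := exists_stab_refl Q h2 hQ hn W hW δ hδ0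
    have hP0 := list_prod_ne_zero Q vs hvs
    by_cases hE : Even vs.length
    · by_cases hS : IsSquare (vs.map (fun v => Q v)).prod
      · exact ⟨g₀, (spinor_criterion Q h2 hQ hn2 g₀ vs hvs hg₀m).2 ⟨hE, hS⟩, hmap⟩
      · have hvs' : ∀ w ∈ v2 :: vs, Q w ≠ 0 := by
          intro w hw
          rcases List.mem_cons.1 hw with rfl | hw
          · exact hv2
          · exact hvs w hw
        refine ⟨reflG Q v1 hv1 * (reflG Q v2 hv2 * g₀), ?_, ?_⟩
        · rw [crit_cons Q h2 hQ hn2 _ (v2 :: vs) hvs' (list_cons_coe Q g₀ vs hg₀m v2 hv2) v1 hv1,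
            List.length_cons, List.map_cons, List.prod_cons, hv1c, hv2c, one_mul]
          refine ⟨?_, isSquare_mul_of_not hδ0 hP0 hδ hS⟩
          obtain ⟨k, hk⟩ := hE
          exact ⟨k + 1, by omega⟩
        · rw [← mul_assoc]
          apply hcomp
          rw [isomG_mul_coe, Matrix.mulVecLin_mul, Submodule.map_comp, hs2, hs1]
    · by_cases hS : IsSquare (vs.map (fun v => Q v)).prod
      · refine ⟨reflG Q v1 hv1 * g₀, ?_, hcomp _ hs1⟩
        rw [crit_cons Q h2 hQ hn2 g₀ vs hvs hg₀m v1 hv1, hv1c, one_mul]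
        exact ⟨Nat.even_add_one.2 hE, hS⟩
      · refine ⟨reflG Q v2 hv2 * g₀, ?_, hcomp _ hs2⟩
        rw [crit_cons Q h2 hQ hn2 g₀ vs hvs hg₀m v2 hv2, hv2c]
        exact ⟨Nat.even_add_one.2 hE, isSquare_mul_of_not hδ0 hP0 hδ hS⟩

end OmegaTrans

end Cfsg.Agent.Lib.Helper3
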