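import Mathlib
import Cfsg.Agent.S0243

set_option autoImplicit false

namespace Cfsg.Agent.Lib.Helper3

open Matrix
open scoped LinearAlgebra.Projectivization

variable {F : Type*} [Field F] [Fintype F]

/-- The projective line over a field with `q` elements has `q + 1` points. -/
theorem nonempty_projLine_equiv {n : ℕ} (hn : Fintype.card F + 1 = n) :
    Nonempty (ℙ F (Fin 2 → F) ≃ Fin n) := by
  classical
  have h1 : Nat.card (ℙ F (Fin 2 → F)) = n := by
    rw [Projectivization.card_of_finrank_two F (Fin 2 → F) (by simp), Nat.card_eq_fintype_card, hn]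
  haveI : Finite (ℙ F (Fin 2 → F)) := inferInstance
  haveI : Fintype (ℙ F (Fin 2 → F)) := Fintype.ofFinite _
  rw [Nat.card_eq_fintype_card] at h1
  exact ⟨Fintype.equivFinOfCardEq h1⟩

/-- The faithful permutation representation of `PSL₂(q)` on the `q + 1` points of the
projective line. -/
theorem exists_psl2_perm_hom {n : ℕ} (hn : Fintype.card F + 1 = n) :
    ∃ φ : Matrix.ProjectiveSpecialLinearGroup (Fin 2) F →* Equiv.Perm (Fin n),
      Function.Injective φ := by
  obtain ⟨e⟩ := nonempty_projLine_equiv (F := F) hn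
  refine ⟨(e.permCongrHom.toMonoidHom).comp Projectivization.PSLAction.toPermHom, ?_⟩
  exact e.permCongrHom.injective.comp Matrix.ProjectiveSpecialLinearGroup.toPermHom_injective

/-- If `PSL₂(q)` has half the order of the symmetric group on `q + 1` points, it is the
alternating group. -/
theorem psl2_equiv_alt {n : ℕ} (hn : Fintype.card F + 1 = n)
    (hcard : 2 * Nat.card (Matrix.ProjectiveSpecialLinearGroup (Fin 2) F) = n.factorial) :
    Nonempty (Matrix.ProjectiveSpecialLinearGroup (Fin 2) F ≃* alternatingGroup (Fin n)) := by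
  classical
  obtain ⟨φ, hφ⟩ := exists_psl2_perm_hom (F := F) hn
  have h1 : Nat.card φ.range = Nat.card (Matrix.ProjectiveSpecialLinearGroup (Fin 2) F) :=
    (Nat.card_congr (MonoidHom.ofInjective hφ).toEquiv).symm
  have h2 := Subgroup.card_mul_index φ.range
  rw [h1, Nat.card_eq_fintype_card (α := Equiv.Perm (Fin n)), Fintype.card_perm, Fintype.card_fin,
    ← hcard] at h2
  have hpos : 0 < Nat.card (Matrix.ProjectiveSpecialLinearGroup (Fin 2) F) := by
    rcases Nat.eq_zero_or_pos (Nat.card (Matrix.ProjectiveSpecialLinearGroup (Fin 2) F)) with h0 | h0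
    · rw [h0] at hcard
      exact absurd hcard.symm (Nat.factorial_ne_zero n)
    · exact h0
  have h3 : φ.range.index = 2 := by
    have : Nat.card (Matrix.ProjectiveSpecialLinearGroup (Fin 2) F) * φ.range.index =
        Nat.card (Matrix.ProjectiveSpecialLinearGroup (Fin 2) F) * 2 := by
      rw [h2, mul_comm]
    exact Nat.eq_of_mul_eq_mul_left hpos this
  have h4 := Equiv.Perm.eq_alternatingGroup_of_index_eq_two h3
  exact ⟨(MonoidHom.ofInjective hφ).trans (MulEquiv.subgroupCongr h4)⟩

end Cfsg.Agent.Lib.Helper3
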