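import Mathlib
import Cfsg.Prelude.Def_FischerSpaces
import Cfsg.Agent.Lib.Helper3.ReflClass

/-!
Reflection groups over the field with three elements: the reflections of a fixed nonzero norm
generate a subgroup of index two of the isometry group and form a class of 3-transpositions of
the subgroup they generate (dimension at least five).
-/

set_option autoImplicit false
set_option linter.unusedSectionVars false

namespace Cfsg.Agent.Lib.Helper3

open Cfsg.Agent.Lib.Helper16 Cfsg.Agent.Lib.Helper17 Matrix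

section Mod3

variable {ι : Type} [Fintype ι] [DecidableEq ι]
variable (Q : QuadraticForm (ZMod 3) (ι → ZMod 3))

theorem z3_sq : ∀ t : ZMod 3, t ≠ 0 → t * t = 1 := by decide

theorem z3_two : (2 : ZMod 3) ≠ 0 := by decide

theorem reflSub_eq_hc3 (c : ZMod 3) : Cfsg.reflectionSubgroup (⇑Q) c = hcSub Q c := by
  unfold Cfsg.reflectionSubgroup hcSub
  congr 1
  ext g
  constructor
  · rintro ⟨v, hv, hg⟩
    exact ⟨v, 1, one_ne_zero, by rw [hv]; ring, hg⟩
  · rintro ⟨v, t, ht, hv, hg⟩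
    refine ⟨v, ?_, hg⟩
    rw [hv, pow_two, z3_sq t ht, mul_one]

/-- Index two over the field with three elements. -/
theorem refl3_index (hQ : (QuadraticMap.polarBilin Q).Nondegenerate)
    (hn : 5 ≤ Fintype.card ι) (c : ZMod 3) (hc : c ≠ 0) :
    (Cfsg.reflectionSubgroup (⇑Q) c).index = 2 := by
  rw [reflSub_eq_hc3]
  exact hc_index Q z3_two hQ (by omega) hc (Or.inr (Or.inl hn))

theorem ron_iff (c : ZMod 3) (hc : c ≠ 0) (g : ↥(Cfsg.isometryGroup (ZMod 3) (⇑Q))) :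
    g ∈ Cfsg.reflectionsOfNorm (⇑Q) c
      ↔ ∃ (v : ι → ZMod 3) (hv : Q v ≠ 0), Q v = c ∧ g = reflG Q v hv := by
  constructor
  · rintro ⟨v, hv, hg⟩
    have hv0 : Q v ≠ 0 := by
      rw [hv]
      exact hc
    exact ⟨v, hv0, hv, isomG_ext Q hg⟩
  · rintro ⟨v, hv0, hv, rfl⟩
    exact ⟨v, hv, rfl⟩

theorem refl_conj' (x y : ι → ZMod 3) (hx : Q x ≠ 0) (hy : Q y ≠ 0)
    (hxy : Q (Cfsg.reflectionMatrix (⇑Q) x *ᵥ y) ≠ 0) :
    reflG Q x hx * reflG Q y hy * reflG Q x hx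
      = reflG Q (Cfsg.reflectionMatrix (⇑Q) x *ᵥ y) hxy := by
  have := refl_conj Q (reflG Q x hx) y hy hxy
  rwa [reflG_inv] at this

theorem refl3_tri (c : ZMod 3) (hc : c ≠ 0) (a b : ι → ZMod 3) (ha : Q a = c) (hb : Q b = c)
    (ha0 : Q a ≠ 0) (hb0 : Q b ≠ 0) (hab : QuadraticMap.polar (⇑Q) a b ≠ 0) :
    ∃ (w : ι → ZMod 3) (hw : Q w ≠ 0),
      reflG Q a ha0 * reflG Q b hb0 * reflG Q a ha0 = reflG Q w hw ∧
      reflG Q b hb0 * reflG Q a ha0 * reflG Q b hb0 = reflG Q w hw := by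
  have h1 : Q (Cfsg.reflectionMatrix (⇑Q) a *ᵥ b) ≠ 0 := by
    have := isomG_map Q (reflG Q a ha0) b
    rw [reflG_coe] at this
    rw [this]
    exact hb0
  have h2 : Q (Cfsg.reflectionMatrix (⇑Q) b *ᵥ a) ≠ 0 := by
    have := isomG_map Q (reflG Q b hb0) a
    rw [reflG_coe] at this
    rw [this]
    exact ha0
  refine ⟨_, h1, refl_conj' Q a b ha0 hb0 h1, ?_⟩
  rw [refl_conj' Q b a hb0 ha0 h2]
  apply isomG_ext
  rw [reflG_coe, reflG_coe]
  obtain ⟨τ, hτ⟩ : ∃ τ, τ = c⁻¹ * QuadraticMap.polar (⇑Q) a b := ⟨_, rfl⟩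
  have hτ0 : τ ≠ 0 := by
    rw [hτ]
    exact mul_ne_zero (inv_ne_zero hc) hab
  have e : Cfsg.reflectionMatrix (⇑Q) b *ᵥ a = (-τ) • (Cfsg.reflectionMatrix (⇑Q) a *ᵥ b) := by
    rw [refl_mulVec, refl_mulVec, ha, hb, QuadraticMap.polar_comm (⇑Q) b a, ← hτ, smul_sub,
      smul_smul, neg_mul, z3_sq τ hτ0, neg_smul, neg_smul, one_smul]
    abel
  rw [e, refl_smul Q (-τ) (neg_ne_zero.2 hτ0)]

theorem hc_mem_self (c : ZMod 3) (hc : c ≠ 0) (a : ι → ZMod 3) (ha : Q a = c) (ha0 : Q a ≠ 0) :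
    reflG Q a ha0 ∈ hcSub Q c :=
  hc_mem Q hc a ha0 ⟨c, by rw [ha]⟩

theorem refl3_conj_adj (c : ZMod 3) (hc : c ≠ 0) (a b : ι → ZMod 3) (ha : Q a = c)
    (hb : Q b = c) (ha0 : Q a ≠ 0) (hb0 : Q b ≠ 0) (hab : QuadraticMap.polar (⇑Q) a b ≠ 0) :
    ∃ h ∈ hcSub Q c, h * reflG Q a ha0 * h⁻¹ = reflG Q b hb0 := by
  obtain ⟨w, hw, h1, h2⟩ := refl3_tri Q c hc a b ha hb ha0 hb0 hab
  refine ⟨reflG Q a ha0 * reflG Q b hb0,
    Subgroup.mul_mem _ (hc_mem_self Q c hc a ha ha0) (hc_mem_self Q c hc b hb hb0), ?_⟩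
  rw [_root_.mul_inv_rev, reflG_inv, reflG_inv]
  calc reflG Q a ha0 * reflG Q b hb0 * reflG Q a ha0 * (reflG Q b hb0 * reflG Q a ha0)
      = (reflG Q a ha0 * reflG Q b hb0 * reflG Q a ha0) * reflG Q b hb0 * reflG Q a ha0 := by
        simp only [mul_assoc]
    _ = (reflG Q b hb0 * reflG Q a ha0 * reflG Q b hb0) * reflG Q b hb0 * reflG Q a ha0 := by
        rw [h1, ← h2]
    _ = reflG Q b hb0 := by
        simp only [mul_assoc]
        rw [← mul_assoc (reflG Q b hb0) (reflG Q b hb0), reflG_mul_self, one_mul,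
          reflG_mul_self, mul_one]

theorem refl3_conj (hQ : (QuadraticMap.polarBilin Q).Nondegenerate)
    (hn : 4 ≤ Fintype.card ι) (c : ZMod 3) (hc : c ≠ 0) (a b : ι → ZMod 3) (ha : Q a = c)
    (hb : Q b = c) (ha0 : Q a ≠ 0) (hb0 : Q b ≠ 0) :
    ∃ h ∈ hcSub Q c, h * reflG Q a ha0 * h⁻¹ = reflG Q b hb0 := by
  classical
  by_cases hab : QuadraticMap.polar (⇑Q) a b = 0
  swap
  · exact refl3_conj_adj Q c hc a b ha hb ha0 hb0 hab
  have hba : QuadraticMap.polar (⇑Q) b a = 0 := by rw [QuadraticMap.polar_comm, hab]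
  obtain ⟨T, hT⟩ : ∃ T : Submodule (ZMod 3) (ι → ZMod 3),
      T = Submodule.span (ZMod 3) ({a, b} : Set (ι → ZMod 3)) := ⟨_, rfl⟩
  have ha_mem : a ∈ T := by rw [hT]; exact Submodule.subset_span (by simp)
  have hb_mem : b ∈ T := by rw [hT]; exact Submodule.subset_span (by simp)
  have h2c : 2 * c ≠ 0 := mul_ne_zero z3_two hc
  have hTn : ∀ x ∈ T, (∀ t ∈ T, QuadraticMap.polar (⇑Q) t x = 0) → x = 0 := by
    intro x hx hall
    rw [hT, Submodule.mem_span_pair] at hx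
    obtain ⟨p, q, rfl⟩ := hx
    have h1 := hall a ha_mem
    have h2 := hall b hb_mem
    rw [QuadraticMap.polar_add_right, QuadraticMap.polar_smul_right,
      QuadraticMap.polar_smul_right] at h1 h2
    rw [cd_polar_self, hab, ha, smul_zero, add_zero, smul_eq_mul] at h1
    rw [cd_polar_self, hba, hb, smul_zero, zero_add, smul_eq_mul] at h2
    have hp : p = 0 := (mul_eq_zero.1 h1).resolve_right h2c
    have hq : q = 0 := (mul_eq_zero.1 h2).resolve_right h2c
    rw [hp, hq, zero_smul, zero_smul, add_zero]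
  have hdim : Module.finrank (ZMod 3) T + 2 ≤ Fintype.card ι := by
    have h1 := finrank_span_finset_le_card (R := ZMod 3) ({a, b} : Finset (ι → ZMod 3))
    unfold Set.finrank at h1
    have h2 : ({a, b} : Finset (ι → ZMod 3)).card ≤ 2 := Finset.card_le_two
    have h3 : Module.finrank (ZMod 3) T = Module.finrank (ZMod 3)
        (Submodule.span (ZMod 3) ((({a, b} : Finset (ι → ZMod 3))) : Set (ι → ZMod 3))) := by
      rw [hT, Finset.coe_insert, Finset.coe_singleton]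
    omega
  obtain ⟨z, hz, hzT⟩ := exists_perp_rep Q z3_two hQ T hTn hdim (-c)
  have haz := hzT a ha_mem
  have hbz := hzT b hb_mem
  obtain ⟨e, he⟩ : ∃ e, e = z - (1 : ZMod 3) • (a + b) := ⟨_, rfl⟩
  have hQe : Q e = c := by
    rw [he, quad_sub_smul, QuadraticMap.map_add (⇑Q), QuadraticMap.polar_add_left, haz, hbz,
      hab, ha, hb, hz]
    ring
  have he0 : Q e ≠ 0 := by rw [hQe]; exact hc
  have hae : QuadraticMap.polar (⇑Q) a e ≠ 0 := by
    rw [he, QuadraticMap.polar_sub_right, QuadraticMap.polar_smul_right,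
      QuadraticMap.polar_add_right, cd_polar_self, haz, hab, ha, smul_eq_mul]
    intro h
    apply h2c
    linear_combination -h
  have heb : QuadraticMap.polar (⇑Q) e b ≠ 0 := by
    rw [QuadraticMap.polar_comm, he, QuadraticMap.polar_sub_right, QuadraticMap.polar_smul_right,
      QuadraticMap.polar_add_right, cd_polar_self, hbz, hba, hb, smul_eq_mul]
    intro h
    apply h2c
    linear_combination -h
  obtain ⟨h1, hh1, e1⟩ := refl3_conj_adj Q c hc a e ha hQe ha0 he0 hae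
  obtain ⟨h2, hh2, e2⟩ := refl3_conj_adj Q c hc e b hQe hb he0 hb0 heb
  refine ⟨h2 * h1, Subgroup.mul_mem _ hh2 hh1, ?_⟩
  rw [_root_.mul_inv_rev, ← e2, ← e1]
  group

/-- Over the field with three elements the reflections of a fixed nonzero norm form a class of
3-transpositions of the subgroup they generate (dimension at least five). -/
theorem refl3_class (hQ : (QuadraticMap.polarBilin Q).Nondegenerate)
    (hn : 5 ≤ Fintype.card ι) (c : ZMod 3) (hc : c ≠ 0) :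
    Cfsg.IsThreeTranspositionClass {g : ↥(Cfsg.reflectionSubgroup (⇑Q) c) |
      (g : ↥(Cfsg.isometryGroup (ZMod 3) (⇑Q))) ∈ Cfsg.reflectionsOfNorm (⇑Q) c} := by
  have hR : Cfsg.reflectionSubgroup (⇑Q) c = hcSub Q c := reflSub_eq_hc3 Q c
  refine ⟨⟨?_, ?_⟩, ?_, ?_⟩
  · intro d hd
    obtain ⟨v, hv0, hv, hdv⟩ := (ron_iff Q c hc _).1 hd
    rw [← Subgroup.orderOf_coe, hdv]
    apply orderOf_eq_prime
    · rw [pow_two]
      exact reflG_mul_self Q v hv0
    · intro h1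
      have := rank_refl_sub_one Q hQ v hv0
      rw [← reflG_coe Q v hv0, h1, isomG_one_coe, sub_self, Matrix.rank_zero] at this
      exact zero_ne_one this
  · intro d hd e he
    obtain ⟨a, ha0, ha, hda⟩ := (ron_iff Q c hc _).1 hd
    obtain ⟨b, hb0, hb, heb⟩ := (ron_iff Q c hc _).1 he
    by_cases hab : QuadraticMap.polar (⇑Q) a b = 0
    · left
      apply Subtype.ext
      rw [Subgroup.coe_pow, Subgroup.coe_mul, hda, heb, Subgroup.coe_one]
      have e1 : Cfsg.reflectionMatrix (⇑Q) a *ᵥ b = b := by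
        rw [refl_mulVec, hab]
        simp
      have h4 : reflG Q a ha0 * reflG Q b hb0 * reflG Q a ha0 = reflG Q b hb0 := by
        rw [refl_conj' Q a b ha0 hb0 (by rw [e1]; exact hb0)]
        apply isomG_ext
        rw [reflG_coe, reflG_coe, e1]
      rw [pow_two, ← mul_assoc, h4, reflG_mul_self]
    · right
      apply Subtype.ext
      rw [Subgroup.coe_pow, Subgroup.coe_mul, hda, heb, Subgroup.coe_one]
      obtain ⟨w, hw, h1, h2⟩ := refl3_tri Q c hc a b ha hb ha0 hb0 hab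
      have e5 : (reflG Q a ha0 * reflG Q b hb0) ^ 3
          = (reflG Q a ha0 * reflG Q b hb0 * reflG Q a ha0)
            * (reflG Q b hb0 * reflG Q a ha0 * reflG Q b hb0) := by
        simp only [pow_succ, pow_zero, one_mul, mul_assoc]
      rw [e5, h1, h2, reflG_mul_self]
  · obtain ⟨v0, hv0c⟩ := exists_quad_eq Q z3_two hQ (by omega) c
    have hv0 : Q v0 ≠ 0 := by
      rw [hv0c]
      exact hc
    have hmem0 : reflG Q v0 hv0 ∈ Cfsg.reflectionSubgroup (⇑Q) c :=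
      Subgroup.subset_closure ⟨v0, hv0c, rfl⟩
    refine ⟨⟨reflG Q v0 hv0, hmem0⟩, ⟨v0, hv0c, rfl⟩, ?_⟩
    ext g
    show (g : ↥(Cfsg.isometryGroup (ZMod 3) (⇑Q))) ∈ Cfsg.reflectionsOfNorm (⇑Q) c
      ↔ IsConj (⟨reflG Q v0 hv0, hmem0⟩ : ↥(Cfsg.reflectionSubgroup (⇑Q) c)) g
    rw [isConj_iff]
    constructor
    · intro hg
      obtain ⟨b, hb0, hb, hgb⟩ := (ron_iff Q c hc _).1 hg
      obtain ⟨h, hh, e⟩ := refl3_conj Q hQ (by omega) c hc v0 b hv0c hb hv0 hb0
      refine ⟨⟨h, by rw [hR]; exact hh⟩, ?_⟩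
      apply Subtype.ext
      rw [Subgroup.coe_mul, Subgroup.coe_mul, Subgroup.coe_inv]
      exact e.trans hgb.symm
    · rintro ⟨h, rfl⟩
      rw [ron_iff Q c hc]
      have hv' : Q ((((h : ↥(Cfsg.isometryGroup (ZMod 3) (⇑Q))) :
          Matrix.GeneralLinearGroup ι (ZMod 3)) : Matrix ι ι (ZMod 3)) *ᵥ v0) ≠ 0 := by
        rw [isomG_map]
        exact hv0
      refine ⟨_, hv', by rw [isomG_map]; exact hv0c, ?_⟩
      rw [Subgroup.coe_mul, Subgroup.coe_mul, Subgroup.coe_inv]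
      exact refl_conj Q (h : ↥(Cfsg.isometryGroup (ZMod 3) (⇑Q))) v0 hv0 hv'
  · exact Subgroup.closure_closure_coe_preimage

end Mod3

end Cfsg.Agent.Lib.Helper3
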