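import Mathlib
import Cfsg.Prelude
import Cfsg.Agent.Lib.Helper3.SLRoot

set_option autoImplicit false

/-!
Transfer of root subgroup data from a family of subgroups of a group to the subgroup the
family generates.
-/

namespace Cfsg.Agent.Lib.Helper3

open Cfsg
open scoped commutatorElement

section RootTransfer

variable {G : Type*} [Group G]

theorem subgroupOf_conjBy (H : Subgroup G) (A : Subgroup G) (g : H) :
    Cfsg.conjBy (A.subgroupOf H) g = (Cfsg.conjBy A (g : G)).subgroupOf H := by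
  ext x
  rw [Cfsg.conjBy, Subgroup.mem_map_equiv, Subgroup.mem_subgroupOf, Subgroup.mem_subgroupOf,
    Cfsg.conjBy, Subgroup.mem_map_equiv]
  have h1 : (MulAut.conj g).symm x = g⁻¹ * x * g := by simp [MulAut.conj_symm_apply]
  have h2 : (MulAut.conj (g : G)).symm (x : G) = (g : G)⁻¹ * x * g := by
    simp [MulAut.conj_symm_apply]
  rw [h1, h2]
  rfl

theorem commutator_le_of_le (H A B : Subgroup G) (hA : A ≤ H) (hB : B ≤ H) : ⁅A, B⁆ ≤ H := by
  rw [Subgroup.commutator_le]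
  intro a ha b hb
  rw [commutatorElement_def]
  exact H.mul_mem (H.mul_mem (H.mul_mem (hA ha) (hB hb)) (H.inv_mem (hA ha))) (H.inv_mem (hB hb))

theorem subgroupOf_commutator (H A B : Subgroup G) (hA : A ≤ H) (hB : B ≤ H) :
    ⁅A.subgroupOf H, B.subgroupOf H⁆ = (⁅A, B⁆).subgroupOf H := by
  apply Subgroup.map_injective H.subtype_injective
  rw [Subgroup.map_commutator, Subgroup.map_subgroupOf_eq_of_le hA,
    Subgroup.map_subgroupOf_eq_of_le hB,
    Subgroup.map_subgroupOf_eq_of_le (commutator_le_of_le H A B hA hB)]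

theorem subgroupOf_eq_of_le {H A B : Subgroup G} (hA : A ≤ H) (hB : B ≤ H)
    (h : A.subgroupOf H = B.subgroupOf H) : A = B := by
  rw [← Subgroup.map_subgroupOf_eq_of_le hA, ← Subgroup.map_subgroupOf_eq_of_le hB, h]

theorem rankOneCond_subgroupOf (H A B : Subgroup G) (hB : B ≤ H)
    (h : Cfsg.RankOneCondition A B) :
    Cfsg.RankOneCondition (A.subgroupOf H) (B.subgroupOf H) := by
  intro a ha ha1
  rw [Subgroup.mem_subgroupOf] at ha
  obtain ⟨b, hb, hb1, he⟩ := h (a : G) ha (fun h0 => ha1 (Subtype.ext h0))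
  refine ⟨⟨b, hB hb⟩, Subgroup.mem_subgroupOf.mpr hb, fun h0 => hb1 (congrArg Subtype.val h0), ?_⟩
  rw [subgroupOf_conjBy, subgroupOf_conjBy]
  show (Cfsg.conjBy A (b⁻¹)).subgroupOf H = (Cfsg.conjBy B ((a : G)⁻¹)).subgroupOf H
  rw [he]

theorem rankOne_subgroupOf (H A B : Subgroup G) (hA : A ≤ H) (hB : B ≤ H)
    (h : Cfsg.IsRankOnePair A B) :
    Cfsg.IsRankOnePair (A.subgroupOf H) (B.subgroupOf H) where
  ne := fun he => h.ne (subgroupOf_eq_of_le hA hB he)
  nilpotent_left := by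
    have := h.nilpotent_left
    exact Group.nilpotent_of_mulEquiv (Subgroup.subgroupOfEquivOfLe hA).symm
  nilpotent_right := by
    have := h.nilpotent_right
    exact Group.nilpotent_of_mulEquiv (Subgroup.subgroupOfEquivOfLe hB).symm
  cond_left := rankOneCond_subgroupOf H A B hB h.cond_left
  cond_right := rankOneCond_subgroupOf H B A hA h.cond_right

theorem psl2_subgroupOf {L : Type*} [Field L] (H A B : Subgroup G) (hA : A ≤ H) (hB : B ≤ H)
    (h : Cfsg.IsPSL2PairOver L A B) :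
    Cfsg.IsPSL2PairOver L (A.subgroupOf H) (B.subgroupOf H) := by
  obtain ⟨φ, h1, h2, h3, h4⟩ := h
  have hr : ∀ x, φ x ∈ H := fun x => (sup_le hA hB) (h1 ▸ ⟨x, rfl⟩ : φ x ∈ A ⊔ B)
  refine ⟨φ.codRestrict H hr, ?_, ?_, ?_, ?_⟩
  · rw [← Subgroup.subgroupOf_sup hA hB, ← h1]
    ext x
    rw [Subgroup.mem_subgroupOf]
    constructor
    · rintro ⟨y, rfl⟩
      exact ⟨y, rfl⟩
    · rintro ⟨y, hy⟩
      exact ⟨y, Subtype.ext hy⟩
  · intro x hx
    apply h2
    rw [MonoidHom.mem_ker] at hx ⊢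
    exact congrArg Subtype.val hx
  · ext x
    rw [Subgroup.mem_subgroupOf, ← h3]
    constructor
    · rintro ⟨y, hy, rfl⟩
      exact ⟨y, hy, rfl⟩
    · rintro ⟨y, hy, he⟩
      exact ⟨y, hy, Subtype.ext he⟩
  · ext x
    rw [Subgroup.mem_subgroupOf, ← h4]
    constructor
    · rintro ⟨y, hy, rfl⟩
      exact ⟨y, hy, rfl⟩
    · rintro ⟨y, hy, he⟩
      exact ⟨y, hy, Subtype.ext he⟩

theorem iSup_subgroupOf_eq_top (T : Set (Subgroup G)) (H : Subgroup G) (hH : H = ⨆ B ∈ T, B) :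
    (⨆ A' ∈ (fun A : Subgroup G => A.subgroupOf H) '' T, A') = ⊤ := by
  have hle : ∀ A ∈ T, A ≤ H := fun A hA => hH ▸ le_biSup (fun B => B) hA
  apply Subgroup.map_injective H.subtype_injective
  rw [iSup_image, Subgroup.map_iSup, ← MonoidHom.range_eq_map, Subgroup.range_subtype]
  apply le_antisymm
  · apply iSup_le
    intro A
    rw [Subgroup.map_iSup]
    apply iSup_le
    intro hA
    rw [Subgroup.map_subgroupOf_eq_of_le (hle A hA)]
    exact hle A hA
  · conv_lhs => rw [hH]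
    apply iSup₂_le
    intro A hA
    refine le_trans ?_ (le_iSup _ A)
    rw [Subgroup.map_iSup]
    refine le_trans ?_ (le_iSup _ hA)
    rw [Subgroup.map_subgroupOf_eq_of_le (hle A hA)]

theorem conjBy_one' (A : Subgroup G) : Cfsg.conjBy A 1 = A := by
  apply conjBy_eq_of_comm
  intro a _
  rw [mul_one, one_mul]

theorem conj_of_rankOne {A B : Subgroup G} (h : Cfsg.IsRankOnePair A B) (hA : A ≠ ⊥) :
    ∃ g : G, B = Cfsg.conjBy A g := by
  obtain ⟨a, ha, ha1⟩ : ∃ a ∈ A, a ≠ 1 := by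
    by_contra hcon
    push Not at hcon
    exact hA ((Subgroup.eq_bot_iff_forall A).mpr hcon)
  obtain ⟨b, hb, hb1, he⟩ := h.cond_left a ha ha1
  refine ⟨a * b⁻¹, ?_⟩
  have h1 : Cfsg.conjBy (Cfsg.conjBy B a⁻¹) a = B := by
    rw [conjBy_conjBy, mul_inv_cancel, conjBy_one']
  rw [← conjBy_conjBy, he, h1]

theorem conjClass_of_connected (S : Set (Subgroup G)) (hne : ∀ A ∈ S, A ≠ ⊥) (hS : S.Nonempty)
    (hconn : Cfsg.IsConnectedFamily (Cfsg.FAdj S) S) : Cfsg.IsConjClassOfSubgroups S := by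
  refine ⟨hS, ?_⟩
  intro A hA B hB
  have key : ∀ B, Relation.ReflTransGen (Cfsg.FAdj S) A B → ∃ g : G, B = Cfsg.conjBy A g := by
    intro B h
    induction h with
    | refl => exact ⟨1, (conjBy_one' A).symm⟩
    | tail _ h2 ih =>
      obtain ⟨g, rfl⟩ := ih
      obtain ⟨g', hg'⟩ := conj_of_rankOne h2.2.2 (hne _ h2.1)
      exact ⟨g' * g, by rw [hg', conjBy_conjBy]⟩
  exact key B (hconn A hA B hB)

/-- Root subgroup data of a family, viewed inside the subgroup the family generates. -/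
theorem root_transfer (T : Set (Subgroup G)) (L : Type*) [Field L]
    (hcomm : ∀ A ∈ T, IsMulCommutative A) (hne : ∀ A ∈ T, A ≠ ⊥) (hnon : T.Nonempty)
    (hconj : ∀ A ∈ T, ∀ g : G, Cfsg.conjBy A g ∈ T)
    (hpair : ∀ A ∈ T, ∀ B ∈ T, (∀ a ∈ A, ∀ b ∈ B, a * b = b * a) ∨
      (Cfsg.IsRankOnePair A B ∧ Cfsg.IsPSL2PairOver L A B))
    (hdeg : ∀ A ∈ T, ∀ B ∈ T, ∀ C ∈ T, ⁅A, B⁆ = C → (∀ c ∈ C, ∀ a ∈ A, c * a = a * c) →
      (∀ c ∈ C, ∀ b ∈ B, c * b = b * c) → False)
    (hconn : Cfsg.IsConnectedFamily (Cfsg.FAdj T) T) :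
    Cfsg.IsRootSubgroupClass ((fun A : Subgroup G => A.subgroupOf (⨆ B ∈ T, B)) '' T) ∧
    Cfsg.IsDegenerateRootSet ((fun A : Subgroup G => A.subgroupOf (⨆ B ∈ T, B)) '' T) ∧
    Cfsg.IsKRootSubgroupSet L ((fun A : Subgroup G => A.subgroupOf (⨆ B ∈ T, B)) '' T) ∧
    Cfsg.IsConnectedFamily
      (Cfsg.FAdj ((fun A : Subgroup G => A.subgroupOf (⨆ B ∈ T, B)) '' T))
      ((fun A : Subgroup G => A.subgroupOf (⨆ B ∈ T, B)) '' T) := by
  obtain ⟨H, hH⟩ : ∃ H : Subgroup G, H = ⨆ B ∈ T, B := ⟨_, rfl⟩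
  rw [← hH]
  have hle : ∀ A ∈ T, A ≤ H := fun A hA => hH ▸ le_biSup (fun B => B) hA
  have hex : ∀ A ∈ T, ∃ a ∈ A, a ≠ 1 := by
    intro A hA
    by_contra hcon
    push Not at hcon
    exact hne A hA ((Subgroup.eq_bot_iff_forall A).mpr hcon)
  have hroot : Cfsg.IsRootSubgroupSet ((fun A : Subgroup G => A.subgroupOf H) '' T) :=
    { commutative := by
        rintro _ ⟨A, hA, rfl⟩
        have hc := hcomm A hA
        refine ⟨⟨fun a b => Subtype.ext (Subtype.ext ?_)⟩⟩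
        have h1 := hc.is_comm.comm ⟨((a : H) : G), a.2⟩ ⟨((b : H) : G), b.2⟩
        have h2 := congrArg Subtype.val h1
        exact h2
      ne_bot := by
        rintro _ ⟨A, hA, rfl⟩ h
        have h' : A.subgroupOf H = ⊥ := h
        apply hne A hA
        rw [← Subgroup.map_subgroupOf_eq_of_le (hle A hA), h', Subgroup.map_bot]
      generates := iSup_subgroupOf_eq_top T H hH
      conj_mem := by
        rintro _ ⟨A, hA, rfl⟩ g
        rw [subgroupOf_conjBy]
        exact ⟨_, hconj A hA g, rfl⟩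
      pair := by
        rintro _ ⟨A, hA, rfl⟩ _ ⟨B, hB, rfl⟩
        rcases hpair A hA B hB with h | ⟨h, -⟩
        · left
          rw [Subgroup.commutator_eq_bot_iff_le_centralizer]
          intro a ha
          rw [Subgroup.mem_centralizer_iff]
          intro b hb
          exact Subtype.ext (h a ha b hb).symm
        · right
          left
          exact rankOne_subgroupOf H A B (hle A hA) (hle B hB) h }
  have hconn' : Cfsg.IsConnectedFamily
      (Cfsg.FAdj ((fun A : Subgroup G => A.subgroupOf H) '' T))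
      ((fun A : Subgroup G => A.subgroupOf H) '' T) := by
    rintro _ ⟨A, hA, rfl⟩ _ ⟨B, hB, rfl⟩
    exact Relation.ReflTransGen.lift (fun A : Subgroup G => A.subgroupOf H)
      (fun X Y hXY => ⟨⟨X, hXY.1, rfl⟩, ⟨Y, hXY.2.1, rfl⟩,
        rankOne_subgroupOf H X Y (hle X hXY.1) (hle Y hXY.2.1) hXY.2.2⟩) A B (hconn A hA B hB)
  refine ⟨⟨hroot, conjClass_of_connected _ hroot.ne_bot (hnon.image _) hconn'⟩, ?_,
    ⟨hroot, ?_⟩, hconn'⟩
  · rintro _ ⟨A, hA, rfl⟩ _ ⟨B, hB, rfl⟩ ⟨h1, h2, -, -⟩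
    obtain ⟨C, hC, hCe⟩ := h1
    have hcab := subgroupOf_commutator H A B (hle A hA) (hle B hB)
    have hCeq : ⁅A, B⁆ = C := by
      apply subgroupOf_eq_of_le (commutator_le_of_le H A B (hle A hA) (hle B hB)) (hle C hC)
      rw [← hcab]
      exact hCe.symm
    refine hdeg A hA B hB C hC hCeq ?_ ?_
    · intro c hc a ha
      have h3 := h2 ⟨c, hle C hC hc⟩ (by
        rw [hcab, hCeq]
        exact Subgroup.mem_subgroupOf.mpr hc) ⟨a, hle A hA ha⟩
        (Subgroup.mem_sup_left (Subgroup.mem_subgroupOf.mpr ha))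
      exact congrArg Subtype.val h3
    · intro c hc b hb
      have h3 := h2 ⟨c, hle C hC hc⟩ (by
        rw [hcab, hCeq]
        exact Subgroup.mem_subgroupOf.mpr hc) ⟨b, hle B hB hb⟩
        (Subgroup.mem_sup_right (Subgroup.mem_subgroupOf.mpr hb))
      exact congrArg Subtype.val h3
  · rintro _ ⟨A, hA, rfl⟩ _ ⟨B, hB, rfl⟩ hr
    rcases hpair A hA B hB with h | ⟨-, h⟩
    · exfalso
      refine not_rankOne_of_comm _ _ ?_ ?_ hr
      · intro a ha b hb
        exact Subtype.ext (h a ha b hb)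
      · obtain ⟨a, ha, ha1⟩ := hex A hA
        exact ⟨⟨a, hle A hA ha⟩, Subgroup.mem_subgroupOf.mpr ha,
          fun h0 => ha1 (congrArg Subtype.val h0)⟩
    · exact psl2_subgroupOf H A B (hle A hA) (hle B hB) h

end RootTransfer

end Cfsg.Agent.Lib.Helper3
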