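import Mathlib
import Cfsg.Agent.S0781

/-!
# Isotropic vectors and Eichler elements of finite unitary groups

Existence lemmas for isotropic vectors of the standard Hermitian form and the transitivity
properties of Eichler elements and transvections needed for the primitivity of the special
unitary group on isotropic points.
-/

set_option autoImplicit false
set_option linter.unusedSectionVars false

namespace Cfsg.Agent.Lib.Helper3

open Cfsg.Agent.S0837 (Bh Bh_apply hf Bh_symm Bh_nondeg)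
open Cfsg.Agent.S0780 Cfsg.Agent.S0781

section Vec

variable {F : Type*} [Field F] (φ : F →+* F) {n : ℕ} {q : ℕ}
  (hφq : ∀ a : F, φ a = a ^ q) (hφ2 : ∀ a : F, φ (φ a) = a) (hφ : φ ≠ RingHom.id F)

local notation "B" => Bh φ n

include hφ2 in
theorem bh_swap (x y : Fin n → F) : B y x = φ (B x y) := ((Bh_symm φ hφ2 n).eq x y).symm

include hφ2 in
theorem bh_self_fix (x : Fin n → F) : φ (B x x) = B x x := (Bh_symm φ hφ2 n).eq x x

include hφ2 in
theorem bh_zero_swap (x y : Fin n → F) (h : B x y = 0) : B y x = 0 := by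
  rw [bh_swap φ hφ2 x y, h, map_zero]

include hφ2 in
theorem bh_ne_swap (x y : Fin n → F) (h : B x y ≠ 0) : B y x ≠ 0 := by
  intro h0
  exact h (bh_zero_swap φ hφ2 y x h0)

theorem exists_np1 (u : Fin n → F) (hu : u ≠ 0) : ∃ a : Fin n → F, B u a ≠ 0 := by
  obtain ⟨i, hi⟩ := Function.ne_iff.mp hu
  refine ⟨ee i, ?_⟩
  rw [B_ee_right]
  intro h
  exact hi ((map_eq_zero φ).mp h)

theorem exists_np2 (u v : Fin n → F) (hu : u ≠ 0) (hv : v ≠ 0) :
    ∃ a : Fin n → F, B u a ≠ 0 ∧ B v a ≠ 0 := by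
  obtain ⟨a1, h1⟩ := exists_np1 φ u hu
  obtain ⟨a2, h2⟩ := exists_np1 φ v hv
  by_cases h3 : B v a1 = 0
  · by_cases h4 : B u a2 = 0
    · refine ⟨a1 + a2, ?_, ?_⟩
      · rw [map_add, h4, add_zero]; exact h1
      · rw [map_add, h3, zero_add]; exact h2
    · exact ⟨a2, h4, h2⟩
  · exact ⟨a1, h1, h3⟩

include hφ2 hφ in
/-- Correcting a vector by a multiple of an isotropic vector to make it isotropic. -/
theorem iso_fix (a w : Fin n → F) (hw : B w w = 0) (haw : B a w ≠ 0) :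
    ∃ l : F, B (a + l • w) (a + l • w) = 0 := by
  obtain ⟨μ, hμ⟩ := Cfsg.Agent.S0751.trace_surj φ hφ hφ2 (-(B a a))
    (by rw [map_neg, bh_self_fix φ hφ2])
  have e : B w a = φ (B a w) := bh_swap φ hφ2 a w
  have h1 : φ (B a w) ≠ 0 := by rwa [Ne, map_eq_zero]
  refine ⟨μ / B a w, ?_⟩
  simp only [map_add, LinearMap.add_apply, LinearMap.map_smulₛₗ, LinearMap.smul_apply, map_smul,
    smul_eq_mul, hw, e, map_div₀]
  have h3 : μ / B a w * B a w = μ := div_mul_cancel₀ _ haw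
  have h4 : φ μ / φ (B a w) * φ (B a w) = φ μ := div_mul_cancel₀ _ h1
  rw [h4, mul_zero, add_zero, h3]
  linear_combination hμ

include hφ2 hφ in
/-- An isotropic vector not orthogonal to two given isotropic vectors. -/
theorem exists_iso_np (u v : Fin n → F) (hu0 : u ≠ 0) (hv0 : v ≠ 0) (hu : B u u = 0)
    (hv : B v v = 0) : ∃ s : Fin n → F, B s s = 0 ∧ B u s ≠ 0 ∧ B v s ≠ 0 := by
  by_cases huv : B u v = 0
  · obtain ⟨a, h1, h2⟩ := exists_np2 φ u v hu0 hv0
    have hvu : B v u = 0 := bh_zero_swap φ hφ2 u v huv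
    obtain ⟨l, hl⟩ := iso_fix φ hφ2 hφ a u hu (bh_ne_swap φ hφ2 u a h1)
    refine ⟨a + l • u, hl, ?_, ?_⟩
    · rw [map_add, map_smul, hu, smul_zero, add_zero]; exact h1
    · rw [map_add, map_smul, hvu, smul_zero, add_zero]; exact h2
  · obtain ⟨σ, hσ0, hσ⟩ := exists_skew φ hφ hφ2
    have hvu : B v u = φ (B u v) := bh_swap φ hφ2 u v
    have h1 : φ (B u v) ≠ 0 := by rwa [Ne, map_eq_zero]
    refine ⟨u + (σ / B u v) • v, ?_, ?_, ?_⟩
    · simp only [map_add, LinearMap.add_apply, LinearMap.map_smulₛₗ, LinearMap.smul_apply,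
        map_smul, smul_eq_mul, hu, hv, hvu, map_div₀, hσ]
      field_simp
      ring
    · rw [map_add, map_smul, hu, zero_add, smul_eq_mul, div_mul_cancel₀ _ huv]; exact hσ0
    · rw [map_add, map_smul, hv, smul_zero, add_zero, hvu]; exact h1

include hφ2 hφ in
/-- An isotropic vector orthogonal to `u` but not to `v`, for independent orthogonal
isotropic `u`, `v`. -/
theorem exists_iso_perp_np (u v : Fin n → F) (hu0 : u ≠ 0) (hv : B v v = 0)
    (huv : B u v = 0) (hind : v ∉ Submodule.span F ({u} : Set (Fin n → F))) :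
    ∃ t : Fin n → F, B t t = 0 ∧ B u t = 0 ∧ B v t ≠ 0 := by
  obtain ⟨i, hi⟩ := Function.ne_iff.mp hu0
  have hi' : u i ≠ 0 := hi
  obtain ⟨j, hj⟩ : ∃ j, u i * v j - u j * v i ≠ 0 := by
    by_contra hcon
    push Not at hcon
    apply hind
    rw [Submodule.mem_span_singleton]
    refine ⟨v i / u i, ?_⟩
    funext k
    have hk := hcon k
    rw [Pi.smul_apply, smul_eq_mul]
    field_simp
    linear_combination -hk
  obtain ⟨a, ha⟩ : ∃ a : Fin n → F, a = φ (u j) • ee i - φ (u i) • ee j := ⟨_, rfl⟩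
  have hua : B u a = 0 := by
    rw [ha, map_sub, map_smul, map_smul, B_ee_right, B_ee_right, smul_eq_mul, smul_eq_mul]
    ring
  have hva : B v a ≠ 0 := by
    rw [ha, map_sub, map_smul, map_smul, B_ee_right, B_ee_right, smul_eq_mul, smul_eq_mul]
    intro h0
    apply hj
    have h1 : φ (u i * v j - u j * v i) = 0 := by
      rw [map_sub, map_mul, map_mul]
      linear_combination -h0
    exact (map_eq_zero φ).mp h1
  have hvu : B v u = 0 := bh_zero_swap φ hφ2 u v huv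
  obtain ⟨l, hl⟩ := iso_fix φ hφ2 hφ a v hv (bh_ne_swap φ hφ2 v a hva)
  refine ⟨a + l • v, hl, ?_, ?_⟩
  · rw [map_add, map_smul, huv, smul_zero, add_zero]; exact hua
  · rw [map_add, map_smul, hv, smul_zero, add_zero]; exact hva

end Vec

section Elts

variable {F : Type*} [Field F] (φ : F →+* F) {n : ℕ} {q : ℕ}
  (hφq : ∀ a : F, φ a = a ^ q) (hφ2 : ∀ a : F, φ (φ a) = a) (hφ : φ ≠ RingHom.id F)

local notation "B" => Bh φ n

include hφ2 in
/-- Eichler elements fixing an isotropic vector `u` are transitive on the isotropic points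
not orthogonal to `u`. -/
theorem eich_move (u x y : Fin n → F) (hu : B u u = 0) (hx : B x x = 0) (hy : B y y = 0)
    (hux : B u x ≠ 0) (huy : B u y ≠ 0) :
    ∃ M : Matrix (Fin n) (Fin n) F, IsSUm φ M ∧ M.mulVec u = u ∧
      ∃ a : F, a ≠ 0 ∧ M.mulVec x = a • y := by
  obtain ⟨β, hβ⟩ : ∃ β : F, β = B u x := ⟨_, rfl⟩
  obtain ⟨γ, hγ⟩ : ∃ γ : F, γ = B u y := ⟨_, rfl⟩
  obtain ⟨δ, hδ⟩ : ∃ δ : F, δ = B y x := ⟨_, rfl⟩
  have hβ0 : β ≠ 0 := by rw [hβ]; exact hux
  have hγ0 : γ ≠ 0 := by rw [hγ]; exact huy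
  have hφβ0 : φ β ≠ 0 := by rwa [Ne, map_eq_zero]
  have hφγ0 : φ γ ≠ 0 := by rwa [Ne, map_eq_zero]
  have exu : B x u = φ β := by rw [hβ]; exact bh_swap φ hφ2 u x
  have eyu : B y u = φ γ := by rw [hγ]; exact bh_swap φ hφ2 u y
  have exy : B x y = φ δ := by rw [hδ]; exact bh_swap φ hφ2 y x
  obtain ⟨a, ha⟩ : ∃ a : F, a = β / γ := ⟨_, rfl⟩
  have ha0 : a ≠ 0 := by rw [ha]; exact div_ne_zero hβ0 hγ0
  obtain ⟨yy, hyy⟩ : ∃ yy : Fin n → F, yy = β⁻¹ • (a • y - x) := ⟨_, rfl⟩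
  obtain ⟨κ, hκ⟩ : ∃ κ : F, κ = B yy x / β := ⟨_, rfl⟩
  have huyy : B u yy = 0 := by
    rw [hyy, map_smul, map_sub, map_smul, ← hβ, ← hγ, ha, smul_eq_mul, smul_eq_mul,
      div_mul_cancel₀ _ hγ0, sub_self, mul_zero]
  have hyyu : B yy u = 0 := bh_zero_swap φ hφ2 u yy huyy
  have hyyx : B yy x = φ a * δ / φ β := by
    rw [hyy]
    simp only [LinearMap.map_smulₛₗ, LinearMap.smul_apply, map_sub, LinearMap.sub_apply,
      smul_eq_mul, hx, ← hδ, map_inv₀]
    field_simp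
    ring
  have hyyyy : B yy yy = -(φ a * δ + a * φ δ) / (β * φ β) := by
    rw [hyy]
    simp only [LinearMap.map_smulₛₗ, LinearMap.smul_apply, map_sub, LinearMap.sub_apply,
      map_smul, smul_eq_mul, hx, hy, ← hδ, exy, map_inv₀]
    field_simp
    ring
  have hE : IsSUm φ (EE φ u yy κ) := by
    apply EE_isSUm φ hφ2 u yy κ hu huyy
    rw [hκ, hyyyy, hyyx]
    simp only [map_div₀, map_mul, hφ2]
    field_simp
  refine ⟨EE φ u yy κ, hE, ?_, a, ha0, ?_⟩
  · rw [EE_mulVec, hu, hyyu, zero_smul, zero_smul, add_zero, add_zero]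
  · rw [EE_mulVec, ← hβ, hκ, hyy]
    funext i
    simp only [Pi.add_apply, Pi.smul_apply, Pi.sub_apply, Pi.neg_apply, smul_eq_mul]
    field_simp
    ring

include hφq hφ2 hφ in
/-- A transvection fixing `u` and moving an orthogonal isotropic `v` to a vector not
orthogonal to `v`. -/
theorem tv_move (u v : Fin n → F) (hu0 : u ≠ 0) (hv : B v v = 0) (huv : B u v = 0)
    (hind : v ∉ Submodule.span F ({u} : Set (Fin n → F))) :
    ∃ M : Matrix (Fin n) (Fin n) F, IsSUm φ M ∧ M.mulVec u = u ∧ B v (M.mulVec v) ≠ 0 := by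
  obtain ⟨t, ht, hut, hvt⟩ := exists_iso_perp_np φ hφ2 hφ u v hu0 hv huv hind
  obtain ⟨σ, hσ0, hσ⟩ := exists_skew φ hφ hφ2
  have htu : B t u = 0 := bh_zero_swap φ hφ2 u t hut
  have htv : B t v ≠ 0 := bh_ne_swap φ hφ2 v t hvt
  refine ⟨Cfsg.unitaryTransvection n q t σ, tv_isSUm φ hφq hφ2 t σ ht hσ, ?_, ?_⟩
  · rw [tv_mulVec φ hφq, htu, mul_zero, zero_smul, add_zero]
  · rw [tv_mulVec φ hφq, map_add, map_smul, hv, zero_add, smul_eq_mul]
    exact mul_ne_zero (mul_ne_zero hσ0 htv) hvt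

end Elts

end Cfsg.Agent.Lib.Helper3
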