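import Mathlib
import Cfsg.Agent.Lib.Helper3.UnitaryPrim

/-!
# Simplicity of the projective special unitary groups

The special unitary group acts primitively on the isotropic points; the transvection groups
form an Iwasawa structure; with generation by transvections and perfectness this gives the
simplicity of the quotient by the centre.
-/

set_option autoImplicit false
set_option linter.unusedSectionVars false

namespace Cfsg.Agent.Lib.Helper3

open Cfsg.Agent.S0837 (Bh Bh_apply hf Bh_symm Bh_nondeg)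
open Cfsg.Agent.S0780 Cfsg.Agent.S0781
open scoped LinearAlgebra.Projectivization
open scoped Pointwise
open Matrix

section UPoints

variable {F : Type*} [Field F] {n : ℕ} {q : ℕ}

/-- The matrix of an element of the special unitary group. -/
abbrev suMat (g : ↥(Cfsg.SU n F q)) : Matrix (Fin n) (Fin n) F :=
  ((g : Matrix.SpecialLinearGroup (Fin n) F) : Matrix (Fin n) (Fin n) F)

theorem suMat_mul (g h : ↥(Cfsg.SU n F q)) : suMat (g * h) = suMat g * suMat h := rfl

theorem suMat_one : suMat (1 : ↥(Cfsg.SU n F q)) = 1 := rfl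

theorem suMat_inv_mul (g : ↥(Cfsg.SU n F q)) : suMat g⁻¹ * suMat g = 1 := by
  rw [← suMat_mul, inv_mul_cancel, suMat_one]

theorem suMat_mul_inv (g : ↥(Cfsg.SU n F q)) : suMat g * suMat g⁻¹ = 1 := by
  rw [← suMat_mul, mul_inv_cancel, suMat_one]

theorem suMat_ext (g h : ↥(Cfsg.SU n F q)) (e : suMat g = suMat h) : g = h :=
  Subtype.ext (Subtype.ext e)

theorem su_pres (g : ↥(Cfsg.SU n F q)) (x y : Fin n → F) :
    Cfsg.hermForm n F q (suMat g *ᵥ x) (suMat g *ᵥ y) = Cfsg.hermForm n F q x y := g.2 x y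

theorem su_inv_mulVec (g : ↥(Cfsg.SU n F q)) (v : Fin n → F) :
    suMat g⁻¹ *ᵥ (suMat g *ᵥ v) = v := by
  rw [Matrix.mulVec_mulVec, suMat_inv_mul, Matrix.one_mulVec]

theorem su_mulVec_ne_zero (g : ↥(Cfsg.SU n F q)) (v : Fin n → F) (hv : v ≠ 0) :
    suMat g *ᵥ v ≠ 0 := by
  intro h0
  apply hv
  rw [← su_inv_mulVec g v, h0, Matrix.mulVec_zero]

theorem su_smul_mk (g : ↥(Cfsg.SU n F q)) (v : Fin n → F) (hv : v ≠ 0)
    (hv' : suMat g *ᵥ v ≠ 0) :
    g • Projectivization.mk F v hv = Projectivization.mk F (suMat g *ᵥ v) hv' := rfl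

theorem herm_add_left (x y v : Fin n → F) :
    Cfsg.hermForm n F q (x + y) v = Cfsg.hermForm n F q x v + Cfsg.hermForm n F q y v := by
  simp [Cfsg.hermForm, add_mul, Finset.sum_add_distrib]

theorem herm_smul_left (a : F) (x v : Fin n → F) :
    Cfsg.hermForm n F q (a • x) v = a * Cfsg.hermForm n F q x v := by
  simp [Cfsg.hermForm, Finset.mul_sum, mul_assoc]

theorem herm_smul_smul (a : F) (v : Fin n → F) :
    Cfsg.hermForm n F q (a • v) (a • v) = a * a ^ q * Cfsg.hermForm n F q v v := by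
  unfold Cfsg.hermForm
  rw [Finset.mul_sum]
  apply Finset.sum_congr rfl
  intro i _
  simp only [Pi.smul_apply, smul_eq_mul, mul_pow]
  ring

theorem iso_mk (v : Fin n → F) (hv : v ≠ 0) :
    Cfsg.hermForm n F q (Projectivization.mk F v hv).rep (Projectivization.mk F v hv).rep = 0
      ↔ Cfsg.hermForm n F q v v = 0 := by
  obtain ⟨a, ha⟩ := Projectivization.exists_smul_eq_mk_rep F v hv
  rw [← ha, Units.smul_def, herm_smul_smul]
  constructor
  · intro h
    rcases mul_eq_zero.1 h with h | h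
    · exact absurd h (mul_ne_zero a.ne_zero (pow_ne_zero _ a.ne_zero))
    · exact h
  · intro h
    rw [h, mul_zero]

variable (n F q) in
/-- The isotropic points, as a set of projective points stable under the unitary group. -/
def isoPts : SubMulAction ↥(Cfsg.SU n F q) (ℙ F (Fin n → F)) where
  carrier := {p | Cfsg.hermForm n F q p.rep p.rep = 0}
  smul_mem' := by
    intro g p hp
    have hp' : Cfsg.hermForm n F q p.rep p.rep = 0 := hp
    show Cfsg.hermForm n F q (g • p).rep (g • p).rep = 0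
    have h1 : g • p = Projectivization.mk F (suMat g *ᵥ p.rep)
        (su_mulVec_ne_zero g _ p.rep_nonzero) := by
      conv_lhs => rw [← p.mk_rep]
      exact su_smul_mk g p.rep p.rep_nonzero _
    rw [h1, iso_mk, su_pres]
    exact hp'

theorem isoPts_rep (p : ↥(isoPts F n q)) :
    Cfsg.hermForm n F q (p : ℙ F (Fin n → F)).rep (p : ℙ F (Fin n → F)).rep = 0 := p.2

/-- The isotropic point spanned by a nonzero isotropic vector. -/
def mkIso (z : Fin n → F) (hz0 : z ≠ 0) (hz : Cfsg.hermForm n F q z z = 0) : ↥(isoPts F n q) :=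
  ⟨Projectivization.mk F z hz0, (iso_mk z hz0).2 hz⟩

theorem mkIso_rep (z : Fin n → F) (hz0 : z ≠ 0) (hz : Cfsg.hermForm n F q z z = 0) :
    ∃ a : F, a ≠ 0 ∧ ((mkIso z hz0 hz : ↥(isoPts F n q)) : ℙ F (Fin n → F)).rep = a • z := by
  obtain ⟨a, ha⟩ := Projectivization.exists_smul_eq_mk_rep F z hz0
  exact ⟨a, a.ne_zero, ha.symm⟩

theorem iso_smul_rep (g : ↥(Cfsg.SU n F q)) (p : ↥(isoPts F n q)) :
    ∃ a : F, a ≠ 0 ∧ ((g • p : ↥(isoPts F n q)) : ℙ F (Fin n → F)).rep
      = a • (suMat g *ᵥ (p : ℙ F (Fin n → F)).rep) := by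
  have h1 : ((g • p : ↥(isoPts F n q)) : ℙ F (Fin n → F)) = Projectivization.mk F
      (suMat g *ᵥ (p : ℙ F (Fin n → F)).rep)
      (su_mulVec_ne_zero g _ (p : ℙ F (Fin n → F)).rep_nonzero) := by
    rw [SubMulAction.val_smul]
    conv_lhs => rw [← (p : ℙ F (Fin n → F)).mk_rep]
    exact su_smul_mk g _ (p : ℙ F (Fin n → F)).rep_nonzero _
  obtain ⟨a, ha⟩ := Projectivization.exists_smul_eq_mk_rep F
    (suMat g *ᵥ (p : ℙ F (Fin n → F)).rep)
    (su_mulVec_ne_zero g _ (p : ℙ F (Fin n → F)).rep_nonzero)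
  exact ⟨a, a.ne_zero, by rw [h1, ← ha]; rfl⟩

theorem iso_smul_eq (g : ↥(Cfsg.SU n F q)) (p r : ↥(isoPts F n q)) (a : F)
    (h : suMat g *ᵥ (p : ℙ F (Fin n → F)).rep = a • (r : ℙ F (Fin n → F)).rep) : g • p = r := by
  apply Subtype.ext
  rw [SubMulAction.val_smul]
  conv_lhs => rw [← (p : ℙ F (Fin n → F)).mk_rep]
  conv_rhs => rw [← (r : ℙ F (Fin n → F)).mk_rep]
  rw [su_smul_mk g _ (p : ℙ F (Fin n → F)).rep_nonzero
    (su_mulVec_ne_zero g _ (p : ℙ F (Fin n → F)).rep_nonzero), Projectivization.mk_eq_mk_iff']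
  exact ⟨a, h.symm⟩

theorem iso_fix_rep (g : ↥(Cfsg.SU n F q)) (p : ↥(isoPts F n q)) (h : g • p = p) :
    ∃ a : F, suMat g *ᵥ (p : ℙ F (Fin n → F)).rep = a • (p : ℙ F (Fin n → F)).rep := by
  have h1 := congrArg (fun x : ↥(isoPts F n q) => (x : ℙ F (Fin n → F))) h
  simp only [SubMulAction.val_smul] at h1
  have h2 : g • (p : ℙ F (Fin n → F)) = Projectivization.mk F
      (suMat g *ᵥ (p : ℙ F (Fin n → F)).rep)
      (su_mulVec_ne_zero g _ (p : ℙ F (Fin n → F)).rep_nonzero) := by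
    conv_lhs => rw [← (p : ℙ F (Fin n → F)).mk_rep]
    exact su_smul_mk g _ (p : ℙ F (Fin n → F)).rep_nonzero _
  rw [h2] at h1
  have h3 : Projectivization.mk F (suMat g *ᵥ (p : ℙ F (Fin n → F)).rep)
      (su_mulVec_ne_zero g _ (p : ℙ F (Fin n → F)).rep_nonzero)
      = Projectivization.mk F (p : ℙ F (Fin n → F)).rep (p : ℙ F (Fin n → F)).rep_nonzero := by
    rw [h1, Projectivization.mk_rep]
  rw [Projectivization.mk_eq_mk_iff'] at h3
  obtain ⟨a, ha⟩ := h3
  exact ⟨a, ha.symm⟩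

/-- An element fixing all isotropic points scales every isotropic vector. -/
theorem iso_fix_vec (g : ↥(Cfsg.SU n F q)) (hg : ∀ p : ↥(isoPts F n q), g • p = p)
    (y : Fin n → F) (hy0 : y ≠ 0) (hy : Cfsg.hermForm n F q y y = 0) :
    ∃ a : F, a ≠ 0 ∧ suMat g *ᵥ y = a • y := by
  obtain ⟨b, hb0, hb⟩ := mkIso_rep y hy0 hy
  obtain ⟨a, ha⟩ := iso_fix_rep g (mkIso y hy0 hy) (hg _)
  rw [hb, Matrix.mulVec_smul, smul_comm a b y] at ha
  have h1 : suMat g *ᵥ y = a • y := smul_right_injective _ hb0 ha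
  refine ⟨a, ?_, h1⟩
  rintro rfl
  rw [zero_smul] at h1
  exact su_mulVec_ne_zero g y hy0 h1

end UPoints

section UPrim

variable {F : Type*} [Field F] (φ : F →+* F) {n : ℕ} {q : ℕ}
  (hφq : ∀ a : F, φ a = a ^ q) (hφ2 : ∀ a : F, φ (φ a) = a) (hφ : φ ≠ RingHom.id F)

local notation "B" => Bh φ n

include hφq in
theorem herm_bh (x y : Fin n → F) : Cfsg.hermForm n F q x y = B y x := by
  rw [Bh_apply, Cfsg.Agent.S0837.herm_eq φ hφq]

include hφq in
theorem su_isSUm (g : ↥(Cfsg.SU n F q)) : IsSUm φ (suMat g) := by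
  refine ⟨(g : Matrix.SpecialLinearGroup (Fin n) F).2, fun x y => ?_⟩
  rw [← herm_bh φ hφq, ← herm_bh φ hφq]
  exact su_pres g y x

include hφq in
theorem su_of_isSUm (M : Matrix (Fin n) (Fin n) F) (hM : IsSUm φ M) :
    ∃ g : ↥(Cfsg.SU n F q), suMat g = M := by
  have hmem : (⟨M, hM.1⟩ : Matrix.SpecialLinearGroup (Fin n) F) ∈ Cfsg.SU n F q := by
    intro x y
    have h := hM.2 y x
    rw [← herm_bh φ hφq, ← herm_bh φ hφq] at h
    exact h
  exact ⟨⟨_, hmem⟩, rfl⟩

include hφq in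
theorem iso_bh (p : ↥(isoPts F n q)) :
    B (p : ℙ F (Fin n → F)).rep (p : ℙ F (Fin n → F)).rep = 0 := by
  rw [← herm_bh φ hφq]
  exact p.2

include hφq hφ2 hφ in
/-- The special unitary group is transitive on isotropic points. -/
theorem su_pretransitive : MulAction.IsPretransitive ↥(Cfsg.SU n F q) ↥(isoPts F n q) := by
  refine ⟨fun p r => ?_⟩
  have hp := iso_bh φ hφq p
  have hr := iso_bh φ hφq r
  obtain ⟨z, hz, hpz, hrz⟩ := exists_iso_np φ hφ2 hφ _ _
    (p : ℙ F (Fin n → F)).rep_nonzero (r : ℙ F (Fin n → F)).rep_nonzero hp hr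
  obtain ⟨M, hM, -, a, -, h1⟩ := eich_move φ hφ2 z _ _ hz hp hr
    (bh_ne_swap φ hφ2 _ _ hpz) (bh_ne_swap φ hφ2 _ _ hrz)
  obtain ⟨g, hg⟩ := su_of_isSUm φ hφq M hM
  exact ⟨g, iso_smul_eq g p r a (by rw [hg]; exact h1)⟩

include hφq hφ2 hφ in
/-- The special unitary group is primitive on isotropic points. -/
theorem su_preprimitive : MulAction.IsPreprimitive ↥(Cfsg.SU n F q) ↥(isoPts F n q) := by
  have hpt := su_pretransitive φ hφq hφ2 hφ (n := n)
  refine ⟨fun {Bk} hB => ?_⟩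
  have star : ∀ p ∈ Bk, ∀ r ∈ Bk,
      B (p : ℙ F (Fin n → F)).rep (r : ℙ F (Fin n → F)).rep ≠ 0 →
      ∀ s : ↥(isoPts F n q),
        B (p : ℙ F (Fin n → F)).rep (s : ℙ F (Fin n → F)).rep ≠ 0 → s ∈ Bk := by
    intro p hp r hr hpr s hps
    obtain ⟨M, hM, hMu, a, -, h1⟩ := eich_move φ hφ2 _ _ _ (iso_bh φ hφq p) (iso_bh φ hφq r)
      (iso_bh φ hφq s) hpr hps
    obtain ⟨g, hg⟩ := su_of_isSUm φ hφq M hM
    have h2 : g • p = p := iso_smul_eq g p p 1 (by rw [hg, hMu, one_smul])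
    have h3 : g • r = s := iso_smul_eq g r s a (by rw [hg]; exact h1)
    have h4 : g • Bk = Bk := hB.smul_eq_of_mem hp (by rw [h2]; exact hp)
    rw [← h4, ← h3]
    exact Set.smul_mem_smul_set hr
  by_cases hsub : Bk.Subsingleton
  · exact Or.inl hsub
  right
  rw [Set.not_subsingleton_iff] at hsub
  obtain ⟨p, hp, r, hr, hpr⟩ := hsub
  by_cases hex : ∃ p ∈ Bk, ∃ r ∈ Bk,
      B (p : ℙ F (Fin n → F)).rep (r : ℙ F (Fin n → F)).rep ≠ 0
  · obtain ⟨p, hp, r, hr, hpr⟩ := hex
    rw [Set.eq_univ_iff_forall]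
    intro s
    obtain ⟨z, hz, hpz, hsz⟩ := exists_iso_np φ hφ2 hφ _ _
      (p : ℙ F (Fin n → F)).rep_nonzero (s : ℙ F (Fin n → F)).rep_nonzero
      (iso_bh φ hφq p) (iso_bh φ hφq s)
    have hz0 : z ≠ 0 := by
      rintro rfl
      exact hpz (by simp)
    have hzh : Cfsg.hermForm n F q z z = 0 := by rw [herm_bh φ hφq]; exact hz
    obtain ⟨b, hb0, hb⟩ := mkIso_rep z hz0 hzh
    have hφb : φ b ≠ 0 := by rwa [Ne, map_eq_zero]
    have hzB : mkIso z hz0 hzh ∈ Bk := by
      apply star p hp r hr hpr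
      rw [hb, map_smul, smul_eq_mul]
      exact mul_ne_zero hb0 hpz
    apply star (mkIso z hz0 hzh) hzB p hp
    · rw [hb, LinearMap.map_smulₛₗ, LinearMap.smul_apply, smul_eq_mul]
      exact mul_ne_zero hφb (bh_ne_swap φ hφ2 _ _ hpz)
    · rw [hb, LinearMap.map_smulₛₗ, LinearMap.smul_apply, smul_eq_mul]
      exact mul_ne_zero hφb (bh_ne_swap φ hφ2 _ _ hsz)
  · exfalso
    push Not at hex
    have hperp := hex r hr p hp
    have hind : (p : ℙ F (Fin n → F)).rep
        ∉ Submodule.span F ({(r : ℙ F (Fin n → F)).rep} : Set (Fin n → F)) := by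
      intro hmem
      rw [Submodule.mem_span_singleton] at hmem
      obtain ⟨a, ha⟩ := hmem
      apply hpr
      apply Subtype.ext
      rw [← (p : ℙ F (Fin n → F)).mk_rep, ← (r : ℙ F (Fin n → F)).mk_rep,
        Projectivization.mk_eq_mk_iff']
      exact ⟨a, ha⟩
    obtain ⟨M, hM, hMr, hMp⟩ := tv_move φ hφq hφ2 hφ _ _ (r : ℙ F (Fin n → F)).rep_nonzero
      (iso_bh φ hφq p) hperp hind
    obtain ⟨g, hg⟩ := su_of_isSUm φ hφq M hM
    have h2 : g • r = r := iso_smul_eq g r r 1 (by rw [hg, hMr, one_smul])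
    have h4 : g • Bk = Bk := hB.smul_eq_of_mem hr (by rw [h2]; exact hr)
    have h5' : g • p ∈ Bk := by
      rw [← h4]
      exact Set.smul_mem_smul_set hp
    obtain ⟨a, ha0, ha⟩ := iso_smul_rep g p
    have h6 := hex p hp _ h5'
    rw [ha, map_smul, smul_eq_mul, hg] at h6
    exact mul_ne_zero ha0 hMp h6

end UPrim

section UTv

variable {F : Type*} [Field F] {n : ℕ} {q : ℕ}

theorem tv_zero (v : Fin n → F) : Cfsg.unitaryTransvection n q v 0 = 1 := by
  simp [Cfsg.unitaryTransvection]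

theorem tv_zero_vec (c : F) : Cfsg.unitaryTransvection n q (0 : Fin n → F) c = 1 := by
  simp [Cfsg.unitaryTransvection]

theorem tv_mul (v : Fin n → F) (hv : Cfsg.hermForm n F q v v = 0) (c c' : F) :
    Cfsg.unitaryTransvection n q v c * Cfsg.unitaryTransvection n q v c'
      = Cfsg.unitaryTransvection n q v (c + c') := by
  apply mat_ext'
  intro x
  rw [← Matrix.mulVec_mulVec, Cfsg.Agent.S0779.mulVec_eq, Cfsg.Agent.S0779.mulVec_eq,
    Cfsg.Agent.S0779.mulVec_eq, herm_add_left, herm_smul_left, hv, mul_zero, add_zero,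
    add_assoc, ← add_smul]
  congr 2
  ring

theorem tv_smul (a : F) (v : Fin n → F) (c : F) :
    Cfsg.unitaryTransvection n q (a • v) c
      = Cfsg.unitaryTransvection n q v (c * (a * a ^ q)) := by
  apply mat_ext'
  intro x
  rw [Cfsg.Agent.S0779.mulVec_eq, Cfsg.Agent.S0779.mulVec_eq]
  have h1 : Cfsg.hermForm n F q x (a • v) = a ^ q * Cfsg.hermForm n F q x v := by
    unfold Cfsg.hermForm
    rw [Finset.mul_sum]
    apply Finset.sum_congr rfl
    intro i _
    simp only [Pi.smul_apply, smul_eq_mul, mul_pow]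
    ring
  rw [h1, smul_smul]
  congr 2
  ring

theorem tv_conj (g : ↥(Cfsg.SU n F q)) (v : Fin n → F) (c : F) :
    suMat g * Cfsg.unitaryTransvection n q v c
      = Cfsg.unitaryTransvection n q (suMat g *ᵥ v) c * suMat g := by
  apply mat_ext'
  intro x
  rw [← Matrix.mulVec_mulVec, ← Matrix.mulVec_mulVec, Cfsg.Agent.S0779.mulVec_eq,
    Cfsg.Agent.S0779.mulVec_eq, su_pres, Matrix.mulVec_add, Matrix.mulVec_smul]

/-- The group of transvections with a given isotropic centre. -/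
def tvSub (v : Fin n → F) (hv : Cfsg.hermForm n F q v v = 0) : Subgroup ↥(Cfsg.SU n F q) where
  carrier := {g | ∃ c : F, suMat g = Cfsg.unitaryTransvection n q v c}
  mul_mem' := by
    rintro g g' ⟨c, h⟩ ⟨c', h'⟩
    exact ⟨c + c', by rw [suMat_mul, h, h', tv_mul v hv]⟩
  one_mem' := ⟨0, by rw [suMat_one, tv_zero]⟩
  inv_mem' := by
    rintro g ⟨c, h⟩
    refine ⟨-c, ?_⟩
    have h1 : suMat g * Cfsg.unitaryTransvection n q v (-c) = 1 := by
      rw [h, tv_mul v hv, add_neg_cancel, tv_zero]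
    calc suMat g⁻¹ = suMat g⁻¹ * (suMat g * Cfsg.unitaryTransvection n q v (-c)) := by
          rw [h1, mul_one]
      _ = Cfsg.unitaryTransvection n q v (-c) := by rw [← mul_assoc, suMat_inv_mul, one_mul]

theorem mem_tvSub (v : Fin n → F) (hv : Cfsg.hermForm n F q v v = 0) (g : ↥(Cfsg.SU n F q)) :
    g ∈ tvSub v hv ↔ ∃ c : F, suMat g = Cfsg.unitaryTransvection n q v c := Iff.rfl

theorem tvSub_congr (v w : Fin n → F) (e : v = w) (hv : Cfsg.hermForm n F q v v = 0)
    (hw : Cfsg.hermForm n F q w w = 0) : tvSub v hv = tvSub w hw := by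
  subst e
  rfl

theorem tvSub_comm (v : Fin n → F) (hv : Cfsg.hermForm n F q v v = 0) (a b : ↥(Cfsg.SU n F q))
    (ha : a ∈ tvSub v hv) (hb : b ∈ tvSub v hv) : a * b = b * a := by
  obtain ⟨c, h⟩ := ha
  obtain ⟨c', h'⟩ := hb
  apply suMat_ext
  rw [suMat_mul, suMat_mul, h, h', tv_mul v hv, tv_mul v hv, add_comm]

theorem mem_tvSub_smul (a : F) (ha : a ≠ 0) (v : Fin n → F)
    (hv : Cfsg.hermForm n F q v v = 0) (hav : Cfsg.hermForm n F q (a • v) (a • v) = 0)
    (g : ↥(Cfsg.SU n F q)) : g ∈ tvSub (a • v) hav ↔ g ∈ tvSub v hv := by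
  rw [mem_tvSub, mem_tvSub]
  constructor
  · rintro ⟨c, h⟩
    exact ⟨c * (a * a ^ q), by rw [h, tv_smul]⟩
  · rintro ⟨c, h⟩
    refine ⟨c / (a * a ^ q), ?_⟩
    rw [h, tv_smul, div_mul_cancel₀]
    exact mul_ne_zero ha (pow_ne_zero _ ha)

theorem mem_tvSub_conj (g h : ↥(Cfsg.SU n F q)) (v : Fin n → F)
    (hv : Cfsg.hermForm n F q v v = 0)
    (hgv : Cfsg.hermForm n F q (suMat g *ᵥ v) (suMat g *ᵥ v) = 0) :
    h ∈ tvSub (suMat g *ᵥ v) hgv ↔ g⁻¹ * h * g ∈ tvSub v hv := by
  rw [mem_tvSub, mem_tvSub]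
  constructor
  · rintro ⟨c, h1⟩
    refine ⟨c, ?_⟩
    rw [suMat_mul, suMat_mul, h1, mul_assoc, ← tv_conj, ← mul_assoc, suMat_inv_mul, one_mul]
  · rintro ⟨c, h1⟩
    refine ⟨c, ?_⟩
    have h2 : suMat h = suMat g * suMat (g⁻¹ * h * g) * suMat g⁻¹ := by
      rw [suMat_mul, suMat_mul, ← mul_assoc, ← mul_assoc, suMat_mul_inv, one_mul, mul_assoc,
        suMat_mul_inv, mul_one]
    rw [h2, h1, tv_conj, mul_assoc, suMat_mul_inv, mul_one]

/-- The Iwasawa structure given by the transvection groups. -/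
noncomputable def suIwasawa
    (hgen : Subgroup.closure {A : ↥(Cfsg.SU n F q) | ∃ (v : Fin n → F) (c : F),
      Cfsg.hermForm n F q v v = 0 ∧ suMat A = Cfsg.unitaryTransvection n q v c} = ⊤) :
    MulAction.IwasawaStructure ↥(Cfsg.SU n F q) ↥(isoPts F n q) where
  T p := tvSub (p : ℙ F (Fin n → F)).rep (isoPts_rep p)
  is_comm p := by
    refine ⟨⟨fun a b => ?_⟩⟩
    apply Subtype.ext
    exact tvSub_comm _ _ _ _ a.2 b.2
  is_conj g p := by
    ext h
    rw [Subgroup.mem_pointwise_smul_iff_inv_smul_mem, MulAut.smul_def, ← map_inv,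
      MulAut.conj_apply, inv_inv]
    obtain ⟨a, ha0, ha⟩ := iso_smul_rep g p
    have hgv : Cfsg.hermForm n F q (suMat g *ᵥ (p : ℙ F (Fin n → F)).rep)
        (suMat g *ᵥ (p : ℙ F (Fin n → F)).rep) = 0 := by
      rw [su_pres]; exact p.2
    have hav : Cfsg.hermForm n F q (a • (suMat g *ᵥ (p : ℙ F (Fin n → F)).rep))
        (a • (suMat g *ᵥ (p : ℙ F (Fin n → F)).rep)) = 0 := by
      rw [herm_smul_smul, hgv, mul_zero]
    rw [tvSub_congr _ _ ha (isoPts_rep (g • p)) hav, mem_tvSub_smul a ha0 _ hgv hav,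
      mem_tvSub_conj g h _ (isoPts_rep p) hgv]
  is_generator := by
    rw [eq_top_iff, ← hgen, Subgroup.closure_le]
    rintro A ⟨v, c, hv, hA⟩
    show A ∈ ⨆ p : ↥(isoPts F n q), tvSub (p : ℙ F (Fin n → F)).rep (isoPts_rep p)
    by_cases hv0 : v = 0
    · have e : A = 1 := suMat_ext _ _ (by rw [hA, hv0, tv_zero_vec, suMat_one])
      rw [e]
      exact one_mem _
    · apply Subgroup.mem_iSup_of_mem (mkIso v hv0 hv)
      obtain ⟨a, ha0, ha⟩ := mkIso_rep v hv0 hv
      have hav : Cfsg.hermForm n F q (a • v) (a • v) = 0 := by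
        rw [herm_smul_smul, hv, mul_zero]
      rw [tvSub_congr _ _ ha (isoPts_rep (mkIso v hv0 hv)) hav, mem_tvSub_smul a ha0 v hv hav]
      exact ⟨c, hA⟩

theorem su_perfect
    (hgen : Subgroup.closure {A : ↥(Cfsg.SU n F q) | ∃ (v : Fin n → F) (c : F),
      Cfsg.hermForm n F q v v = 0 ∧ suMat A = Cfsg.unitaryTransvection n q v c} = ⊤)
    (hcomm : ∀ A : ↥(Cfsg.SU n F q), (∃ (v : Fin n → F) (c : F),
      Cfsg.hermForm n F q v v = 0 ∧ suMat A = Cfsg.unitaryTransvection n q v c) →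
      A ∈ commutatorSet ↥(Cfsg.SU n F q)) :
    commutator ↥(Cfsg.SU n F q) = ⊤ := by
  rw [eq_top_iff, ← hgen, commutator_eq_closure, Subgroup.closure_le]
  intro A hA
  exact Subgroup.subset_closure (hcomm A hA)

end UTv

section UMain

variable {F : Type*} [Field F] (φ : F →+* F) {n : ℕ} {q : ℕ}
  (hφq : ∀ a : F, φ a = a ^ q) (hφ2 : ∀ a : F, φ (φ a) = a) (hφ : φ ≠ RingHom.id F)

local notation "B" => Bh φ n

include hφq in
theorem scal_rel (g : ↥(Cfsg.SU n F q)) (x y : Fin n → F) (a b : F)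
    (hx : suMat g *ᵥ x = a • x) (hy : suMat g *ᵥ y = b • y) (hxy : B x y ≠ 0) :
    φ a * b = 1 := by
  have h := (su_isSUm φ hφq g).2 x y
  rw [hx, hy] at h
  simp only [LinearMap.map_smulₛₗ, LinearMap.smul_apply, map_smul, smul_eq_mul] at h
  have h2 : (φ a * b - 1) * B x y = 0 := by linear_combination h
  rcases mul_eq_zero.1 h2 with h3 | h3
  · linear_combination h3
  · exact absurd h3 hxy

include hφq hφ2 hφ in
/-- An element fixing every isotropic point is central. -/
theorem su_central_of_fix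
    (hgen : Subgroup.closure {A : ↥(Cfsg.SU n F q) | ∃ (v : Fin n → F) (c : F),
      Cfsg.hermForm n F q v v = 0 ∧ suMat A = Cfsg.unitaryTransvection n q v c} = ⊤)
    (g : ↥(Cfsg.SU n F q)) (hg : ∀ p : ↥(isoPts F n q), g • p = p) :
    g ∈ Subgroup.center ↥(Cfsg.SU n F q) := by
  rw [Subgroup.mem_center_iff]
  have key : ∀ x ∈ Subgroup.closure {A : ↥(Cfsg.SU n F q) | ∃ (v : Fin n → F) (c : F),
      Cfsg.hermForm n F q v v = 0 ∧ suMat A = Cfsg.unitaryTransvection n q v c},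
      x * g = g * x := by
    intro x hx
    induction hx using Subgroup.closure_induction with
    | mem x hx =>
      obtain ⟨v, c, hv, hA⟩ := hx
      by_cases hv0 : v = 0
      · have e : x = 1 := suMat_ext _ _ (by rw [hA, hv0, tv_zero_vec, suMat_one])
        rw [e, one_mul, mul_one]
      · obtain ⟨a, ha0, ha⟩ := iso_fix_vec g hg v hv0 hv
        have hvB : B v v = 0 := by rw [← herm_bh φ hφq]; exact hv
        obtain ⟨s, hs, hvs, -⟩ := exists_iso_np φ hφ2 hφ v v hv0 hv0 hvB hvB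
        have hs0 : s ≠ 0 := by
          rintro rfl
          exact hvs (by simp)
        obtain ⟨b, hb0, hb⟩ := iso_fix_vec g hg s hs0 (by rw [herm_bh φ hφq]; exact hs)
        obtain ⟨s', hs', hvs', hss'⟩ := exists_iso_np φ hφ2 hφ v s hv0 hs0 hvB hs
        have hs'0 : s' ≠ 0 := by
          rintro rfl
          exact hvs' (by simp)
        obtain ⟨c', hc'0, hc'⟩ := iso_fix_vec g hg s' hs'0 (by rw [herm_bh φ hφq]; exact hs')
        have r1 := scal_rel φ hφq g v s a b ha hb hvs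
        have r2 := scal_rel φ hφq g v s' a c' ha hc' hvs'
        have r3 := scal_rel φ hφq g s s' b c' hb hc' hss'
        have hab : φ a = φ b := by
          have h5 : (φ a - φ b) * c' = 0 := by linear_combination r2 - r3
          rcases mul_eq_zero.1 h5 with h6 | h6
          · linear_combination h6
          · exact absurd h6 hc'0
        have hab' : a = b := RingHom.injective φ hab
        have hnorm : a * a ^ q = 1 := by
          rw [← hab'] at r1
          rw [← hφq]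
          linear_combination r1
        apply suMat_ext
        rw [suMat_mul, suMat_mul, hA, tv_conj g v c, ha, tv_smul, hnorm, mul_one]
    | one => rw [one_mul, mul_one]
    | mul x y _ _ ihx ihy => rw [mul_assoc, ihy, ← mul_assoc, ihx, mul_assoc]
    | inv x _ ihx =>
      rw [eq_mul_inv_iff_mul_eq, mul_assoc, ← ihx, ← mul_assoc, inv_mul_cancel, one_mul]
  intro x
  exact key x (by rw [hgen]; exact Subgroup.mem_top x)

include hφq hφ2 hφ in
/-- **Simplicity of the projective special unitary group**, given generation by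
transvections and that transvections are commutators. -/
theorem psu_simple_of [Finite F] (hn : 2 ≤ n)
    (hgen : Subgroup.closure {A : ↥(Cfsg.SU n F q) | ∃ (v : Fin n → F) (c : F),
      Cfsg.hermForm n F q v v = 0 ∧ suMat A = Cfsg.unitaryTransvection n q v c} = ⊤)
    (hcomm : ∀ A : ↥(Cfsg.SU n F q), (∃ (v : Fin n → F) (c : F),
      Cfsg.hermForm n F q v v = 0 ∧ suMat A = Cfsg.unitaryTransvection n q v c) →
      A ∈ commutatorSet ↥(Cfsg.SU n F q)) :
    IsSimpleGroup (Cfsg.PSU n F q) := by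
  have hperf := su_perfect hgen hcomm
  have hprim := su_preprimitive φ hφq hφ2 hφ (n := n)
  have hpt := su_pretransitive φ hφq hφ2 hφ (n := n)
  have key : ∀ (N : Subgroup ↥(Cfsg.SU n F q)), N.Normal →
      N ≤ Subgroup.center ↥(Cfsg.SU n F q) ∨ N = ⊤ := by
    intro N hN
    by_cases hfix : MulAction.fixedPoints N ↥(isoPts F n q) = Set.univ
    · left
      intro g hg
      apply su_central_of_fix φ hφq hφ2 hφ hgen g
      intro p
      have hp : p ∈ MulAction.fixedPoints N ↥(isoPts F n q) := by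
        rw [hfix]; exact Set.mem_univ p
      exact hp ⟨g, hg⟩
    · right
      have h3 := (suIwasawa hgen).commutator_le N hfix
      rw [hperf] at h3
      exact top_le_iff.mp h3
  have hnt : Nontrivial (Cfsg.PSU n F q) := by
    by_contra hnt
    rw [not_nontrivial_iff_subsingleton] at hnt
    have hcen : Subgroup.center ↥(Cfsg.SU n F q) = ⊤ := by
      rw [eq_top_iff]
      intro g _
      have h1 : (QuotientGroup.mk g : Cfsg.PSU n F q) = 1 := Subsingleton.elim _ _
      exact (QuotientGroup.eq_one_iff g).mp h1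
    have hbot := (commutator_eq_bot_iff_center_eq_top _).mpr hcen
    rw [hperf] at hbot
    -- two distinct isotropic points
    obtain ⟨ζ, hζ⟩ := Cfsg.Agent.S0755.norm_surj φ hφ hφ2 (-1) (by rw [map_neg, map_one])
      (neg_ne_zero.mpr one_ne_zero)
    obtain ⟨i0, i1, h01⟩ : ∃ i0 i1 : Fin n, i0 ≠ i1 :=
      ⟨⟨0, by omega⟩, ⟨1, by omega⟩, by simp [Fin.ext_iff]⟩
    obtain ⟨u, hu⟩ : ∃ u : Fin n → F, u = ee i0 + ζ • ee i1 := ⟨_, rfl⟩
    have huu : B u u = 0 := by
      rw [hu]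
      simp only [map_add, LinearMap.add_apply, LinearMap.map_smulₛₗ, LinearMap.smul_apply,
        map_smul, smul_eq_mul, B_ee_ee, h01, h01.symm, ↓reduceIte]
      linear_combination hζ
    have hu0 : u ≠ 0 := by
      intro h0
      have h1 := congrFun h0 i0
      rw [hu] at h1
      simp [ee, h01] at h1
    obtain ⟨s, hs, hus, -⟩ := exists_iso_np φ hφ2 hφ u u hu0 hu0 huu huu
    have hs0 : s ≠ 0 := by
      rintro rfl
      exact hus (by simp)
    obtain ⟨g, hg⟩ := MulAction.exists_smul_eq ↥(Cfsg.SU n F q)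
      (mkIso u hu0 (by rw [herm_bh φ hφq]; exact huu))
      (mkIso s hs0 (by rw [herm_bh φ hφq]; exact hs))
    have hg1 : g = 1 := by
      have h3 : g ∈ (⊤ : Subgroup ↥(Cfsg.SU n F q)) := Subgroup.mem_top g
      rw [hbot] at h3
      exact Subgroup.mem_bot.mp h3
    rw [hg1, one_smul] at hg
    have h4 := congrArg (fun x : ↥(isoPts F n q) => (x : ℙ F (Fin n → F))) hg
    simp only [mkIso] at h4
    rw [Projectivization.mk_eq_mk_iff'] at h4
    obtain ⟨a, ha⟩ := h4
    apply hus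
    rw [← ha, LinearMap.map_smulₛₗ, LinearMap.smul_apply, hs, smul_zero]
  refine ⟨fun K hK => ?_⟩
  rcases key (K.comap (QuotientGroup.mk' (Subgroup.center ↥(Cfsg.SU n F q))))
    inferInstance with h1 | h1
  · left
    rw [eq_bot_iff]
    intro k hk
    obtain ⟨g, rfl⟩ := QuotientGroup.mk_surjective k
    rw [Subgroup.mem_bot]
    exact (QuotientGroup.eq_one_iff g).mpr (h1 hk)
  · right
    rw [eq_top_iff]
    intro k _
    obtain ⟨g, rfl⟩ := QuotientGroup.mk_surjective k
    have h2' : g ∈ K.comap (QuotientGroup.mk' (Subgroup.center ↥(Cfsg.SU n F q))) := by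
      rw [h1]; exact Subgroup.mem_top g
    exact h2'

end UMain

end Cfsg.Agent.Lib.Helper3
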