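import Mathlib
import Cfsg.Agent.Lib.Helper3.UnitarySimple

/-!
# Transvections in special unitary groups

Elements `g` of the special unitary group with `g - 1` of rank one are exactly the unitary
transvections with nonzero isotropic centre.
-/

set_option autoImplicit false
set_option linter.unusedSectionVars false

namespace Cfsg.Agent.Lib.Helper3

open Cfsg.Agent.S0837 (Bh Bh_apply hf Bh_symm Bh_nondeg)
open Cfsg.Agent.S0780 Cfsg.Agent.S0781
open scoped LinearAlgebra.Projectivization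
open scoped Pointwise
open Matrix

section UTvRank

variable {F : Type*} [Field F] {n : ℕ} {q : ℕ}

theorem tv_det (v : Fin n → F) (c : F) :
    (Cfsg.unitaryTransvection n q v c).det = 1 + c * Cfsg.hermForm n F q v v := by
  have h3 := Matrix.det_one_add_replicateCol_mul_replicateRow (ι := Fin 1) (c • v)
    (fun j => (v j) ^ q)
  have h1 : Cfsg.unitaryTransvection n q v c
      = 1 + Matrix.replicateCol (Fin 1) (c • v)
        * Matrix.replicateRow (Fin 1) (fun j => (v j) ^ q) := by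
    ext i j
    simp [Cfsg.unitaryTransvection, Matrix.vecMulVec_apply, Matrix.mul_apply]
  rw [h1]
  refine h3.trans ?_
  congr 1
  simp only [dotProduct, Cfsg.hermForm, Pi.smul_apply, smul_eq_mul, Finset.mul_sum]
  apply Finset.sum_congr rfl
  intro i _
  ring

theorem tv_sub_one_mulVec (v : Fin n → F) (c : F) (x : Fin n → F) :
    (Cfsg.unitaryTransvection n q v c - 1) *ᵥ x = (c * Cfsg.hermForm n F q x v) • v := by
  rw [Matrix.sub_mulVec, Matrix.one_mulVec, Cfsg.Agent.S0779.mulVec_eq, add_sub_cancel_left]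

variable (φ : F →+* F) (hφq : ∀ a : F, φ a = a ^ q) (hφ2 : ∀ a : F, φ (φ a) = a)

local notation "B" => Bh φ n

include hφq in
theorem tv_rank_one (v : Fin n → F) (hv0 : v ≠ 0) (c : F) (hc : c ≠ 0) :
    (Cfsg.unitaryTransvection n q v c - 1).rank = 1 := by
  unfold Matrix.rank
  rw [finrank_eq_one_iff']
  obtain ⟨a, ha⟩ := exists_np1 φ v hv0
  have hva : Cfsg.hermForm n F q a v ≠ 0 := by rw [herm_bh φ hφq]; exact ha
  refine ⟨⟨v, ?_⟩, ?_, ?_⟩
  · rw [LinearMap.mem_range]
    refine ⟨(c * Cfsg.hermForm n F q a v)⁻¹ • a, ?_⟩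
    rw [Matrix.mulVecLin_apply, tv_sub_one_mulVec, herm_smul_left]
    have : c * ((c * Cfsg.hermForm n F q a v)⁻¹ * Cfsg.hermForm n F q a v) = 1 := by
      field_simp
    rw [this, one_smul]
  · intro h
    exact hv0 (congrArg Subtype.val h)
  · rintro ⟨w, hw⟩
    rw [LinearMap.mem_range] at hw
    obtain ⟨x, rfl⟩ := hw
    refine ⟨c * Cfsg.hermForm n F q x v, ?_⟩
    apply Subtype.ext
    show (c * Cfsg.hermForm n F q x v) • v = (Cfsg.unitaryTransvection n q v c - 1) *ᵥ x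
    rw [tv_sub_one_mulVec]

include hφq hφ2 in
/-- An element `g` of the special unitary group with `g - 1` of rank one is a transvection
with nonzero isotropic centre. -/
theorem su_rank_one_tv (g : ↥(Cfsg.SU n F q)) (hg : (suMat g - 1).rank = 1) :
    ∃ w : Fin n → F, w ≠ 0 ∧ Cfsg.hermForm n F q w w = 0 ∧
      ∃ κ : F, κ ≠ 0 ∧ suMat g = Cfsg.unitaryTransvection n q w κ := by
  obtain ⟨G, hG⟩ : ∃ G : Matrix (Fin n) (Fin n) F, G = suMat g := ⟨_, rfl⟩
  rw [← hG] at hg ⊢
  unfold Matrix.rank at hg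
  rw [finrank_eq_one_iff'] at hg
  obtain ⟨⟨w, hwr⟩, hw0, hall⟩ := hg
  have hw0' : w ≠ 0 := fun h => hw0 (Subtype.ext h)
  have hc : ∀ x : Fin n → F, ∃ c : F, (G - 1) *ᵥ x = c • w := by
    intro x
    obtain ⟨c, hc⟩ := hall ⟨(G - 1) *ᵥ x, LinearMap.mem_range.2 ⟨x, rfl⟩⟩
    exact ⟨c, (congrArg Subtype.val hc).symm⟩
  choose c hc using hc
  have hGx : ∀ x, G *ᵥ x = x + c x • w := by
    intro x
    have := hc x
    rw [Matrix.sub_mulVec, Matrix.one_mulVec] at this
    rw [← this]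
    abel
  obtain ⟨y₀, hy₀⟩ : ∃ y₀, c y₀ ≠ 0 := by
    obtain ⟨y, hy⟩ := LinearMap.mem_range.1 hwr
    rw [Matrix.mulVecLin_apply, hc y] at hy
    refine ⟨y, ?_⟩
    intro h
    rw [h, zero_smul] at hy
    exact hw0' hy.symm
  have hform : ∀ x y, c y * B x w + φ (c x) * B w y + φ (c x) * c y * B w w = 0 := by
    intro x y
    have h1 := (su_isSUm φ hφq g).2 x y
    rw [← hG, hGx, hGx] at h1
    simp only [map_add, LinearMap.add_apply, LinearMap.map_smulₛₗ, LinearMap.smul_apply,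
      map_smul, smul_eq_mul] at h1
    linear_combination h1
  obtain ⟨K, hK⟩ : ∃ K : F, K = (B w y₀ + c y₀ * B w w) / c y₀ := ⟨_, rfl⟩
  have hxw : ∀ x, B x w = -(φ (c x) * K) := by
    intro x
    have h1 := hform x y₀
    rw [hK]
    field_simp
    linear_combination h1
  have hwx : ∀ x, B w x = c x * (-(φ K)) := by
    intro x
    rw [bh_swap φ hφ2 x w, hxw x, map_neg, map_mul, hφ2]
    ring
  have hμ0 : -(φ K) ≠ 0 := by
    intro h0
    obtain ⟨a, ha⟩ := exists_np1 φ w hw0'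
    apply ha
    rw [hwx a, h0, mul_zero]
  obtain ⟨κ, hκ⟩ : ∃ κ : F, κ = (-(φ K))⁻¹ := ⟨_, rfl⟩
  have hκ0 : κ ≠ 0 := by rw [hκ]; exact inv_ne_zero hμ0
  have hφK : φ K ≠ 0 := fun h => hμ0 (by rw [h, neg_zero])
  have hcx : ∀ x, c x = κ * B w x := by
    intro x
    rw [hwx x, hκ]
    field_simp
  have hGtv : G = Cfsg.unitaryTransvection n q w κ := by
    apply mat_ext'
    intro x
    rw [hGx, tv_mulVec φ hφq, hcx x]
  refine ⟨w, hw0', ?_, κ, hκ0, hGtv⟩
  have hdet : G.det = 1 := by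
    rw [hG]
    exact (g : Matrix.SpecialLinearGroup (Fin n) F).2
  rw [hGtv, tv_det] at hdet
  have h2 : κ * Cfsg.hermForm n F q w w = 0 := by linear_combination hdet
  rcases mul_eq_zero.1 h2 with h3 | h3
  · exact absurd h3 hκ0
  · exact h3

end UTvRank

section UTvMore

variable {F : Type*} [Field F] {n : ℕ} {q : ℕ}

/-- The matrix of a conjugate of a transvection. -/
theorem conj_tv (g d : ↥(Cfsg.SU n F q)) (v : Fin n → F) (c : F)
    (hd : suMat d = Cfsg.unitaryTransvection n q v c) :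
    suMat (g * d * g⁻¹) = Cfsg.unitaryTransvection n q (suMat g *ᵥ v) c := by
  rw [suMat_mul, suMat_mul, hd, tv_conj, mul_assoc, suMat_mul_inv, mul_one]

/-- The relation between representatives given by an equality of isotropic points. -/
theorem iso_smul_mk (g : ↥(Cfsg.SU n F q)) (u w : Fin n → F) (hu0 : u ≠ 0) (hw0 : w ≠ 0)
    (hu : Cfsg.hermForm n F q u u = 0) (hw : Cfsg.hermForm n F q w w = 0)
    (h : g • mkIso u hu0 hu = mkIso w hw0 hw) : ∃ a : F, a ≠ 0 ∧ suMat g *ᵥ u = a • w := by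
  have h1 := congrArg (fun x : ↥(isoPts F n q) => (x : ℙ F (Fin n → F))) h
  simp only [SubMulAction.val_smul, mkIso] at h1
  rw [su_smul_mk g u hu0 (su_mulVec_ne_zero g u hu0), Projectivization.mk_eq_mk_iff'] at h1
  obtain ⟨a, ha⟩ := h1
  have ha0 : a ≠ 0 := by
    rintro rfl
    rw [zero_smul] at ha
    exact su_mulVec_ne_zero g u hu0 ha.symm
  exact ⟨a, ha0, ha.symm⟩

variable (φ : F →+* F) (hφq : ∀ a : F, φ a = a ^ q) (hφ2 : ∀ a : F, φ (φ a) = a)
  (hφ : φ ≠ RingHom.id F)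

local notation "B" => Bh φ n

include hφq hφ2 in
/-- The element of the special unitary group given by a transvection. -/
theorem tv_elt (v : Fin n → F) (c : F) (hv : Cfsg.hermForm n F q v v = 0) (hc : φ c = -c) :
    ∃ d : ↥(Cfsg.SU n F q), suMat d = Cfsg.unitaryTransvection n q v c :=
  su_of_isSUm φ hφq _ (tv_isSUm φ hφq hφ2 v c (by rw [← herm_bh φ hφq]; exact hv) hc)

include hφq hφ2 hφ in
/-- A nonzero isotropic vector exists in dimension at least two. -/
theorem exists_iso_vec [Finite F] (hn : 2 ≤ n) :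
    ∃ u : Fin n → F, u ≠ 0 ∧ Cfsg.hermForm n F q u u = 0 := by
  obtain ⟨ζ, hζ⟩ := Cfsg.Agent.S0755.norm_surj φ hφ hφ2 (-1) (by rw [map_neg, map_one])
    (neg_ne_zero.mpr one_ne_zero)
  obtain ⟨i0, i1, h01⟩ : ∃ i0 i1 : Fin n, i0 ≠ i1 :=
    ⟨⟨0, by omega⟩, ⟨1, by omega⟩, by simp [Fin.ext_iff]⟩
  refine ⟨ee i0 + ζ • ee i1, ?_, ?_⟩
  · intro h0
    have h1 := congrFun h0 i0
    simp [ee, h01] at h1
  · rw [herm_bh φ hφq]
    simp only [map_add, LinearMap.add_apply, LinearMap.map_smulₛₗ, LinearMap.smul_apply,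
      map_smul, smul_eq_mul, B_ee_ee, h01, h01.symm, ↓reduceIte]
    linear_combination hζ

end UTvMore

end Cfsg.Agent.Lib.Helper3
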