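import Mathlib
import Cfsg.Prelude
import Cfsg.Agent.Lib.Helper3.UnitaryTv
import Cfsg.Agent.Lib.Helper3.UnitaryCount
import Cfsg.Agent.Lib.Helper3.RootTransfer

set_option autoImplicit false
set_option linter.unusedSectionVars false

/-!
Unitary transvection subgroups as abstract root subgroups.
-/

namespace Cfsg.Agent.Lib.Helper3

open Cfsg.Agent.S0837 (Bh Bh_apply hf Bh_symm Bh_nondeg)
open Cfsg.Agent.S0780 Cfsg.Agent.S0781
open Matrix Cfsg
open scoped commutatorElement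

section SURootA

variable {F : Type*} [Field F] {n : ℕ} {q : ℕ}
variable (φ : F →+* F) (hφq : ∀ a : F, φ a = a ^ q) (hφ2 : ∀ a : F, φ (φ a) = a)
  (hφ : φ ≠ RingHom.id F)

include hφq hφ2 in
theorem herm_swap (x y : Fin n → F) :
    Cfsg.hermForm n F q y x = φ (Cfsg.hermForm n F q x y) := by
  unfold Cfsg.hermForm
  rw [map_sum]
  apply Finset.sum_congr rfl
  intro i _
  rw [map_mul, ← hφq, ← hφq, hφ2, mul_comm]

include hφq in
theorem herm_add_right (x y z : Fin n → F) :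
    Cfsg.hermForm n F q x (y + z) = Cfsg.hermForm n F q x y + Cfsg.hermForm n F q x z := by
  unfold Cfsg.hermForm
  rw [← Finset.sum_add_distrib]
  apply Finset.sum_congr rfl
  intro i _
  rw [Pi.add_apply, ← hφq, ← hφq, ← hφq, map_add, mul_add]

include hφq in
theorem herm_smul_right (a : F) (x y : Fin n → F) :
    Cfsg.hermForm n F q x (a • y) = φ a * Cfsg.hermForm n F q x y := by
  unfold Cfsg.hermForm
  rw [Finset.mul_sum]
  apply Finset.sum_congr rfl
  intro i _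
  rw [Pi.smul_apply, smul_eq_mul, mul_pow, hφq]
  ring

include hφq hφ2 in
theorem herm_swap_zero (x y : Fin n → F) (h : Cfsg.hermForm n F q x y = 0) :
    Cfsg.hermForm n F q y x = 0 := by
  rw [herm_swap φ hφq hφ2 x y, h, map_zero]

include hφq hφ2 in
theorem herm_swap_ne (x y : Fin n → F) (h : Cfsg.hermForm n F q x y ≠ 0) :
    Cfsg.hermForm n F q y x ≠ 0 :=
  fun h0 => h (herm_swap_zero φ hφq hφ2 y x h0)

theorem exists_herm_ne (p : Fin n → F) (hp0 : p ≠ 0) :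
    ∃ a : Fin n → F, Cfsg.hermForm n F q a p ≠ 0 := by
  obtain ⟨i, hi⟩ := Function.ne_iff.mp hp0
  refine ⟨Pi.single i 1, ?_⟩
  unfold Cfsg.hermForm
  rw [Finset.sum_eq_single i]
  · rw [Pi.single_eq_same, one_mul]
    exact pow_ne_zero q hi
  · intro j _ hj
    rw [Pi.single_eq_of_ne hj, zero_mul]
  · intro h
    exact absurd (Finset.mem_univ i) h

theorem uvec_eq_zero_of_add {x y : Fin n → F} (h : x + y = x) : y = 0 := by
  have h1 := congrArg (fun t => t - x) h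
  simpa using h1

theorem su_tv_mulVec (g : ↥(Cfsg.SU n F q)) (p : Fin n → F) (c : F)
    (hg : suMat g = Cfsg.unitaryTransvection n q p c) (x : Fin n → F) :
    suMat g *ᵥ x = x + (c * Cfsg.hermForm n F q x p) • p := by
  rw [hg, Cfsg.Agent.S0779.mulVec_eq]

theorem suMat_inv_tv (g : ↥(Cfsg.SU n F q)) (p : Fin n → F)
    (hp : Cfsg.hermForm n F q p p = 0) (c : F)
    (hg : suMat g = Cfsg.unitaryTransvection n q p c) :
    suMat g⁻¹ = Cfsg.unitaryTransvection n q p (-c) := by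
  have h1 : suMat g * Cfsg.unitaryTransvection n q p (-c) = 1 := by
    rw [hg, tv_mul p hp, add_neg_cancel, tv_zero]
  calc suMat g⁻¹ = suMat g⁻¹ * (suMat g * Cfsg.unitaryTransvection n q p (-c)) := by
        rw [h1, mul_one]
    _ = Cfsg.unitaryTransvection n q p (-c) := by rw [← mul_assoc, suMat_inv_mul, one_mul]

theorem tv_eq_one (p : Fin n → F) (hp0 : p ≠ 0) (c : F)
    (h : Cfsg.unitaryTransvection n q p c = 1) : c = 0 := by
  obtain ⟨a, ha⟩ := exists_herm_ne (q := q) p hp0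
  have h1 := Cfsg.Agent.S0779.mulVec_eq (q := q) n p c a
  rw [h, Matrix.one_mulVec] at h1
  have h2 := uvec_eq_zero_of_add h1.symm
  rcases smul_eq_zero.mp h2 with h3 | h3
  · rcases mul_eq_zero.mp h3 with h4 | h4
    · exact h4
    · exact absurd h4 ha
  · exact absurd h3 hp0

include hφq hφ2 in
theorem tv_skew (g : ↥(Cfsg.SU n F q)) (p : Fin n → F) (hp0 : p ≠ 0)
    (hp : Cfsg.hermForm n F q p p = 0) (c : F)
    (hg : suMat g = Cfsg.unitaryTransvection n q p c) : φ c = -c := by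
  obtain ⟨a, ha⟩ := exists_herm_ne (q := q) p hp0
  have h1 := su_pres g a a
  have h2 : Cfsg.hermForm n F q p a = φ (Cfsg.hermForm n F q a p) := herm_swap φ hφq hφ2 a p
  have h3 : φ (Cfsg.hermForm n F q a p) ≠ 0 := by rwa [Ne, map_eq_zero]
  simp only [su_tv_mulVec g p c hg, herm_add_left, herm_add_right φ hφq, herm_smul_left,
    herm_smul_right φ hφq, hp, h2, map_mul] at h1
  have h4 : (φ c + c) * (Cfsg.hermForm n F q a p * φ (Cfsg.hermForm n F q a p)) = 0 := by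
    linear_combination h1
  rcases mul_eq_zero.mp h4 with h5 | h5
  · linear_combination h5
  · exact absurd h5 (mul_ne_zero ha h3)

theorem utvGen_eq (p : Fin n → F) (hp0 : p ≠ 0) (hp : Cfsg.hermForm n F q p p = 0) :
    {g : ↥(Cfsg.SU n F q) |
      (∀ v : Fin n → F, ∃ c : F,
        ((g : Matrix.SpecialLinearGroup (Fin n) F) : Matrix (Fin n) (Fin n) F) *ᵥ v = v + c • p) ∧
      ∀ v : Fin n → F, Cfsg.hermForm n F q v p = 0 →
        ((g : Matrix.SpecialLinearGroup (Fin n) F) : Matrix (Fin n) (Fin n) F) *ᵥ v = v}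
      = (tvSub p hp : Set ↥(Cfsg.SU n F q)) := by
  ext g
  constructor
  · rintro ⟨h1, h2⟩
    obtain ⟨a, ha⟩ := exists_herm_ne (q := q) p hp0
    obtain ⟨c₀, hc₀⟩ := h1 a
    refine ⟨c₀ / Cfsg.hermForm n F q a p, ?_⟩
    apply mat_ext'
    intro v
    rw [Cfsg.Agent.S0779.mulVec_eq]
    obtain ⟨t, ht⟩ : ∃ t : F, t = Cfsg.hermForm n F q v p / Cfsg.hermForm n F q a p := ⟨_, rfl⟩
    have hv' : Cfsg.hermForm n F q (v + (-t) • a) p = 0 := by
      rw [herm_add_left, herm_smul_left, ht]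
      field_simp
      ring
    have h3 := h2 _ hv'
    rw [Matrix.mulVec_add, Matrix.mulVec_smul, hc₀] at h3
    have h4 : suMat g *ᵥ v = v + (-t) • a - (-t) • (a + c₀ • p) := by
      rw [← h3]
      abel
    have h5 : t * c₀ = c₀ / Cfsg.hermForm n F q a p * Cfsg.hermForm n F q v p := by
      rw [ht]
      ring
    show suMat g *ᵥ v = _
    rw [h4, ← h5, smul_add, smul_smul, neg_smul, neg_mul, neg_smul]
    abel
  · rintro ⟨c, hc⟩
    refine ⟨fun v => ⟨c * Cfsg.hermForm n F q v p, ?_⟩, fun v hv => ?_⟩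
    · exact su_tv_mulVec g p c hc v
    · show suMat g *ᵥ v = v
      rw [su_tv_mulVec g p c hc v, hv, mul_zero, zero_smul, add_zero]

theorem utvClosure_eq (p : Fin n → F) (hp0 : p ≠ 0) (hp : Cfsg.hermForm n F q p p = 0) :
    Subgroup.closure {g : ↥(Cfsg.SU n F q) |
      (∀ v : Fin n → F, ∃ c : F,
        ((g : Matrix.SpecialLinearGroup (Fin n) F) : Matrix (Fin n) (Fin n) F) *ᵥ v = v + c • p) ∧
      ∀ v : Fin n → F, Cfsg.hermForm n F q v p = 0 →
        ((g : Matrix.SpecialLinearGroup (Fin n) F) : Matrix (Fin n) (Fin n) F) *ᵥ v = v}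
      = tvSub p hp := by
  rw [utvGen_eq p hp0 hp, Subgroup.closure_eq]

theorem tvSub_commutative (p : Fin n → F) (hp : Cfsg.hermForm n F q p p = 0) :
    IsMulCommutative (tvSub p hp) :=
  ⟨⟨fun a b => Subtype.ext (tvSub_comm p hp a b a.2 b.2)⟩⟩

theorem tvSub_nilpotent (p : Fin n → F) (hp : Cfsg.hermForm n F q p p = 0) :
    Group.IsNilpotent (tvSub p hp) :=
  ⟨⟨1, Subgroup.upperCentralSeries_one_eq_top_iff.mpr (tvSub_commutative p hp)⟩⟩

theorem tvSub_smul_eq (a : F) (ha : a ≠ 0) (v : Fin n → F)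
    (hv : Cfsg.hermForm n F q v v = 0) (hav : Cfsg.hermForm n F q (a • v) (a • v) = 0) :
    tvSub (a • v) hav = tvSub v hv := by
  ext g
  exact mem_tvSub_smul a ha v hv hav g

theorem conjBy_tvSub (g : ↥(Cfsg.SU n F q)) (p : Fin n → F)
    (hp : Cfsg.hermForm n F q p p = 0)
    (hgp : Cfsg.hermForm n F q (suMat g *ᵥ p) (suMat g *ᵥ p) = 0) :
    Cfsg.conjBy (tvSub p hp) g = tvSub (suMat g *ᵥ p) hgp := by
  ext h
  rw [Cfsg.conjBy, Subgroup.mem_map_equiv]
  have hx : (MulAut.conj g).symm h = g⁻¹ * h * g := by simp [MulAut.conj_symm_apply]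
  rw [hx]
  exact (mem_tvSub_conj g h p hp hgp).symm

theorem su_iso (g : ↥(Cfsg.SU n F q)) (p : Fin n → F) (hp : Cfsg.hermForm n F q p p = 0) :
    Cfsg.hermForm n F q (suMat g *ᵥ p) (suMat g *ᵥ p) = 0 := by
  rw [su_pres]
  exact hp

include hφq hφ2 hφ in
theorem tvSub_exists_ne_one (p : Fin n → F) (hp0 : p ≠ 0)
    (hp : Cfsg.hermForm n F q p p = 0) : ∃ a ∈ tvSub p hp, a ≠ 1 := by
  obtain ⟨ε, hε0, hε⟩ := exists_skew φ hφ hφ2
  obtain ⟨d, hd⟩ := tv_elt φ hφq hφ2 p ε hp hε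
  refine ⟨d, ⟨ε, hd⟩, ?_⟩
  rintro rfl
  rw [suMat_one] at hd
  exact hε0 (tv_eq_one p hp0 ε hd.symm)

include hφq hφ2 hφ in
theorem tvSub_ne_bot (p : Fin n → F) (hp0 : p ≠ 0)
    (hp : Cfsg.hermForm n F q p p = 0) : tvSub p hp ≠ ⊥ := by
  intro h
  obtain ⟨a, ha, ha1⟩ := tvSub_exists_ne_one φ hφq hφ2 hφ p hp0 hp
  rw [h, Subgroup.mem_bot] at ha
  exact ha1 ha

include hφq hφ2 in
theorem tvSub_comm_of_perp (p r : Fin n → F) (hp : Cfsg.hermForm n F q p p = 0)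
    (hr : Cfsg.hermForm n F q r r = 0) (hpr : Cfsg.hermForm n F q p r = 0) :
    ∀ a ∈ tvSub p hp, ∀ b ∈ tvSub r hr, a * b = b * a := by
  rintro a ⟨c, hc⟩ b ⟨d, hd⟩
  have hrp : Cfsg.hermForm n F q r p = 0 := herm_swap_zero φ hφq hφ2 p r hpr
  apply suMat_ext
  rw [suMat_mul, suMat_mul]
  apply mat_ext'
  intro x
  rw [← Matrix.mulVec_mulVec, ← Matrix.mulVec_mulVec]
  simp only [su_tv_mulVec a p c hc, su_tv_mulVec b r d hd, herm_add_left, herm_smul_left, hpr,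
    hrp, mul_zero, add_zero]
  abel

end SURootA

section SURootB

variable {F : Type*} [Field F] {n : ℕ} {q : ℕ}
variable (φ : F →+* F) (hφq : ∀ a : F, φ a = a ^ q) (hφ2 : ∀ a : F, φ (φ a) = a)
  (hφ : φ ≠ RingHom.id F)

include hφq hφ2 in
theorem utv_rankOneCond (p r : Fin n → F) (hp0 : p ≠ 0) (hr0 : r ≠ 0)
    (hp : Cfsg.hermForm n F q p p = 0) (hr : Cfsg.hermForm n F q r r = 0)
    (hpr : Cfsg.hermForm n F q p r ≠ 0) :
    Cfsg.RankOneCondition (tvSub p hp) (tvSub r hr) := by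
  intro a ha ha1
  obtain ⟨c, hc⟩ := ha
  have hcs : φ c = -c := tv_skew φ hφq hφ2 a p hp0 hp c hc
  have hc0 : c ≠ 0 := by
    rintro rfl
    apply ha1
    apply suMat_ext
    rw [hc, tv_zero, suMat_one]
  have hrp : Cfsg.hermForm n F q r p ≠ 0 := herm_swap_ne φ hφq hφ2 p r hpr
  obtain ⟨α, hα⟩ : ∃ α : F, α = Cfsg.hermForm n F q p r := ⟨_, rfl⟩
  obtain ⟨β, hβ⟩ : ∃ β : F, β = Cfsg.hermForm n F q r p := ⟨_, rfl⟩
  have hαβ : φ α = β := by rw [hα, hβ, herm_swap φ hφq hφ2 p r]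
  have hβα : φ β = α := by rw [← hαβ, hφ2]
  rw [← hα] at hpr
  rw [← hβ] at hrp
  obtain ⟨d, hd⟩ : ∃ d : F, d = (c * β * α)⁻¹ := ⟨_, rfl⟩
  have hds : φ d = -d := by
    rw [hd, map_inv₀, map_mul, map_mul, hcs, hαβ, hβα,
      show -c * α * β = -(c * β * α) by ring, inv_neg]
  have hd0 : d ≠ 0 := by
    rw [hd]
    exact inv_ne_zero (mul_ne_zero (mul_ne_zero hc0 hrp) hpr)
  obtain ⟨b, hb⟩ := tv_elt φ hφq hφ2 r d hr hds
  refine ⟨b, ⟨d, hb⟩, ?_, ?_⟩
  · rintro rfl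
    rw [suMat_one] at hb
    exact hd0 (tv_eq_one r hr0 d hb.symm)
  · rw [conjBy_tvSub b⁻¹ p hp (su_iso b⁻¹ p hp), conjBy_tvSub a⁻¹ r hr (su_iso a⁻¹ r hr)]
    have hne : -c * β ≠ 0 := mul_ne_zero (neg_ne_zero.mpr hc0) hrp
    have e1 : suMat b⁻¹ *ᵥ p = p + (-d * α) • r := by
      rw [su_tv_mulVec b⁻¹ r (-d) (suMat_inv_tv b r hr d hb), hα]
    have e2 : suMat a⁻¹ *ᵥ r = r + (-c * β) • p := by
      rw [su_tv_mulVec a⁻¹ p (-c) (suMat_inv_tv a p hp c hc), hβ]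
    have k : -d * α = (-c * β)⁻¹ := by
      rw [hd]
      field_simp
    have e3 : suMat b⁻¹ *ᵥ p = (-c * β)⁻¹ • (suMat a⁻¹ *ᵥ r) := by
      rw [e1, e2, smul_add, smul_smul, inv_mul_cancel₀ hne, one_smul, k, add_comm]
    have hiso : Cfsg.hermForm n F q ((-c * β)⁻¹ • (suMat a⁻¹ *ᵥ r))
        ((-c * β)⁻¹ • (suMat a⁻¹ *ᵥ r)) = 0 := by
      rw [herm_smul_smul, su_iso a⁻¹ r hr, mul_zero]
    rw [tvSub_congr _ _ e3 (su_iso b⁻¹ p hp) hiso,
      tvSub_smul_eq _ (inv_ne_zero hne) _ (su_iso a⁻¹ r hr) hiso]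

include hφq hφ2 hφ in
theorem utv_ne (p r : Fin n → F) (hp0 : p ≠ 0) (hr0 : r ≠ 0)
    (hp : Cfsg.hermForm n F q p p = 0) (hr : Cfsg.hermForm n F q r r = 0)
    (hpr : Cfsg.hermForm n F q p r ≠ 0) : tvSub p hp ≠ tvSub r hr := by
  intro he
  obtain ⟨ε, hε0, hε⟩ := exists_skew φ hφ hφ2
  obtain ⟨a, ha⟩ := tv_elt φ hφq hφ2 p ε hp hε
  have hm : a ∈ tvSub r hr := he ▸ (⟨ε, ha⟩ : a ∈ tvSub p hp)
  obtain ⟨d, hd⟩ := hm
  have h1 := su_tv_mulVec a p ε ha p
  rw [su_tv_mulVec a r d hd p, hp, mul_zero, zero_smul, add_zero] at h1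
  have h2 := uvec_eq_zero_of_add h1
  rcases smul_eq_zero.mp h2 with h3 | h3
  · rcases mul_eq_zero.mp h3 with h4 | h4
    · rw [h4, tv_zero] at hd
      rw [hd] at ha
      exact hε0 (tv_eq_one p hp0 ε ha.symm)
    · exact hpr h4
  · exact hr0 h3

include hφq hφ2 hφ in
theorem utv_rankOne (p r : Fin n → F) (hp0 : p ≠ 0) (hr0 : r ≠ 0)
    (hp : Cfsg.hermForm n F q p p = 0) (hr : Cfsg.hermForm n F q r r = 0)
    (hpr : Cfsg.hermForm n F q p r ≠ 0) :
    Cfsg.IsRankOnePair (tvSub p hp) (tvSub r hr) :=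
  ⟨utv_ne φ hφq hφ2 hφ p r hp0 hr0 hp hr hpr, tvSub_nilpotent p hp, tvSub_nilpotent r hr,
    utv_rankOneCond φ hφq hφ2 p r hp0 hr0 hp hr hpr,
    utv_rankOneCond φ hφq hφ2 r p hr0 hp0 hr hp (herm_swap_ne φ hφq hφ2 p r hpr)⟩

include hφq hφ2 in
theorem herm_zero_of_comm (z a : ↥(Cfsg.SU n F q)) (w p : Fin n → F) (hp0 : p ≠ 0)
    (hp : Cfsg.hermForm n F q p p = 0) (e e' : F) (he : e ≠ 0) (he' : e' ≠ 0)
    (hz : suMat z = Cfsg.unitaryTransvection n q w e')
    (ha : suMat a = Cfsg.unitaryTransvection n q p e) (h : z * a = a * z) :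
    Cfsg.hermForm n F q p w = 0 := by
  by_contra hne
  have e1 : suMat (z * a) *ᵥ p = p + (e' * Cfsg.hermForm n F q p w) • w := by
    rw [suMat_mul, ← Matrix.mulVec_mulVec, su_tv_mulVec a p e ha p, hp, mul_zero, zero_smul,
      add_zero, su_tv_mulVec z w e' hz p]
  have e2 : suMat (a * z) *ᵥ p = p + (e' * Cfsg.hermForm n F q p w) • w
      + (e * (e' * Cfsg.hermForm n F q p w * Cfsg.hermForm n F q w p)) • p := by
    rw [suMat_mul, ← Matrix.mulVec_mulVec, su_tv_mulVec z w e' hz p, su_tv_mulVec a p e ha,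
      herm_add_left, herm_smul_left, hp, zero_add]
  rw [h, e2] at e1
  have e3 := uvec_eq_zero_of_add e1
  rcases smul_eq_zero.mp e3 with h3 | h3
  · have h4 : Cfsg.hermForm n F q w p ≠ 0 := herm_swap_ne φ hφq hφ2 p w hne
    exact absurd h3 (mul_ne_zero he (mul_ne_zero (mul_ne_zero he' hne) h4))
  · exact hp0 h3

include hφq hφ2 hφ in
theorem utv_not_commCase (p r w : Fin n → F) (hp0 : p ≠ 0) (hr0 : r ≠ 0) (hw0 : w ≠ 0)
    (hp : Cfsg.hermForm n F q p p = 0) (hr : Cfsg.hermForm n F q r r = 0)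
    (hw : Cfsg.hermForm n F q w w = 0)
    (hC : ⁅tvSub p hp, tvSub r hr⁆ = tvSub w hw)
    (h1 : ∀ c ∈ tvSub w hw, ∀ a ∈ tvSub p hp, c * a = a * c)
    (h2 : ∀ c ∈ tvSub w hw, ∀ b ∈ tvSub r hr, c * b = b * c) : False := by
  by_cases hpr : Cfsg.hermForm n F q p r = 0
  · have hbot : ⁅tvSub p hp, tvSub r hr⁆ = ⊥ := by
      rw [Subgroup.commutator_eq_bot_iff_le_centralizer]
      intro a ha
      rw [Subgroup.mem_centralizer_iff]
      intro b hb
      exact (tvSub_comm_of_perp φ hφq hφ2 p r hp hr hpr a ha b hb).symm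
    rw [hbot] at hC
    exact tvSub_ne_bot φ hφq hφ2 hφ w hw0 hw hC.symm
  · obtain ⟨ε, hε0, hε⟩ := exists_skew φ hφ hφ2
    obtain ⟨a, ha⟩ := tv_elt φ hφq hφ2 p ε hp hε
    obtain ⟨b, hb⟩ := tv_elt φ hφq hφ2 r ε hr hε
    obtain ⟨z, hz⟩ := tv_elt φ hφq hφ2 w ε hw hε
    have hwp : Cfsg.hermForm n F q p w = 0 :=
      herm_zero_of_comm φ hφq hφ2 z a w p hp0 hp ε ε hε0 hε0 hz ha (h1 z ⟨ε, hz⟩ a ⟨ε, ha⟩)
    have hwr : Cfsg.hermForm n F q r w = 0 :=
      herm_zero_of_comm φ hφq hφ2 z b w r hr0 hr ε ε hε0 hε0 hz hb (h2 z ⟨ε, hz⟩ b ⟨ε, hb⟩)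
    have hcomm : ⁅a, b⁆ ∈ tvSub w hw := by
      rw [← hC]
      exact Subgroup.commutator_mem_commutator ⟨ε, ha⟩ ⟨ε, hb⟩
    obtain ⟨s, hs⟩ := hcomm
    have h3 : a * b = ⁅a, b⁆ * (b * a) := by
      rw [commutatorElement_def]
      group
    have e5 : suMat (a * b) *ᵥ p = p + (ε * Cfsg.hermForm n F q p r) • r
        + (ε * (ε * Cfsg.hermForm n F q p r * Cfsg.hermForm n F q r p)) • p := by
      rw [suMat_mul, ← Matrix.mulVec_mulVec, su_tv_mulVec b r ε hb p, su_tv_mulVec a p ε ha,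
        herm_add_left, herm_smul_left, hp, zero_add]
    have e6 : suMat (⁅a, b⁆ * (b * a)) *ᵥ p = p + (ε * Cfsg.hermForm n F q p r) • r := by
      rw [suMat_mul, suMat_mul, ← Matrix.mulVec_mulVec, ← Matrix.mulVec_mulVec,
        su_tv_mulVec a p ε ha p, hp, mul_zero, zero_smul, add_zero, su_tv_mulVec b r ε hb p,
        su_tv_mulVec ⁅a, b⁆ w s hs, herm_add_left, herm_smul_left, hwp, hwr, mul_zero, add_zero,
        mul_zero, zero_smul, add_zero]
    rw [h3, e6] at e5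
    have e7 := uvec_eq_zero_of_add e5.symm
    rcases smul_eq_zero.mp e7 with h4 | h4
    · exact absurd h4 (mul_ne_zero hε0 (mul_ne_zero (mul_ne_zero hε0 hpr)
        (herm_swap_ne φ hφq hφ2 p r hpr)))
    · exact hp0 h4

include hφq hφ2 hφ in
theorem utv_exists_mid (p r : Fin n → F) (hp0 : p ≠ 0) (hr0 : r ≠ 0)
    (hp : Cfsg.hermForm n F q p p = 0) (hr : Cfsg.hermForm n F q r r = 0) :
    ∃ s : Fin n → F, s ≠ 0 ∧ Cfsg.hermForm n F q s s = 0 ∧ Cfsg.hermForm n F q p s ≠ 0 ∧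
      Cfsg.hermForm n F q s r ≠ 0 := by
  have hp' : Bh φ n p p = 0 := by
    rw [← herm_bh φ hφq]
    exact hp
  have hr' : Bh φ n r r = 0 := by
    rw [← herm_bh φ hφq]
    exact hr
  obtain ⟨s, hs, h1, h2⟩ := exists_iso_np φ hφ2 hφ p r hp0 hr0 hp' hr'
  rw [← herm_bh φ hφq] at hs h1 h2
  refine ⟨s, ?_, hs, herm_swap_ne φ hφq hφ2 s p h1, h2⟩
  rintro rfl
  apply h2
  simp [Cfsg.hermForm]

end SURootB

section SURootC

variable {F : Type*} [Field F] {n : ℕ} {q : ℕ}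

/-- The covector of the first root group. -/
def ucu (q : ℕ) (ε : F) (p : Fin n → F) : Fin n → F := ε • (fun j => p j ^ q)

/-- The rescaled second vector. -/
def uvv (q : ℕ) (ε : F) (p r : Fin n → F) : Fin n → F :=
  (ε * Cfsg.hermForm n F q r p)⁻¹ • r

/-- The covector of the second root group. -/
def ucv (q : ℕ) (p r : Fin n → F) : Fin n → F :=
  (Cfsg.hermForm n F q p r)⁻¹ • (fun j => r j ^ q)

theorem pbar_dot (p x : Fin n → F) :
    (fun j => p j ^ q) ⬝ᵥ x = Cfsg.hermForm n F q x p := by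
  unfold Cfsg.hermForm dotProduct
  apply Finset.sum_congr rfl
  intro i _
  rw [mul_comm]

theorem ucu_dot (ε : F) (p x : Fin n → F) :
    ucu q ε p ⬝ᵥ x = ε * Cfsg.hermForm n F q x p := by
  rw [ucu, smul_dotProduct, pbar_dot, smul_eq_mul]

theorem ucv_dot (p r x : Fin n → F) :
    ucv q p r ⬝ᵥ x = (Cfsg.hermForm n F q p r)⁻¹ * Cfsg.hermForm n F q x r := by
  rw [ucv, smul_dotProduct, pbar_dot, smul_eq_mul]

theorem ucu_p (ε : F) (p : Fin n → F) (hp : Cfsg.hermForm n F q p p = 0) :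
    ucu q ε p ⬝ᵥ p = 0 := by
  rw [ucu_dot, hp, mul_zero]

theorem ucv_vv (ε : F) (p r : Fin n → F) (hr : Cfsg.hermForm n F q r r = 0) :
    ucv q p r ⬝ᵥ uvv q ε p r = 0 := by
  rw [ucv_dot, uvv, herm_smul_left, hr, mul_zero, mul_zero]

theorem ucu_vv (ε : F) (p r : Fin n → F) (hε0 : ε ≠ 0)
    (hrp : Cfsg.hermForm n F q r p ≠ 0) : ucu q ε p ⬝ᵥ uvv q ε p r = 1 := by
  rw [ucu_dot, uvv, herm_smul_left]
  field_simp

theorem ucv_p (p r : Fin n → F) (hpr : Cfsg.hermForm n F q p r ≠ 0) :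
    ucv q p r ⬝ᵥ p = 1 := by
  rw [ucv_dot, inv_mul_cancel₀ hpr]

theorem one_add_ucu (a ε : F) (p : Fin n → F) :
    (1 : Matrix (Fin n) (Fin n) F) + a • vecMulVec p (ucu q ε p)
      = Cfsg.unitaryTransvection n q p (a * ε) := by
  rw [ucu, Cfsg.unitaryTransvection, Matrix.vecMulVec_smul, smul_smul]

theorem one_add_ucv (a ε : F) (p r : Fin n → F) :
    (1 : Matrix (Fin n) (Fin n) F) + a • vecMulVec (uvv q ε p r) (ucv q p r)
      = Cfsg.unitaryTransvection n q r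
        (a * ((ε * Cfsg.hermForm n F q r p)⁻¹ * (Cfsg.hermForm n F q p r)⁻¹)) := by
  rw [uvv, ucv, Cfsg.unitaryTransvection, Matrix.smul_vecMulVec, Matrix.vecMulVec_smul,
    smul_smul, smul_smul, mul_assoc]

theorem embR_upper {ι : Type*} [Fintype ι] [DecidableEq ι] (u c v d : ι → F)
    (X : Matrix (Fin 2) (Fin 2) F) (h10 : X 1 0 = 0) (h00 : X 0 0 = 1) (h11 : X 1 1 = 1) :
    embR u c v d X = 1 + X 0 1 • vecMulVec u c := by
  rw [embR, embE, embE, h10, h00, h11]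
  simp only [Matrix.one_apply_eq, Matrix.one_apply_ne (show (0 : Fin 2) ≠ 1 by decide),
    Matrix.one_apply_ne (show (1 : Fin 2) ≠ 0 by decide), zero_smul, one_smul, add_zero]
  abel

theorem embR_lower {ι : Type*} [Fintype ι] [DecidableEq ι] (u c v d : ι → F)
    (X : Matrix (Fin 2) (Fin 2) F) (h01 : X 0 1 = 0) (h00 : X 0 0 = 1) (h11 : X 1 1 = 1) :
    embR u c v d X = 1 + X 1 0 • vecMulVec v d := by
  rw [embR, embE, embE, h01, h00, h11]
  simp only [Matrix.one_apply_eq, Matrix.one_apply_ne (show (0 : Fin 2) ≠ 1 by decide),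
    Matrix.one_apply_ne (show (1 : Fin 2) ≠ 0 by decide), zero_smul, one_smul, add_zero]
  abel

theorem map_transv {L : Type*} [Field L] (f : L →+* F) (i j : Fin 2) (a : L) :
    ((1 : Matrix (Fin 2) (Fin 2) L) + Matrix.single i j a).map f
      = 1 + Matrix.single i j (f a) := by
  ext k l
  simp only [Matrix.map_apply, Matrix.add_apply, Matrix.one_apply, Matrix.single_apply, map_add]
  split_ifs <;> simp

theorem fin2_cases (i j : Fin 2) (hij : i ≠ j) : (i = 0 ∧ j = 1) ∨ (i = 1 ∧ j = 0) := by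
  have h01 : ∀ i : Fin 2, i = 0 ∨ i = 1 := by decide
  rcases h01 i with hi | hi <;> rcases h01 j with hj | hj
  · exact absurd (hi.trans hj.symm) hij
  · exact Or.inl ⟨hi, hj⟩
  · exact Or.inr ⟨hi, hj⟩
  · exact absurd (hi.trans hj.symm) hij

variable (φ : F →+* F) (hφq : ∀ a : F, φ a = a ^ q) (hφ2 : ∀ a : F, φ (φ a) = a)
  (hφ : φ ≠ RingHom.id F)

include hφq hφ2 in
theorem kappa_skew (ε : F) (hε : φ ε = -ε) (p r : Fin n → F) :
    φ ((ε * Cfsg.hermForm n F q r p)⁻¹ * (Cfsg.hermForm n F q p r)⁻¹)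
      = -((ε * Cfsg.hermForm n F q r p)⁻¹ * (Cfsg.hermForm n F q p r)⁻¹) := by
  have h1 : φ (Cfsg.hermForm n F q r p) = Cfsg.hermForm n F q p r :=
    (herm_swap φ hφq hφ2 r p).symm
  have h2 : φ (Cfsg.hermForm n F q p r) = Cfsg.hermForm n F q r p :=
    (herm_swap φ hφq hφ2 p r).symm
  rw [map_mul, map_inv₀, map_inv₀, map_mul, hε, h1, h2, neg_mul, inv_neg, neg_mul, mul_inv,
    mul_inv]
  ring

include hφq hφ2 in
theorem uPhi_exists {L : Type*} [Field L] (f : L →+* F) (hf1 : ∀ s : L, φ (f s) = f s)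
    (ε : F) (hε0 : ε ≠ 0) (hε : φ ε = -ε) (p r : Fin n → F)
    (hp : Cfsg.hermForm n F q p p = 0) (hr : Cfsg.hermForm n F q r r = 0)
    (hpr : Cfsg.hermForm n F q p r ≠ 0) (hrp : Cfsg.hermForm n F q r p ≠ 0) :
    ∃ Φ : Matrix.SpecialLinearGroup (Fin 2) L →* ↥(Cfsg.SU n F q),
      ∀ M : Matrix.SpecialLinearGroup (Fin 2) L,
        suMat (Φ M) = embR p (ucu q ε p) (uvv q ε p r) (ucv q p r)
          ((M : Matrix (Fin 2) (Fin 2) L).map f) := by
  have h1 := ucu_p ε p hp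
  have h2 := ucv_vv ε p r hr
  have hα := ucu_vv ε p r hε0 hrp
  have hβ := ucv_p p r hpr
  obtain ⟨Ψ, hΨ⟩ : ∃ Ψ : Matrix.SpecialLinearGroup (Fin 2) L →*
      Matrix.SpecialLinearGroup (Fin n) F, Ψ = (embHom p (ucu q ε p) (uvv q ε p r) (ucv q p r)
        h1 h2 hα hβ).comp (Matrix.SpecialLinearGroup.map f) := ⟨_, rfl⟩
  have hcoe : ∀ M : Matrix.SpecialLinearGroup (Fin 2) L,
      ((Ψ M : Matrix.SpecialLinearGroup (Fin n) F) : Matrix (Fin n) (Fin n) F)
        = embR p (ucu q ε p) (uvv q ε p r) (ucv q p r)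
          ((M : Matrix (Fin 2) (Fin 2) L).map f) := by
    intro M
    rw [hΨ]
    rfl
  have hmem : ∀ M : Matrix.SpecialLinearGroup (Fin 2) L, Ψ M ∈ Cfsg.SU n F q := by
    intro M
    refine sl_transvection_induction
      (fun M : Matrix.SpecialLinearGroup (Fin 2) L => Ψ M ∈ Cfsg.SU n F q) ?_ ?_ M
    · intro i j hij a
      rcases fin2_cases i j hij with ⟨hi, hj⟩ | ⟨hi, hj⟩
      · subst hi hj
        obtain ⟨d, hd⟩ := tv_elt φ hφq hφ2 p (f a * ε) hp (by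
          rw [map_mul, hf1, hε]
          ring)
        have he : Ψ (Matrix.SpecialLinearGroup.transvection hij a)
            = (d : Matrix.SpecialLinearGroup (Fin n) F) := by
          apply sl_ext
          rw [hcoe, Matrix.SpecialLinearGroup.transvection_coe, map_transv, embR_one_add,
            embE_single01, one_add_ucu]
          exact hd.symm
        show Ψ (Matrix.SpecialLinearGroup.transvection hij a) ∈ Cfsg.SU n F q
        rw [he]
        exact d.2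
      · subst hi hj
        obtain ⟨d, hd⟩ := tv_elt φ hφq hφ2 r
          (f a * ((ε * Cfsg.hermForm n F q r p)⁻¹ * (Cfsg.hermForm n F q p r)⁻¹)) hr (by
          rw [map_mul, hf1, kappa_skew φ hφq hφ2 ε hε p r]
          ring)
        have he : Ψ (Matrix.SpecialLinearGroup.transvection hij a)
            = (d : Matrix.SpecialLinearGroup (Fin n) F) := by
          apply sl_ext
          rw [hcoe, Matrix.SpecialLinearGroup.transvection_coe, map_transv, embR_one_add,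
            embE_single10, one_add_ucv]
          exact hd.symm
        show Ψ (Matrix.SpecialLinearGroup.transvection hij a) ∈ Cfsg.SU n F q
        rw [he]
        exact d.2
    · intro A B hA hB
      show Ψ (A * B) ∈ Cfsg.SU n F q
      rw [map_mul]
      exact mul_mem hA hB
  exact ⟨Ψ.codRestrict (Cfsg.SU n F q) hmem, fun M => hcoe M⟩

include hφq hφ2 hφ in
/-- Two transvection groups with non-orthogonal centres generate an image of `SL₂` over any
field mapping onto the fixed field. -/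
theorem utv_psl2 {L : Type*} [Field L] (f : L →+* F) (hf1 : ∀ s : L, φ (f s) = f s)
    (hf2 : ∀ x : F, φ x = x → ∃ s : L, f s = x) (p r : Fin n → F) (hp0 : p ≠ 0) (hr0 : r ≠ 0)
    (hp : Cfsg.hermForm n F q p p = 0) (hr : Cfsg.hermForm n F q r r = 0)
    (hpr : Cfsg.hermForm n F q p r ≠ 0) :
    Cfsg.IsPSL2PairOver L (tvSub p hp) (tvSub r hr) := by
  obtain ⟨ε, hε0, hε⟩ := exists_skew φ hφ hφ2
  have hrp : Cfsg.hermForm n F q r p ≠ 0 := herm_swap_ne φ hφq hφ2 p r hpr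
  obtain ⟨Φ, hΦ⟩ := uPhi_exists φ hφq hφ2 f hf1 ε hε0 hε p r hp hr hpr hrp
  have h1 := ucu_p ε p hp
  have h2 := ucv_vv ε p r hr
  have hα := ucu_vv ε p r hε0 hrp
  have hβ := ucv_p p r hpr
  obtain ⟨κ, hκ⟩ : ∃ κ : F, κ = (ε * Cfsg.hermForm n F q r p)⁻¹
      * (Cfsg.hermForm n F q p r)⁻¹ := ⟨_, rfl⟩
  have hκs : φ κ = -κ := by
    rw [hκ]
    exact kappa_skew φ hφq hφ2 ε hε p r
  have hκ0 : κ ≠ 0 := by
    rw [hκ]
    exact mul_ne_zero (inv_ne_zero (mul_ne_zero hε0 hrp)) (inv_ne_zero hpr)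
  have hup : (Cfsg.upperUnipotentSL2 L).map Φ = tvSub p hp := by
    rw [Cfsg.upperUnipotentSL2, MonoidHom.map_closure]
    have himg : Φ '' {g | (g : Matrix (Fin 2) (Fin 2) L) 1 0 = 0 ∧
        (g : Matrix (Fin 2) (Fin 2) L) 0 0 = 1 ∧ (g : Matrix (Fin 2) (Fin 2) L) 1 1 = 1}
        = (tvSub p hp : Set ↥(Cfsg.SU n F q)) := by
      ext x
      constructor
      · rintro ⟨g, ⟨hg1, hg2, hg3⟩, rfl⟩
        refine ⟨f ((g : Matrix (Fin 2) (Fin 2) L) 0 1) * ε, ?_⟩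
        rw [hΦ, embR_upper _ _ _ _ _ (by rw [Matrix.map_apply, hg1, map_zero])
          (by rw [Matrix.map_apply, hg2, map_one]) (by rw [Matrix.map_apply, hg3, map_one]),
          Matrix.map_apply, one_add_ucu]
      · rintro ⟨c, hc⟩
        have hcs := tv_skew φ hφq hφ2 x p hp0 hp c hc
        obtain ⟨s, hs⟩ := hf2 (c / ε) (by rw [map_div₀, hcs, hε, neg_div_neg_eq])
        refine ⟨Matrix.SpecialLinearGroup.transvection (show (0 : Fin 2) ≠ 1 by decide) s,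
          ⟨?_, ?_, ?_⟩, ?_⟩
        · simp [Matrix.SpecialLinearGroup.transvection_coe]
        · simp [Matrix.SpecialLinearGroup.transvection_coe]
        · simp [Matrix.SpecialLinearGroup.transvection_coe]
        · apply suMat_ext
          rw [hΦ, Matrix.SpecialLinearGroup.transvection_coe, map_transv, embR_one_add,
            embE_single01, one_add_ucu, hc, hs, div_mul_cancel₀ _ hε0]
    rw [himg, Subgroup.closure_eq]
  have hlow : (Cfsg.lowerUnipotentSL2 L).map Φ = tvSub r hr := by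
    rw [Cfsg.lowerUnipotentSL2, MonoidHom.map_closure]
    have himg : Φ '' {g | (g : Matrix (Fin 2) (Fin 2) L) 0 1 = 0 ∧
        (g : Matrix (Fin 2) (Fin 2) L) 0 0 = 1 ∧ (g : Matrix (Fin 2) (Fin 2) L) 1 1 = 1}
        = (tvSub r hr : Set ↥(Cfsg.SU n F q)) := by
      ext x
      constructor
      · rintro ⟨g, ⟨hg1, hg2, hg3⟩, rfl⟩
        refine ⟨f ((g : Matrix (Fin 2) (Fin 2) L) 1 0) * κ, ?_⟩
        rw [hΦ, embR_lower _ _ _ _ _ (by rw [Matrix.map_apply, hg1, map_zero])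
          (by rw [Matrix.map_apply, hg2, map_one]) (by rw [Matrix.map_apply, hg3, map_one]),
          Matrix.map_apply, one_add_ucv, hκ]
      · rintro ⟨c, hc⟩
        have hcs := tv_skew φ hφq hφ2 x r hr0 hr c hc
        obtain ⟨s, hs⟩ := hf2 (c / κ) (by rw [map_div₀, hcs, hκs, neg_div_neg_eq])
        refine ⟨Matrix.SpecialLinearGroup.transvection (show (1 : Fin 2) ≠ 0 by decide) s,
          ⟨?_, ?_, ?_⟩, ?_⟩
        · simp [Matrix.SpecialLinearGroup.transvection_coe]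
        · simp [Matrix.SpecialLinearGroup.transvection_coe]
        · simp [Matrix.SpecialLinearGroup.transvection_coe]
        · apply suMat_ext
          rw [hΦ, Matrix.SpecialLinearGroup.transvection_coe, map_transv, embR_one_add,
            embE_single10, one_add_ucv, hc, hs, ← hκ, div_mul_cancel₀ _ hκ0]
    rw [himg, Subgroup.closure_eq]
  refine ⟨Φ, ?_, ?_, hup, hlow⟩
  · rw [MonoidHom.range_eq_map, ← sl2_gen, Subgroup.map_sup, hup, hlow]
  · intro M hM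
    rw [MonoidHom.mem_ker] at hM
    have h3 : M = 1 := by
      have h4 : embR p (ucu q ε p) (uvv q ε p r) (ucv q p r)
          ((M : Matrix (Fin 2) (Fin 2) L).map f) = 1 := by
        rw [← hΦ, hM, suMat_one]
      have h5 : embE p (ucu q ε p) (uvv q ε p r) (ucv q p r)
          ((M : Matrix (Fin 2) (Fin 2) L).map f)
          = embE p (ucu q ε p) (uvv q ε p r) (ucv q p r) 1 := by
        rw [embR, sub_add_eq_add_sub, sub_eq_iff_eq_add, add_right_inj] at h4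
        exact h4
      have h6 := embE_inj p (ucu q ε p) (uvv q ε p r) (ucv q p r) h1 h2 hα hβ _ _ h5
      apply Subtype.ext
      have h8 : (M : Matrix (Fin 2) (Fin 2) L).map f
          = (1 : Matrix (Fin 2) (Fin 2) L).map f := by
        rw [Matrix.map_one f (map_zero f) (map_one f)]
        exact h6
      exact Matrix.map_injective f.injective h8
    rw [h3]
    exact Subgroup.one_mem _

end SURootC

section SURootD

variable {F : Type*} [Field F] {n : ℕ} {q : ℕ}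
variable (φ : F →+* F) (hφq : ∀ a : F, φ a = a ^ q) (hφ2 : ∀ a : F, φ (φ a) = a)
  (hφ : φ ≠ RingHom.id F)

include hφ2 hφ in
/-- A field with an involutory automorphism is a plane over the fixed elements. -/
theorem card_fix_sq [Finite F] : Nat.card F = Nat.card {x : F // φ x = x} ^ 2 := by
  obtain ⟨θ, hθ⟩ := exists_moved φ hφ
  have hδ : θ - φ θ ≠ 0 := sub_ne_zero.mpr (Ne.symm hθ)
  have hδ' : φ θ - θ ≠ 0 := sub_ne_zero.mpr hθ
  have hb : ∀ x : F, φ ((x - φ x) / (θ - φ θ)) = (x - φ x) / (θ - φ θ) := by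
    intro x
    rw [map_div₀, map_sub, map_sub, hφ2, hφ2, div_eq_div_iff hδ' hδ]
    ring
  have ha : ∀ x : F, φ (x - (x - φ x) / (θ - φ θ) * θ) = x - (x - φ x) / (θ - φ θ) * θ := by
    intro x
    rw [map_sub, map_mul, hb]
    have h1 : (x - φ x) / (θ - φ θ) * (θ - φ θ) = x - φ x := div_mul_cancel₀ _ hδ
    linear_combination h1
  let e : F ≃ {x : F // φ x = x} × {x : F // φ x = x} :=
    { toFun := fun x => (⟨x - (x - φ x) / (θ - φ θ) * θ, ha x⟩, ⟨(x - φ x) / (θ - φ θ), hb x⟩)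
      invFun := fun ab => ab.1.1 + ab.2.1 * θ
      left_inv := fun x => by
        show x - (x - φ x) / (θ - φ θ) * θ + (x - φ x) / (θ - φ θ) * θ = x
        rw [sub_add_cancel]
      right_inv := fun ab => by
        obtain ⟨⟨a, ha'⟩, ⟨b, hb'⟩⟩ := ab
        have h2 : (a + b * θ - φ (a + b * θ)) / (θ - φ θ) = b := by
          rw [map_add, map_mul, ha', hb', div_eq_iff hδ]
          ring
        apply Prod.ext
        · apply Subtype.ext
          show a + b * θ - (a + b * θ - φ (a + b * θ)) / (θ - φ θ) * θ = a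
          rw [h2]
          ring
        · apply Subtype.ext
          exact h2 }
  rw [Nat.card_congr e, Nat.card_prod, sq]

include hφ2 hφ in
theorem card_fix [Fintype F] (hF : Fintype.card F = q ^ 2) :
    Nat.card {x : F // φ x = x} = q := by
  have h1 := card_fix_sq φ hφ2 hφ
  rw [Nat.card_eq_fintype_card, hF] at h1
  exact (Nat.pow_left_injective (two_ne_zero) h1).symm

end SURootD

section SURootE

variable (F : Type*) [Field F] (n : ℕ) (q : ℕ)

/-- The set of unitary transvection subgroups. -/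
def suRootSet : Set (Subgroup ↥(Cfsg.SU n F q)) :=
  {A | ∃ (p : Fin n → F) (hp : Cfsg.hermForm n F q p p = 0), p ≠ 0 ∧ A = tvSub p hp}

variable {F n q}

theorem suRootSet_eq :
    {A : Subgroup ↥(Cfsg.SU n F q) | ∃ p : Fin n → F, p ≠ 0 ∧
        Cfsg.hermForm n F q p p = 0 ∧
        A = Subgroup.closure {g : ↥(Cfsg.SU n F q) |
          (∀ v : Fin n → F, ∃ c : F,
            ((g : Matrix.SpecialLinearGroup (Fin n) F) : Matrix (Fin n) (Fin n) F) *ᵥ v
              = v + c • p) ∧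
          ∀ v : Fin n → F, Cfsg.hermForm n F q v p = 0 →
            ((g : Matrix.SpecialLinearGroup (Fin n) F) : Matrix (Fin n) (Fin n) F) *ᵥ v = v}}
      = suRootSet F n q := by
  ext A
  constructor
  · rintro ⟨p, hp0, hp, rfl⟩
    exact ⟨p, hp, hp0, utvClosure_eq p hp0 hp⟩
  · rintro ⟨p, hp, hp0, rfl⟩
    exact ⟨p, hp0, hp, (utvClosure_eq p hp0 hp).symm⟩

theorem suRoot_main_aux [Finite F] (φ : F →+* F) (hφq : ∀ a : F, φ a = a ^ q)
    (hφ2 : ∀ a : F, φ (φ a) = a) (hφ : φ ≠ RingHom.id F) (hn : 2 ≤ n)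
    (L : Type) [Field L] [Fintype L] (hL : Fintype.card L = q) (f : L →+* F)
    (hf1 : ∀ s : L, φ (f s) = f s) (hf2 : ∀ x : F, φ x = x → ∃ s : L, f s = x) :
    Cfsg.IsRootSubgroupClass ((fun A : Subgroup ↥(Cfsg.SU n F q) =>
      A.subgroupOf (⨆ B ∈ suRootSet F n q, B)) '' suRootSet F n q) ∧
    Cfsg.IsDegenerateRootSet ((fun A : Subgroup ↥(Cfsg.SU n F q) =>
      A.subgroupOf (⨆ B ∈ suRootSet F n q, B)) '' suRootSet F n q) ∧
    (∃ (L : Type) (_ : Field L) (_ : Fintype L), Fintype.card L = q ∧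
      Cfsg.IsKRootSubgroupSet L ((fun A : Subgroup ↥(Cfsg.SU n F q) =>
        A.subgroupOf (⨆ B ∈ suRootSet F n q, B)) '' suRootSet F n q)) ∧
    Cfsg.IsConnectedFamily (Cfsg.FAdj ((fun A : Subgroup ↥(Cfsg.SU n F q) =>
      A.subgroupOf (⨆ B ∈ suRootSet F n q, B)) '' suRootSet F n q))
      ((fun A : Subgroup ↥(Cfsg.SU n F q) =>
        A.subgroupOf (⨆ B ∈ suRootSet F n q, B)) '' suRootSet F n q) := by
  have hmem : ∀ (p : Fin n → F) (hp : Cfsg.hermForm n F q p p = 0), p ≠ 0 →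
      tvSub p hp ∈ suRootSet F n q := fun p hp hp0 => ⟨p, hp, hp0, rfl⟩
  have key := root_transfer (suRootSet F n q) L
    (by
      rintro A ⟨p, hp, hp0, rfl⟩
      exact tvSub_commutative p hp)
    (by
      rintro A ⟨p, hp, hp0, rfl⟩
      exact tvSub_ne_bot φ hφq hφ2 hφ p hp0 hp)
    (by
      obtain ⟨u, hu0, hu⟩ := exists_iso_vec φ hφq hφ2 hφ (F := F) (q := q) hn
      exact ⟨tvSub u hu, hmem u hu hu0⟩)
    (by
      rintro A ⟨p, hp, hp0, rfl⟩ g
      rw [conjBy_tvSub g p hp (su_iso g p hp)]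
      exact hmem _ (su_iso g p hp) (su_mulVec_ne_zero g p hp0))
    (by
      rintro A ⟨p, hp, hp0, rfl⟩ B ⟨r, hr, hr0, rfl⟩
      by_cases hpr : Cfsg.hermForm n F q p r = 0
      · left
        exact tvSub_comm_of_perp φ hφq hφ2 p r hp hr hpr
      · right
        exact ⟨utv_rankOne φ hφq hφ2 hφ p r hp0 hr0 hp hr hpr,
          utv_psl2 φ hφq hφ2 hφ f hf1 hf2 p r hp0 hr0 hp hr hpr⟩)
    (by
      rintro A ⟨p, hp, hp0, rfl⟩ B ⟨r, hr, hr0, rfl⟩ C ⟨w, hw, hw0, rfl⟩ hC h1 h2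
      exact utv_not_commCase φ hφq hφ2 hφ p r w hp0 hr0 hw0 hp hr hw hC h1 h2)
    (by
      rintro A ⟨p, hp, hp0, rfl⟩ B ⟨r, hr, hr0, rfl⟩
      obtain ⟨s, hs0, hs, h1, h2⟩ := utv_exists_mid φ hφq hφ2 hφ p r hp0 hr0 hp hr
      have e1 : Cfsg.FAdj (suRootSet F n q) (tvSub p hp) (tvSub s hs) :=
        ⟨hmem p hp hp0, hmem s hs hs0, utv_rankOne φ hφq hφ2 hφ p s hp0 hs0 hp hs h1⟩
      have e2 : Cfsg.FAdj (suRootSet F n q) (tvSub s hs) (tvSub r hr) :=
        ⟨hmem s hs hs0, hmem r hr hr0, utv_rankOne φ hφq hφ2 hφ s r hs0 hr0 hs hr h2⟩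
      exact Relation.ReflTransGen.trans (Relation.ReflTransGen.single e1)
        (Relation.ReflTransGen.single e2))
  exact ⟨key.1, key.2.1, ⟨L, inferInstance, inferInstance, hL, key.2.2.1⟩, key.2.2.2⟩

theorem suRoot_main [Fintype F] (hF : Fintype.card F = q ^ 2) (hn : 2 ≤ n) :
    Cfsg.IsRootSubgroupClass ((fun A : Subgroup ↥(Cfsg.SU n F q) =>
      A.subgroupOf (⨆ B ∈ suRootSet F n q, B)) '' suRootSet F n q) ∧
    Cfsg.IsDegenerateRootSet ((fun A : Subgroup ↥(Cfsg.SU n F q) =>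
      A.subgroupOf (⨆ B ∈ suRootSet F n q, B)) '' suRootSet F n q) ∧
    (∃ (L : Type) (_ : Field L) (_ : Fintype L), Fintype.card L = q ∧
      Cfsg.IsKRootSubgroupSet L ((fun A : Subgroup ↥(Cfsg.SU n F q) =>
        A.subgroupOf (⨆ B ∈ suRootSet F n q, B)) '' suRootSet F n q)) ∧
    Cfsg.IsConnectedFamily (Cfsg.FAdj ((fun A : Subgroup ↥(Cfsg.SU n F q) =>
      A.subgroupOf (⨆ B ∈ suRootSet F n q, B)) '' suRootSet F n q))
      ((fun A : Subgroup ↥(Cfsg.SU n F q) =>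
        A.subgroupOf (⨆ B ∈ suRootSet F n q, B)) '' suRootSet F n q) := by
  obtain ⟨φ, hφq, hφ2⟩ := Cfsg.Agent.S0779.exists_frob hF
  have hφ := frob_ne_id hF φ hφq
  have hfin : Finite (Shrink.{0} ↥(φ.eqLocusField (RingHom.id F))) :=
    Finite.of_equiv _ (equivShrink.{0} ↥(φ.eqLocusField (RingHom.id F)))
  let _ : Fintype (Shrink.{0} ↥(φ.eqLocusField (RingHom.id F))) := Fintype.ofFinite _
  obtain ⟨e⟩ : Nonempty (Shrink.{0} ↥(φ.eqLocusField (RingHom.id F)) ≃+*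
      ↥(φ.eqLocusField (RingHom.id F))) := ⟨Shrink.ringEquiv.{0} _⟩
  have hcard : Fintype.card (Shrink.{0} ↥(φ.eqLocusField (RingHom.id F))) = q := by
    rw [← Nat.card_eq_fintype_card, Nat.card_congr e.toEquiv, ← card_fix φ hφ2 hφ hF]
    rfl
  refine suRoot_main_aux φ hφq hφ2 hφ hn (Shrink.{0} ↥(φ.eqLocusField (RingHom.id F))) hcard
    ((φ.eqLocusField (RingHom.id F)).subtype.comp e.toRingHom) ?_ ?_
  · intro s
    exact (e s).2
  · intro x hx
    refine ⟨e.symm ⟨x, hx⟩, ?_⟩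
    simp

end SURootE

end Cfsg.Agent.Lib.Helper3
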