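import Mathlib
import Cfsg.Prelude
import Cfsg.Agent.Lib.Helper3.Siegel
import Cfsg.Agent.Lib.Helper3.RootTransfer

/-!
# Siegel transvection subgroups: basic calculus

The subgroups `sgSub Q u v` generated by the long root elements attached to a pair of vectors,
their conjugates, their dependence on the pair, the characterisation of the long root elements of
a totally singular line as the isometries fixing the perp of the line, and the commutator formula.
-/

set_option autoImplicit false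
set_option linter.unusedSectionVars false

namespace Cfsg.Agent.Lib.Helper3

open Cfsg.Agent.Lib.Helper16 Matrix
open scoped commutatorElement

section SgA

variable {ι : Type} [Fintype ι] [DecidableEq ι] {F : Type*} [Field F]
variable (Q : QuadraticForm F (ι → F))

/-- The set of long root elements attached to a pair of vectors. -/
def sgSet (u v : ι → F) : Set ↥(Cfsg.isometryGroup F (⇑Q)) :=
  {g | ∃ c : F, ((g : Matrix.GeneralLinearGroup ι F) : Matrix ι ι F)
    = Cfsg.siegelMatrix (⇑Q) u v c}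

/-- The subgroup generated by the long root elements attached to a pair of vectors. -/
def sgSub (u v : ι → F) : Subgroup ↥(Cfsg.isometryGroup F (⇑Q)) :=
  Subgroup.closure (sgSet Q u v)

theorem siegelG_mul (u v : ι → F) (c d : F) (hu : Q u = 0) (hv : Q v = 0)
    (huv : QuadraticMap.polar (⇑Q) u v = 0) :
    siegelG Q u v c hu hv huv * siegelG Q u v d hu hv huv = siegelG Q u v (c + d) hu hv huv := by
  apply isomG_ext
  rw [isomG_mul_coe, siegelG_coe, siegelG_coe, siegelG_coe, siegel_mul Q u v c d hu hv huv]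

theorem siegelG_zero (u v : ι → F) (hu : Q u = 0) (hv : Q v = 0)
    (huv : QuadraticMap.polar (⇑Q) u v = 0) : siegelG Q u v 0 hu hv huv = 1 := by
  apply isomG_ext
  rw [siegelG_coe, siegel_zero, isomG_one_coe]

theorem siegelG_inv_sg (u v : ι → F) (c : F) (hu : Q u = 0) (hv : Q v = 0)
    (huv : QuadraticMap.polar (⇑Q) u v = 0) :
    (siegelG Q u v c hu hv huv)⁻¹ = siegelG Q u v (-c) hu hv huv := by
  rw [inv_eq_iff_eq_inv]
  symm
  rw [inv_eq_iff_mul_eq_one, siegelG_mul, neg_add_cancel, siegelG_zero]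

theorem siegelG_mulVec (u v : ι → F) (c : F) (hu : Q u = 0) (hv : Q v = 0)
    (huv : QuadraticMap.polar (⇑Q) u v = 0) (x : ι → F) :
    (((siegelG Q u v c hu hv huv : ↥(Cfsg.isometryGroup F (⇑Q))) :
      Matrix.GeneralLinearGroup ι F) : Matrix ι ι F) *ᵥ x
      = x + (c * QuadraticMap.polar (⇑Q) u x) • v - (c * QuadraticMap.polar (⇑Q) v x) • u := by
  rw [siegelG_coe, siegel_mulVec]

/-- The parametrisation of the long root elements of a pair by the additive group. -/
noncomputable def sgHom (u v : ι → F) (hu : Q u = 0) (hv : Q v = 0)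
    (huv : QuadraticMap.polar (⇑Q) u v = 0) :
    Multiplicative F →* ↥(Cfsg.isometryGroup F (⇑Q)) where
  toFun c := siegelG Q u v (Multiplicative.toAdd c) hu hv huv
  map_one' := siegelG_zero Q u v hu hv huv
  map_mul' c d := by
    show siegelG Q u v (Multiplicative.toAdd (c * d)) hu hv huv = _
    rw [toAdd_mul, siegelG_mul]

theorem sgSet_eq_range (u v : ι → F) (hu : Q u = 0) (hv : Q v = 0)
    (huv : QuadraticMap.polar (⇑Q) u v = 0) :
    sgSet Q u v = ((sgHom Q u v hu hv huv).range : Set ↥(Cfsg.isometryGroup F (⇑Q))) := by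
  ext g
  constructor
  · rintro ⟨c, hc⟩
    exact ⟨Multiplicative.ofAdd c, isomG_ext Q hc.symm⟩
  · rintro ⟨c, rfl⟩
    exact ⟨Multiplicative.toAdd c, rfl⟩

theorem sgSub_coe {u v : ι → F} (hu : Q u = 0) (hv : Q v = 0)
    (huv : QuadraticMap.polar (⇑Q) u v = 0) :
    (sgSub Q u v : Set ↥(Cfsg.isometryGroup F (⇑Q))) = sgSet Q u v := by
  rw [sgSub, sgSet_eq_range Q u v hu hv huv, Subgroup.closure_eq]

theorem mem_sgSub {u v : ι → F} (hu : Q u = 0) (hv : Q v = 0)
    (huv : QuadraticMap.polar (⇑Q) u v = 0) (g : ↥(Cfsg.isometryGroup F (⇑Q))) :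
    g ∈ sgSub Q u v ↔ ∃ c : F, g = siegelG Q u v c hu hv huv := by
  rw [← SetLike.mem_coe, sgSub_coe Q hu hv huv]
  constructor
  · rintro ⟨c, hc⟩
    exact ⟨c, isomG_ext Q hc⟩
  · rintro ⟨c, rfl⟩
    exact ⟨c, rfl⟩

theorem siegelG_mem_sgSub (u v : ι → F) (c : F) (hu : Q u = 0) (hv : Q v = 0)
    (huv : QuadraticMap.polar (⇑Q) u v = 0) : siegelG Q u v c hu hv huv ∈ sgSub Q u v :=
  (mem_sgSub Q hu hv huv _).2 ⟨c, rfl⟩

theorem sgSub_comm {u v : ι → F} (hu : Q u = 0) (hv : Q v = 0)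
    (huv : QuadraticMap.polar (⇑Q) u v = 0) :
    ∀ a ∈ sgSub Q u v, ∀ b ∈ sgSub Q u v, a * b = b * a := by
  intro a ha b hb
  obtain ⟨c, rfl⟩ := (mem_sgSub Q hu hv huv a).1 ha
  obtain ⟨d, rfl⟩ := (mem_sgSub Q hu hv huv b).1 hb
  rw [siegelG_mul, siegelG_mul, add_comm]

theorem sgSub_commutative {u v : ι → F} (hu : Q u = 0) (hv : Q v = 0)
    (huv : QuadraticMap.polar (⇑Q) u v = 0) : IsMulCommutative (sgSub Q u v) :=
  ⟨⟨fun a b => Subtype.ext (sgSub_comm Q hu hv huv a a.2 b b.2)⟩⟩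

theorem sgSub_nilpotent {u v : ι → F} (hu : Q u = 0) (hv : Q v = 0)
    (huv : QuadraticMap.polar (⇑Q) u v = 0) : Group.IsNilpotent (sgSub Q u v) :=
  ⟨⟨1, Subgroup.upperCentralSeries_one_eq_top_iff.mpr (sgSub_commutative Q hu hv huv)⟩⟩

/-- Conjugating the long root elements of a pair. -/
theorem conj_sgSet (g : ↥(Cfsg.isometryGroup F (⇑Q))) (u v : ι → F) :
    (fun x => g * x * g⁻¹) '' sgSet Q u v
      = sgSet Q (((g : Matrix.GeneralLinearGroup ι F) : Matrix ι ι F) *ᵥ u)
          (((g : Matrix.GeneralLinearGroup ι F) : Matrix ι ι F) *ᵥ v) := by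
  ext y
  constructor
  · rintro ⟨x, ⟨c, hc⟩, rfl⟩
    refine ⟨c, ?_⟩
    rw [isomG_mul_coe, isomG_mul_coe, hc, siegel_conj]
  · rintro ⟨c, hc⟩
    refine ⟨g⁻¹ * y * g, ⟨c, ?_⟩, by group⟩
    have h := siegel_conj Q g⁻¹ (((g : Matrix.GeneralLinearGroup ι F) : Matrix ι ι F) *ᵥ u)
      (((g : Matrix.GeneralLinearGroup ι F) : Matrix ι ι F) *ᵥ v) c
    rw [inv_inv, isomG_inv_mulVec', isomG_inv_mulVec'] at h
    rw [isomG_mul_coe, isomG_mul_coe, hc, h]

theorem conjBy_sgSub (g : ↥(Cfsg.isometryGroup F (⇑Q))) (u v : ι → F) :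
    Cfsg.conjBy (sgSub Q u v) g
      = sgSub Q (((g : Matrix.GeneralLinearGroup ι F) : Matrix ι ι F) *ᵥ u)
          (((g : Matrix.GeneralLinearGroup ι F) : Matrix ι ι F) *ᵥ v) := by
  rw [Cfsg.conjBy, sgSub, MonoidHom.map_closure, sgSub, ← conj_sgSet]
  rfl

/-- Change of basis of the pair. -/
theorem siegel_basis (u v : ι → F) (α β γ δ c : F) :
    Cfsg.siegelMatrix (⇑Q) (α • u + β • v) (γ • u + δ • v) c
      = Cfsg.siegelMatrix (⇑Q) u v ((α * δ - β * γ) * c) := by
  apply Matrix.mulVec_injective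
  funext x
  rw [siegel_mulVec, siegel_mulVec]
  simp only [QuadraticMap.polar_add_left, QuadraticMap.polar_smul_left, smul_eq_mul]
  funext i
  simp only [Pi.add_apply, Pi.sub_apply, Pi.smul_apply, smul_eq_mul]
  ring

theorem sgSet_basis (u v : ι → F) (α β γ δ : F) (hdet : α * δ - β * γ ≠ 0) :
    sgSet Q (α • u + β • v) (γ • u + δ • v) = sgSet Q u v := by
  ext g
  constructor
  · rintro ⟨c, hc⟩
    exact ⟨(α * δ - β * γ) * c, by rw [hc, siegel_basis]⟩
  · rintro ⟨c, hc⟩
    refine ⟨c / (α * δ - β * γ), ?_⟩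
    rw [hc, siegel_basis]
    congr 1
    field_simp

theorem sgSub_basis (u v : ι → F) (α β γ δ : F) (hdet : α * δ - β * γ ≠ 0) :
    sgSub Q (α • u + β • v) (γ • u + δ • v) = sgSub Q u v := by
  rw [sgSub, sgSub, sgSet_basis Q u v α β γ δ hdet]

theorem sgSub_swap (u v : ι → F) : sgSub Q v u = sgSub Q u v := by
  have h := sgSub_basis Q u v 0 1 1 0 (by norm_num)
  rw [zero_smul, one_smul, zero_add, one_smul, zero_smul, add_zero] at h
  exact h

theorem siegel_dep (u : ι → F) (l e : F) : Cfsg.siegelMatrix (⇑Q) u (l • u) e = 1 := by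
  apply Matrix.mulVec_injective
  funext x
  rw [siegel_mulVec, Matrix.one_mulVec, QuadraticMap.polar_smul_left]
  funext i
  simp only [Pi.add_apply, Pi.sub_apply, Pi.smul_apply, smul_eq_mul]
  ring

theorem Q_comb {p r : ι → F} (hp : Q p = 0) (hr : Q r = 0)
    (hpr : QuadraticMap.polar (⇑Q) p r = 0) (s t : F) : Q (s • p + t • r) = 0 := by
  rw [QuadraticMap.map_add (⇑Q), QuadraticMap.map_smul, QuadraticMap.map_smul, hp, hr,
    QuadraticMap.polar_smul_left, QuadraticMap.polar_smul_right, hpr]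
  simp

/-! ### Dual vectors and the fixed perp -/

variable (hnd : ∀ x : ι → F, (∀ y, QuadraticMap.polar (⇑Q) x y = 0) → x = 0)

include hnd in
theorem exists_dual_two (p r : ι → F) (hli : LinearIndependent F ![p, r]) :
    ∃ a : ι → F, QuadraticMap.polar (⇑Q) p a = 1 ∧ QuadraticMap.polar (⇑Q) r a = 0 := by
  have hpair := LinearIndependent.pair_iff.1 hli
  have hr0 : r ≠ 0 := by
    rintro rfl
    have := hpair 0 1 (by simp)
    exact one_ne_zero this.2
  obtain ⟨y₀, hy₀⟩ : ∃ y, QuadraticMap.polar (⇑Q) r y ≠ 0 := by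
    by_contra hcon
    push Not at hcon
    exact hr0 (hnd r hcon)
  obtain ⟨v₀, hv₀⟩ : ∃ v₀, QuadraticMap.polar (⇑Q) r v₀ = 1 :=
    ⟨(QuadraticMap.polar (⇑Q) r y₀)⁻¹ • y₀, by
      rw [QuadraticMap.polar_smul_right, smul_eq_mul, inv_mul_cancel₀ hy₀]⟩
  obtain ⟨a₀, ha1, ha2⟩ : ∃ a₀, QuadraticMap.polar (⇑Q) r a₀ = 0
      ∧ QuadraticMap.polar (⇑Q) p a₀ ≠ 0 := by
    by_contra hcon
    push Not at hcon
    have h1 : p - QuadraticMap.polar (⇑Q) p v₀ • r = 0 := by
      apply hnd
      intro y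
      have h2 := hcon (y - QuadraticMap.polar (⇑Q) r y • v₀) (by
        rw [QuadraticMap.polar_sub_right, QuadraticMap.polar_smul_right, hv₀, smul_eq_mul,
          mul_one, sub_self])
      rw [QuadraticMap.polar_sub_right, QuadraticMap.polar_smul_right, smul_eq_mul] at h2
      rw [QuadraticMap.polar_sub_left, QuadraticMap.polar_smul_left, smul_eq_mul]
      linear_combination h2
    have h3 := hpair 1 (-(QuadraticMap.polar (⇑Q) p v₀)) (by
      rw [one_smul, neg_smul, ← sub_eq_add_neg]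
      exact h1)
    exact one_ne_zero h3.1
  exact ⟨(QuadraticMap.polar (⇑Q) p a₀)⁻¹ • a₀, by
      rw [QuadraticMap.polar_smul_right, smul_eq_mul, inv_mul_cancel₀ ha2], by
      rw [QuadraticMap.polar_smul_right, ha1, smul_zero]⟩

theorem perp_decomp (p r a b : ι → F) (hpa : QuadraticMap.polar (⇑Q) p a = 1)
    (hra : QuadraticMap.polar (⇑Q) r a = 0) (hpb : QuadraticMap.polar (⇑Q) p b = 0)
    (hrb : QuadraticMap.polar (⇑Q) r b = 1) (x : ι → F) :
    QuadraticMap.polar (⇑Q) p
        (x - QuadraticMap.polar (⇑Q) p x • a - QuadraticMap.polar (⇑Q) r x • b) = 0 ∧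
      QuadraticMap.polar (⇑Q) r
        (x - QuadraticMap.polar (⇑Q) p x • a - QuadraticMap.polar (⇑Q) r x • b) = 0 := by
  constructor
  · rw [QuadraticMap.polar_sub_right, QuadraticMap.polar_sub_right,
      QuadraticMap.polar_smul_right, QuadraticMap.polar_smul_right, hpa, hpb]
    simp
  · rw [QuadraticMap.polar_sub_right, QuadraticMap.polar_sub_right,
      QuadraticMap.polar_smul_right, QuadraticMap.polar_smul_right, hra, hrb]
    simp

include hnd in
theorem perp_perp (p r a b : ι → F) (hpa : QuadraticMap.polar (⇑Q) p a = 1)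
    (hra : QuadraticMap.polar (⇑Q) r a = 0) (hpb : QuadraticMap.polar (⇑Q) p b = 0)
    (hrb : QuadraticMap.polar (⇑Q) r b = 1) (d : ι → F)
    (hd : ∀ y, QuadraticMap.polar (⇑Q) p y = 0 → QuadraticMap.polar (⇑Q) r y = 0 →
      QuadraticMap.polar (⇑Q) d y = 0) :
    d = QuadraticMap.polar (⇑Q) d a • p + QuadraticMap.polar (⇑Q) d b • r := by
  have h0 : d - QuadraticMap.polar (⇑Q) d a • p - QuadraticMap.polar (⇑Q) d b • r = 0 := by
    apply hnd
    intro y
    obtain ⟨h1, h2⟩ := perp_decomp Q p r a b hpa hra hpb hrb y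
    have h3 := hd _ h1 h2
    rw [QuadraticMap.polar_sub_right, QuadraticMap.polar_sub_right,
      QuadraticMap.polar_smul_right, QuadraticMap.polar_smul_right, smul_eq_mul,
      smul_eq_mul] at h3
    rw [QuadraticMap.polar_sub_left, QuadraticMap.polar_sub_left, QuadraticMap.polar_smul_left,
      QuadraticMap.polar_smul_left, smul_eq_mul, smul_eq_mul]
    linear_combination h3
  rw [sub_sub, sub_eq_zero] at h0
  exact h0

include hnd in
/-- The isometries fixing the perp of a totally singular line are its long root elements. -/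
theorem fix_iff_mem_sgSet (p r : ι → F) (hli : LinearIndependent F ![p, r]) (hp : Q p = 0)
    (hr : Q r = 0) (hpr : QuadraticMap.polar (⇑Q) p r = 0)
    (σ : ↥(Cfsg.isometryGroup F (⇑Q))) :
    (∀ v : ι → F, QuadraticMap.polar (⇑Q) v p = 0 → QuadraticMap.polar (⇑Q) v r = 0 →
      ((σ : Matrix.GeneralLinearGroup ι F) : Matrix ι ι F) *ᵥ v = v) ↔ σ ∈ sgSet Q p r := by
  constructor
  · intro hfix
    obtain ⟨a, hpa, hra⟩ := exists_dual_two Q hnd p r hli
    obtain ⟨b, hrb, hpb⟩ := exists_dual_two Q hnd r p (LinearIndependent.pair_symm_iff.1 hli)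
    obtain ⟨M, hM⟩ : ∃ M : Matrix ι ι F,
        M = ((σ : Matrix.GeneralLinearGroup ι F) : Matrix ι ι F) := ⟨_, rfl⟩
    have hfix' : ∀ y, QuadraticMap.polar (⇑Q) p y = 0 → QuadraticMap.polar (⇑Q) r y = 0 →
        M *ᵥ y = y := by
      intro y h1 h2
      rw [hM]
      exact hfix y (by rw [QuadraticMap.polar_comm]; exact h1)
        (by rw [QuadraticMap.polar_comm]; exact h2)
    have hdec : ∀ x, M *ᵥ x = x + QuadraticMap.polar (⇑Q) p x • (M *ᵥ a - a)
        + QuadraticMap.polar (⇑Q) r x • (M *ᵥ b - b) := by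
      intro x
      obtain ⟨h1, h2⟩ := perp_decomp Q p r a b hpa hra hpb hrb x
      have h3 := hfix' _ h1 h2
      rw [Matrix.mulVec_sub, Matrix.mulVec_sub, Matrix.mulVec_smul, Matrix.mulVec_smul] at h3
      have h4 : M *ᵥ x = x - QuadraticMap.polar (⇑Q) p x • a - QuadraticMap.polar (⇑Q) r x • b
          + QuadraticMap.polar (⇑Q) p x • (M *ᵥ a) + QuadraticMap.polar (⇑Q) r x • (M *ᵥ b) := by
        rw [← h3]
        abel
      rw [h4, smul_sub, smul_sub]
      abel
    have hpolM : ∀ x y, QuadraticMap.polar (⇑Q) (M *ᵥ x) (M *ᵥ y)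
        = QuadraticMap.polar (⇑Q) x y := by
      intro x y
      rw [hM]
      exact isomG_polar Q σ x y
    have hQM : ∀ x, Q (M *ᵥ x) = Q x := by
      intro x
      rw [hM]
      exact isomG_map Q σ x
    have hda : ∀ y, QuadraticMap.polar (⇑Q) p y = 0 → QuadraticMap.polar (⇑Q) r y = 0 →
        QuadraticMap.polar (⇑Q) (M *ᵥ a - a) y = 0 := by
      intro y h1 h2
      have h3 := hpolM a y
      rw [hfix' y h1 h2] at h3
      rw [QuadraticMap.polar_sub_left, h3, sub_self]
    have hdb : ∀ y, QuadraticMap.polar (⇑Q) p y = 0 → QuadraticMap.polar (⇑Q) r y = 0 →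
        QuadraticMap.polar (⇑Q) (M *ᵥ b - b) y = 0 := by
      intro y h1 h2
      have h3 := hpolM b y
      rw [hfix' y h1 h2] at h3
      rw [QuadraticMap.polar_sub_left, h3, sub_self]
    have ea := perp_perp Q hnd p r a b hpa hra hpb hrb _ hda
    have eb := perp_perp Q hnd p r a b hpa hra hpb hrb _ hdb
    obtain ⟨αa, hαa⟩ : ∃ αa : F, αa = QuadraticMap.polar (⇑Q) (M *ᵥ a - a) a := ⟨_, rfl⟩
    obtain ⟨βa, hβa⟩ : ∃ βa : F, βa = QuadraticMap.polar (⇑Q) (M *ᵥ a - a) b := ⟨_, rfl⟩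
    obtain ⟨αb, hαb⟩ : ∃ αb : F, αb = QuadraticMap.polar (⇑Q) (M *ᵥ b - b) a := ⟨_, rfl⟩
    obtain ⟨βb, hβb⟩ : ∃ βb : F, βb = QuadraticMap.polar (⇑Q) (M *ᵥ b - b) b := ⟨_, rfl⟩
    rw [← hαa, ← hβa] at ea
    rw [← hαb, ← hβb] at eb
    have hMa : M *ᵥ a = a + (αa • p + βa • r) := by rw [← ea]; abel
    have hMb : M *ᵥ b = b + (αb • p + βb • r) := by rw [← eb]; abel
    have hap : QuadraticMap.polar (⇑Q) a p = 1 := by rw [QuadraticMap.polar_comm]; exact hpa
    have har : QuadraticMap.polar (⇑Q) a r = 0 := by rw [QuadraticMap.polar_comm]; exact hra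
    have hbp : QuadraticMap.polar (⇑Q) b p = 0 := by rw [QuadraticMap.polar_comm]; exact hpb
    have hbr : QuadraticMap.polar (⇑Q) b r = 1 := by rw [QuadraticMap.polar_comm]; exact hrb
    have hrp : QuadraticMap.polar (⇑Q) r p = 0 := by rw [QuadraticMap.polar_comm]; exact hpr
    have hpp := polar_self_zero Q hp
    have hrr := polar_self_zero Q hr
    have h5 : αa = 0 := by
      have h := hQM a
      rw [hMa, QuadraticMap.map_add (⇑Q), Q_comb Q hp hr hpr, QuadraticMap.polar_add_right,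
        QuadraticMap.polar_smul_right, QuadraticMap.polar_smul_right, hap, har] at h
      simp only [smul_eq_mul] at h
      linear_combination h
    have h6 : βb = 0 := by
      have h := hQM b
      rw [hMb, QuadraticMap.map_add (⇑Q), Q_comb Q hp hr hpr, QuadraticMap.polar_add_right,
        QuadraticMap.polar_smul_right, QuadraticMap.polar_smul_right, hbp, hbr] at h
      simp only [smul_eq_mul] at h
      linear_combination h
    have h7 : αb = -βa := by
      have h := hpolM a b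
      rw [hMa, hMb] at h
      simp only [QuadraticMap.polar_add_left, QuadraticMap.polar_add_right,
        QuadraticMap.polar_smul_left, QuadraticMap.polar_smul_right, smul_eq_mul, hap, har,
        hpb, hrb, hpp, hpr, hrp, hrr] at h
      linear_combination h
    refine ⟨βa, ?_⟩
    rw [← hM]
    apply Matrix.mulVec_injective
    funext x
    rw [hdec x, siegel_mulVec, ea, eb, h5, h6, h7]
    funext i
    simp only [Pi.add_apply, Pi.sub_apply, Pi.smul_apply, smul_eq_mul]
    ring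
  · rintro ⟨c, hc⟩ v h1 h2
    rw [hc, siegel_mulVec, QuadraticMap.polar_comm (⇑Q) p v, QuadraticMap.polar_comm (⇑Q) r v,
      h1, h2]
    simp

include hnd in
theorem fixSet_eq (p r : ι → F) (hli : LinearIndependent F ![p, r]) (hp : Q p = 0)
    (hr : Q r = 0) (hpr : QuadraticMap.polar (⇑Q) p r = 0) :
    {σ : ↥(Cfsg.isometryGroup F (⇑Q)) | ∀ v : ι → F, QuadraticMap.polar (⇑Q) v p = 0 →
      QuadraticMap.polar (⇑Q) v r = 0 →
      ((σ : Matrix.GeneralLinearGroup ι F) : Matrix ι ι F) *ᵥ v = v} = sgSet Q p r :=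
  Set.ext fun σ => fix_iff_mem_sgSet Q hnd p r hli hp hr hpr σ

/-! ### Commuting pairs and the commutator formula -/

theorem sg_comm_of_perp {u v u' v' : ι → F} (hu : Q u = 0) (hv : Q v = 0)
    (huv : QuadraticMap.polar (⇑Q) u v = 0) (hu' : Q u' = 0) (hv' : Q v' = 0)
    (huv' : QuadraticMap.polar (⇑Q) u' v' = 0)
    (h1 : QuadraticMap.polar (⇑Q) u u' = 0) (h2 : QuadraticMap.polar (⇑Q) u v' = 0)
    (h3 : QuadraticMap.polar (⇑Q) v u' = 0) (h4 : QuadraticMap.polar (⇑Q) v v' = 0) :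
    ∀ a ∈ sgSub Q u v, ∀ b ∈ sgSub Q u' v', a * b = b * a := by
  intro a ha b hb
  obtain ⟨c, rfl⟩ := (mem_sgSub Q hu hv huv a).1 ha
  obtain ⟨d, rfl⟩ := (mem_sgSub Q hu' hv' huv' b).1 hb
  have key : siegelG Q u v c hu hv huv * siegelG Q u' v' d hu' hv' huv'
      * (siegelG Q u v c hu hv huv)⁻¹ = siegelG Q u' v' d hu' hv' huv' := by
    apply isomG_ext
    rw [isomG_mul_coe, isomG_mul_coe, siegelG_coe Q u' v' d, siegel_conj, siegelG_mulVec,
      siegelG_mulVec, h1, h2, h3, h4]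
    simp
  rw [mul_inv_eq_iff_eq_mul] at key
  exact key

/-- The commutator formula for two lines with exactly one common perpendicular direction each. -/
theorem sg_conj_formula {u w u' w' : ι → F} (hu : Q u = 0) (hw : Q w = 0)
    (huw : QuadraticMap.polar (⇑Q) u w = 0) (hu' : Q u' = 0) (hw' : Q w' = 0)
    (hu'w' : QuadraticMap.polar (⇑Q) u' w' = 0)
    (h1 : QuadraticMap.polar (⇑Q) u u' = 0) (h2 : QuadraticMap.polar (⇑Q) u w' = 0)
    (h3 : QuadraticMap.polar (⇑Q) w u' = 0) (c d : F) :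
    siegelG Q u w c hu hw huw * siegelG Q u' w' d hu' hw' hu'w'
        * (siegelG Q u w c hu hw huw)⁻¹
      = siegelG Q u u' (c * d * QuadraticMap.polar (⇑Q) w w') hu hu' h1
        * siegelG Q u' w' d hu' hw' hu'w' := by
  have hu'u' := polar_self_zero Q hu'
  have hu'u : QuadraticMap.polar (⇑Q) u' u = 0 := by rw [QuadraticMap.polar_comm]; exact h1
  apply isomG_ext
  apply Matrix.mulVec_injective
  funext x
  rw [isomG_mul_coe, isomG_mul_coe, isomG_mul_coe, siegelG_coe Q u' w' d, siegel_conj,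
    siegelG_mulVec, siegelG_mulVec, h1, h2, h3,
    ← Matrix.mulVec_mulVec, siegel_mulVec, siegel_mulVec, siegelG_mulVec]
  simp only [QuadraticMap.polar_add_right, QuadraticMap.polar_sub_right,
    QuadraticMap.polar_add_left, QuadraticMap.polar_sub_left,
    QuadraticMap.polar_smul_right, QuadraticMap.polar_smul_left, smul_eq_mul, h1, h2, hu'w',
    hu'u', hu'u, mul_zero, zero_smul, add_zero, sub_zero, zero_mul]
  funext i
  simp only [Pi.add_apply, Pi.sub_apply, Pi.smul_apply, smul_eq_mul]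
  ring

theorem sg_commutator_formula {u w u' w' : ι → F} (hu : Q u = 0) (hw : Q w = 0)
    (huw : QuadraticMap.polar (⇑Q) u w = 0) (hu' : Q u' = 0) (hw' : Q w' = 0)
    (hu'w' : QuadraticMap.polar (⇑Q) u' w' = 0)
    (h1 : QuadraticMap.polar (⇑Q) u u' = 0) (h2 : QuadraticMap.polar (⇑Q) u w' = 0)
    (h3 : QuadraticMap.polar (⇑Q) w u' = 0) (c d : F) :
    siegelG Q u w c hu hw huw * siegelG Q u' w' d hu' hw' hu'w'
        * (siegelG Q u w c hu hw huw)⁻¹ * (siegelG Q u' w' d hu' hw' hu'w')⁻¹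
      = siegelG Q u u' (c * d * QuadraticMap.polar (⇑Q) w w') hu hu' h1 := by
  rw [sg_conj_formula Q hu hw huw hu' hw' hu'w' h1 h2 h3, mul_inv_cancel_right]

end SgA

end Cfsg.Agent.Lib.Helper3
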