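import Mathlib
import Cfsg.Prelude
import Cfsg.Agent.Lib.Helper3.SgA
import Cfsg.Agent.Lib.Helper3.SURoot

/-!
# Siegel transvection subgroups of two opposite lines

For two totally singular lines with dual bases, the two Siegel transvection subgroups form a rank
one pair and generate an image of `SL₂`.
-/

set_option autoImplicit false
set_option linter.unusedSectionVars false
set_option linter.unusedSimpArgs false

namespace Cfsg.Agent.Lib.Helper3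

open Cfsg.Agent.Lib.Helper16 Matrix
open scoped commutatorElement

section Cross

variable {κ : Type*} [Fintype κ] [DecidableEq κ] {F : Type*} [Field F]

theorem embE_cross (u φ v ψ u' φ' v' ψ' : κ → F)
    (h1 : φ ⬝ᵥ u' = 0) (h2 : φ ⬝ᵥ v' = 0) (h3 : ψ ⬝ᵥ u' = 0) (h4 : ψ ⬝ᵥ v' = 0)
    (X Y : Matrix (Fin 2) (Fin 2) F) : embE u φ v ψ X * embE u' φ' v' ψ' Y = 0 := by
  simp only [embE, add_mul, mul_add, smul_mul_assoc, mul_smul_comm, vecMulVec_mul_vecMulVec,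
    h1, h2, h3, h4, zero_smul, vecMulVec_zero, smul_zero, add_zero]

theorem embR_cross_comm (u φ v ψ u' φ' v' ψ' : κ → F)
    (h1 : φ ⬝ᵥ u' = 0) (h2 : φ ⬝ᵥ v' = 0) (h3 : ψ ⬝ᵥ u' = 0) (h4 : ψ ⬝ᵥ v' = 0)
    (h1' : φ' ⬝ᵥ u = 0) (h2' : φ' ⬝ᵥ v = 0) (h3' : ψ' ⬝ᵥ u = 0) (h4' : ψ' ⬝ᵥ v = 0)
    (X Y : Matrix (Fin 2) (Fin 2) F) :
    embR u φ v ψ X * embR u' φ' v' ψ' Y = embR u' φ' v' ψ' Y * embR u φ v ψ X := by
  have c1 := embE_cross u φ v ψ u' φ' v' ψ' h1 h2 h3 h4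
  have c2 := embE_cross u' φ' v' ψ' u φ v ψ h1' h2' h3' h4'
  simp only [embR, add_mul, sub_mul, mul_add, mul_sub, one_mul, mul_one, c1, c2]
  abel

/-- Conjugation by `diag(1, -1)`. -/
def dcj (X : Matrix (Fin 2) (Fin 2) F) : Matrix (Fin 2) (Fin 2) F :=
  !![X 0 0, -X 0 1; -X 1 0, X 1 1]

theorem dcj_mul (X Y : Matrix (Fin 2) (Fin 2) F) : dcj (X * Y) = dcj X * dcj Y := by
  ext i j
  fin_cases i <;> fin_cases j <;> simp [dcj, Matrix.mul_apply, Fin.sum_univ_two] <;> ring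

theorem dcj_one : dcj (1 : Matrix (Fin 2) (Fin 2) F) = 1 := by
  ext i j
  fin_cases i <;> fin_cases j <;> simp [dcj]

end Cross

section SgB

variable {ι : Type} [Fintype ι] [DecidableEq ι] {F : Type*} [Field F]
variable (Q : QuadraticForm F (ι → F))
variable (e₁ e₂ f₁ f₂ : ι → F)
variable (he₁ : Q e₁ = 0) (he₂ : Q e₂ = 0) (he : QuadraticMap.polar (⇑Q) e₁ e₂ = 0)
  (hf₁ : Q f₁ = 0) (hf₂ : Q f₂ = 0) (hf : QuadraticMap.polar (⇑Q) f₁ f₂ = 0)
  (h11 : QuadraticMap.polar (⇑Q) e₁ f₁ = 1) (h12 : QuadraticMap.polar (⇑Q) e₁ f₂ = 0)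
  (h21 : QuadraticMap.polar (⇑Q) e₂ f₁ = 0) (h22 : QuadraticMap.polar (⇑Q) e₂ f₂ = 1)

include h11 h21 h22 in
theorem sg_frame_ne_one (t : F) (ht : t ≠ 0) : siegelG Q e₁ e₂ t he₁ he₂ he ≠ 1 := by
  intro h
  have h1 : (((siegelG Q e₁ e₂ t he₁ he₂ he : ↥(Cfsg.isometryGroup F (⇑Q))) :
      Matrix.GeneralLinearGroup ι F) : Matrix ι ι F) *ᵥ f₁
      = (((1 : ↥(Cfsg.isometryGroup F (⇑Q))) : Matrix.GeneralLinearGroup ι F) :
        Matrix ι ι F) *ᵥ f₁ := by rw [h]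
  rw [siegelG_mulVec, h11, h21, isomG_one_coe, Matrix.one_mulVec, mul_one, mul_zero, zero_smul,
    sub_zero] at h1
  have h2 : t • e₂ = 0 := by
    have h5 : f₁ + t • e₂ = f₁ + 0 := by rw [add_zero]; exact h1
    exact add_left_cancel h5
  have h3 : e₂ = 0 := by
    rcases smul_eq_zero.1 h2 with h | h
    · exact absurd h ht
    · exact h
  rw [h3, QuadraticMap.polar_zero_left] at h22
  exact zero_ne_one h22

include he₁ he₂ he hf₁ hf₂ hf h11 h12 h21 h22 in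
theorem sg_rankOneCond : Cfsg.RankOneCondition (sgSub Q e₁ e₂) (sgSub Q f₁ f₂) := by
  intro a ha ha1
  obtain ⟨t, rfl⟩ := (mem_sgSub Q he₁ he₂ he a).1 ha
  have ht : t ≠ 0 := by
    rintro rfl
    exact ha1 (siegelG_zero Q e₁ e₂ he₁ he₂ he)
  have hf11 : QuadraticMap.polar (⇑Q) f₁ e₁ = 1 := by rw [QuadraticMap.polar_comm]; exact h11
  have hf12 : QuadraticMap.polar (⇑Q) f₁ e₂ = 0 := by rw [QuadraticMap.polar_comm]; exact h21
  have hf21 : QuadraticMap.polar (⇑Q) f₂ e₁ = 0 := by rw [QuadraticMap.polar_comm]; exact h12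
  have hf22 : QuadraticMap.polar (⇑Q) f₂ e₂ = 1 := by rw [QuadraticMap.polar_comm]; exact h22
  refine ⟨siegelG Q f₁ f₂ (-t⁻¹) hf₁ hf₂ hf, siegelG_mem_sgSub Q f₁ f₂ _ hf₁ hf₂ hf,
    sg_frame_ne_one Q f₁ f₂ e₁ e₂ hf₁ hf₂ hf hf11 hf21 hf22 (-t⁻¹)
      (neg_ne_zero.2 (inv_ne_zero ht)), ?_⟩
  have ha1' : ((((siegelG Q e₁ e₂ t he₁ he₂ he)⁻¹ : ↥(Cfsg.isometryGroup F (⇑Q))) :
      Matrix.GeneralLinearGroup ι F) : Matrix ι ι F) *ᵥ f₁ = f₁ - t • e₂ := by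
    rw [siegelG_inv_sg, siegelG_mulVec, h11, h21]
    funext i
    simp only [Pi.add_apply, Pi.sub_apply, Pi.smul_apply, smul_eq_mul]
    ring
  have ha2' : ((((siegelG Q e₁ e₂ t he₁ he₂ he)⁻¹ : ↥(Cfsg.isometryGroup F (⇑Q))) :
      Matrix.GeneralLinearGroup ι F) : Matrix ι ι F) *ᵥ f₂ = f₂ + t • e₁ := by
    rw [siegelG_inv_sg, siegelG_mulVec, h12, h22]
    funext i
    simp only [Pi.add_apply, Pi.sub_apply, Pi.smul_apply, smul_eq_mul]
    ring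
  have hb1' : ((((siegelG Q f₁ f₂ (-t⁻¹) hf₁ hf₂ hf)⁻¹ : ↥(Cfsg.isometryGroup F (⇑Q))) :
      Matrix.GeneralLinearGroup ι F) : Matrix ι ι F) *ᵥ e₁
      = (0 : F) • (f₁ - t • e₂) + t⁻¹ • (f₂ + t • e₁) := by
    rw [siegelG_inv_sg, siegelG_mulVec, hf11, hf21]
    funext i
    simp only [Pi.add_apply, Pi.sub_apply, Pi.smul_apply, smul_eq_mul]
    field_simp
    ring
  have hb2' : ((((siegelG Q f₁ f₂ (-t⁻¹) hf₁ hf₂ hf)⁻¹ : ↥(Cfsg.isometryGroup F (⇑Q))) :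
      Matrix.GeneralLinearGroup ι F) : Matrix ι ι F) *ᵥ e₂
      = (-t⁻¹) • (f₁ - t • e₂) + (0 : F) • (f₂ + t • e₁) := by
    rw [siegelG_inv_sg, siegelG_mulVec, hf12, hf22]
    funext i
    simp only [Pi.add_apply, Pi.sub_apply, Pi.smul_apply, smul_eq_mul]
    field_simp
    ring
  rw [conjBy_sgSub, conjBy_sgSub, ha1', ha2', hb1', hb2']
  refine sgSub_basis Q _ _ 0 t⁻¹ (-t⁻¹) 0 ?_
  have : t⁻¹ ≠ 0 := inv_ne_zero ht
  intro h0
  apply this
  have h5 : t⁻¹ * t⁻¹ = 0 := by linear_combination h0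
  exact (mul_self_eq_zero.1 h5)

include he₁ he₂ he hf₁ hf₂ hf h11 h21 h22 in
theorem sg_frame_ne : sgSub Q e₁ e₂ ≠ sgSub Q f₁ f₂ := by
  intro h
  have h1 : siegelG Q e₁ e₂ 1 he₁ he₂ he ∈ sgSub Q f₁ f₂ := by
    rw [← h]
    exact siegelG_mem_sgSub Q e₁ e₂ 1 he₁ he₂ he
  obtain ⟨d, hd⟩ := (mem_sgSub Q hf₁ hf₂ hf _).1 h1
  have h2 : (((siegelG Q e₁ e₂ 1 he₁ he₂ he : ↥(Cfsg.isometryGroup F (⇑Q))) :
      Matrix.GeneralLinearGroup ι F) : Matrix ι ι F) *ᵥ f₁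
      = (((siegelG Q f₁ f₂ d hf₁ hf₂ hf : ↥(Cfsg.isometryGroup F (⇑Q))) :
        Matrix.GeneralLinearGroup ι F) : Matrix ι ι F) *ᵥ f₁ := by rw [hd]
  have hf21 : QuadraticMap.polar (⇑Q) f₂ f₁ = 0 := by rw [QuadraticMap.polar_comm]; exact hf
  rw [siegelG_mulVec, siegelG_mulVec, h11, h21, polar_self_zero Q hf₁, hf21] at h2
  have h3 : e₂ = 0 := by
    funext i
    have h4 := congrFun h2 i
    simp only [Pi.add_apply, Pi.sub_apply, Pi.smul_apply, smul_eq_mul] at h4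
    simp only [Pi.zero_apply]
    linear_combination h4
  rw [h3, QuadraticMap.polar_zero_left] at h22
  exact zero_ne_one h22

include he₁ he₂ he hf₁ hf₂ hf h11 h12 h21 h22 in
/-- Two opposite lines give a rank one pair. -/
theorem sg_frame_rankOne : Cfsg.IsRankOnePair (sgSub Q e₁ e₂) (sgSub Q f₁ f₂) where
  ne := sg_frame_ne Q e₁ e₂ f₁ f₂ he₁ he₂ he hf₁ hf₂ hf h11 h21 h22
  nilpotent_left := sgSub_nilpotent Q he₁ he₂ he
  nilpotent_right := sgSub_nilpotent Q hf₁ hf₂ hf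
  cond_left := sg_rankOneCond Q e₁ e₂ f₁ f₂ he₁ he₂ he hf₁ hf₂ hf h11 h12 h21 h22
  cond_right := sg_rankOneCond Q f₁ f₂ e₁ e₂ hf₁ hf₂ hf he₁ he₂ he
    (by rw [QuadraticMap.polar_comm]; exact h11) (by rw [QuadraticMap.polar_comm]; exact h21)
    (by rw [QuadraticMap.polar_comm]; exact h12) (by rw [QuadraticMap.polar_comm]; exact h22)

/-- The matrix of the image of a `2 × 2` matrix. -/
def sgPhi (X : Matrix (Fin 2) (Fin 2) F) : Matrix ι ι F :=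
  embR e₂ (Cfsg.polarVec (⇑Q) e₁) f₁ (Cfsg.polarVec (⇑Q) f₂) X
    * embR e₁ (Cfsg.polarVec (⇑Q) e₂) f₂ (Cfsg.polarVec (⇑Q) f₁) (dcj X)

theorem sgPhi_one : sgPhi Q e₁ e₂ f₁ f₂ (1 : Matrix (Fin 2) (Fin 2) F) = 1 := by
  rw [sgPhi, dcj_one, embR_one, embR_one, mul_one]

include he₁ he₂ he hf₁ hf₂ hf h11 h12 h21 h22 in
theorem sgPhi_mul (X Y : Matrix (Fin 2) (Fin 2) F) :
    sgPhi Q e₁ e₂ f₁ f₂ (X * Y) = sgPhi Q e₁ e₂ f₁ f₂ X * sgPhi Q e₁ e₂ f₁ f₂ Y := by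
  have hf11 : QuadraticMap.polar (⇑Q) f₁ e₁ = 1 := by rw [QuadraticMap.polar_comm]; exact h11
  have hf12 : QuadraticMap.polar (⇑Q) f₁ e₂ = 0 := by rw [QuadraticMap.polar_comm]; exact h21
  have hf21 : QuadraticMap.polar (⇑Q) f₂ e₁ = 0 := by rw [QuadraticMap.polar_comm]; exact h12
  have hf22 : QuadraticMap.polar (⇑Q) f₂ e₂ = 1 := by rw [QuadraticMap.polar_comm]; exact h22
  have hfr : QuadraticMap.polar (⇑Q) f₂ f₁ = 0 := by rw [QuadraticMap.polar_comm]; exact hf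
  have her : QuadraticMap.polar (⇑Q) e₂ e₁ = 0 := by rw [QuadraticMap.polar_comm]; exact he
  have m1 := embR_mul e₂ (Cfsg.polarVec (⇑Q) e₁) f₁ (Cfsg.polarVec (⇑Q) f₂)
    (by rw [polarVec_dot]; exact he) (by rw [polarVec_dot]; exact hfr)
    (by rw [polarVec_dot]; exact h11) (by rw [polarVec_dot]; exact hf22) X Y
  have m2 := embR_mul e₁ (Cfsg.polarVec (⇑Q) e₂) f₂ (Cfsg.polarVec (⇑Q) f₁)
    (by rw [polarVec_dot]; exact her) (by rw [polarVec_dot]; exact hf)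
    (by rw [polarVec_dot]; exact h22) (by rw [polarVec_dot]; exact hf11) (dcj X) (dcj Y)
  have c := embR_cross_comm e₂ (Cfsg.polarVec (⇑Q) e₁) f₁ (Cfsg.polarVec (⇑Q) f₂)
    e₁ (Cfsg.polarVec (⇑Q) e₂) f₂ (Cfsg.polarVec (⇑Q) f₁)
    (by rw [polarVec_dot]; exact polar_self_zero Q he₁) (by rw [polarVec_dot]; exact h12)
    (by rw [polarVec_dot]; exact hf21) (by rw [polarVec_dot]; exact polar_self_zero Q hf₂)
    (by rw [polarVec_dot]; exact polar_self_zero Q he₂) (by rw [polarVec_dot]; exact h21)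
    (by rw [polarVec_dot]; exact hf12) (by rw [polarVec_dot]; exact polar_self_zero Q hf₁)
    Y (dcj X)
  rw [sgPhi, sgPhi, sgPhi, dcj_mul, ← m1, ← m2, mul_assoc, ← mul_assoc (embR e₂ _ f₁ _ Y), c,
    mul_assoc, mul_assoc]

include he₁ in
theorem sgPhi_upper (X : Matrix (Fin 2) (Fin 2) F) (h10 : X 1 0 = 0) (h00 : X 0 0 = 1)
    (hx11 : X 1 1 = 1) : sgPhi Q e₁ e₂ f₁ f₂ X = Cfsg.siegelMatrix (⇑Q) e₁ e₂ (X 0 1) := by
  have d10 : dcj X 1 0 = 0 := by simp [dcj, h10]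
  have d00 : dcj X 0 0 = 1 := by simp [dcj, h00]
  have d11 : dcj X 1 1 = 1 := by simp [dcj, hx11]
  have d01 : dcj X 0 1 = -X 0 1 := by simp [dcj]
  rw [sgPhi, embR_upper _ _ _ _ X h10 h00 hx11, embR_upper _ _ _ _ (dcj X) d10 d00 d11, d01]
  unfold Cfsg.siegelMatrix
  simp only [add_mul, mul_add, one_mul, mul_one, smul_mul_assoc, mul_smul_comm,
    vecMulVec_mul_vecMulVec, polarVec_dot, polar_self_zero Q he₁, zero_smul, vecMulVec_zero,
    smul_zero, add_zero]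
  module

include hf₂ in
theorem sgPhi_lower (X : Matrix (Fin 2) (Fin 2) F) (h01 : X 0 1 = 0) (h00 : X 0 0 = 1)
    (hx11 : X 1 1 = 1) : sgPhi Q e₁ e₂ f₁ f₂ X = Cfsg.siegelMatrix (⇑Q) f₁ f₂ (-X 1 0) := by
  have d01 : dcj X 0 1 = 0 := by simp [dcj, h01]
  have d00 : dcj X 0 0 = 1 := by simp [dcj, h00]
  have d11 : dcj X 1 1 = 1 := by simp [dcj, hx11]
  have d10 : dcj X 1 0 = -X 1 0 := by simp [dcj]
  rw [sgPhi, embR_lower _ _ _ _ X h01 h00 hx11, embR_lower _ _ _ _ (dcj X) d01 d00 d11, d10]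
  unfold Cfsg.siegelMatrix
  simp only [add_mul, mul_add, one_mul, mul_one, smul_mul_assoc, mul_smul_comm,
    vecMulVec_mul_vecMulVec, polarVec_dot, polar_self_zero Q hf₂, zero_smul, vecMulVec_zero,
    smul_zero, add_zero]
  module

/-- The monoid homomorphism into matrices attached to two opposite lines. -/
noncomputable def sgPhiHom : Matrix.SpecialLinearGroup (Fin 2) F →* Matrix ι ι F where
  toFun g := sgPhi Q e₁ e₂ f₁ f₂ (g : Matrix (Fin 2) (Fin 2) F)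
  map_one' := by rw [Matrix.SpecialLinearGroup.coe_one, sgPhi_one]
  map_mul' A B := by
    rw [Matrix.SpecialLinearGroup.coe_mul]
    exact sgPhi_mul Q e₁ e₂ f₁ f₂ he₁ he₂ he hf₁ hf₂ hf h11 h12 h21 h22 _ _

theorem sgGL_mem (g : Matrix.SpecialLinearGroup (Fin 2) F) :
    (sgPhiHom Q e₁ e₂ f₁ f₂ he₁ he₂ he hf₁ hf₂ hf h11 h12 h21 h22).toHomUnits g
      ∈ Cfsg.isometryGroup F (⇑Q) := by
  refine sl_transvection_induction
    (fun g => (sgPhiHom Q e₁ e₂ f₁ f₂ he₁ he₂ he hf₁ hf₂ hf h11 h12 h21 h22).toHomUnits g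
      ∈ Cfsg.isometryGroup F (⇑Q)) ?_ ?_ g
  · intro i j hij a
    rw [mem_isometryGroup_iff]
    intro x
    rcases fin2_cases i j hij with ⟨hi, hj⟩ | ⟨hi, hj⟩
    · subst hi hj
      have e : (((sgPhiHom Q e₁ e₂ f₁ f₂ he₁ he₂ he hf₁ hf₂ hf h11 h12 h21 h22).toHomUnits
          (Matrix.SpecialLinearGroup.transvection hij a) : (Matrix ι ι F)ˣ) : Matrix ι ι F)
          = Cfsg.siegelMatrix (⇑Q) e₁ e₂ a := by
        show sgPhi Q e₁ e₂ f₁ f₂ ((Matrix.SpecialLinearGroup.transvection hij a :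
          Matrix.SpecialLinearGroup (Fin 2) F) : Matrix (Fin 2) (Fin 2) F) = _
        rw [sgPhi_upper Q e₁ e₂ f₁ f₂ he₁ _
          (by simp [Matrix.SpecialLinearGroup.transvection_coe, Matrix.transvection])
          (by simp [Matrix.SpecialLinearGroup.transvection_coe, Matrix.transvection])
          (by simp [Matrix.SpecialLinearGroup.transvection_coe, Matrix.transvection])]
        congr 1
        simp [Matrix.SpecialLinearGroup.transvection_coe, Matrix.transvection]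
      rw [e]
      exact siegel_isom Q e₁ e₂ a he₁ he₂ he x
    · subst hi hj
      have e : (((sgPhiHom Q e₁ e₂ f₁ f₂ he₁ he₂ he hf₁ hf₂ hf h11 h12 h21 h22).toHomUnits
          (Matrix.SpecialLinearGroup.transvection hij a) : (Matrix ι ι F)ˣ) : Matrix ι ι F)
          = Cfsg.siegelMatrix (⇑Q) f₁ f₂ (-a) := by
        show sgPhi Q e₁ e₂ f₁ f₂ ((Matrix.SpecialLinearGroup.transvection hij a :
          Matrix.SpecialLinearGroup (Fin 2) F) : Matrix (Fin 2) (Fin 2) F) = _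
        rw [sgPhi_lower Q e₁ e₂ f₁ f₂ hf₂ _
          (by simp [Matrix.SpecialLinearGroup.transvection_coe, Matrix.transvection])
          (by simp [Matrix.SpecialLinearGroup.transvection_coe, Matrix.transvection])
          (by simp [Matrix.SpecialLinearGroup.transvection_coe, Matrix.transvection])]
        congr 2
        simp [Matrix.SpecialLinearGroup.transvection_coe, Matrix.transvection]
      rw [e]
      exact siegel_isom Q f₁ f₂ (-a) hf₁ hf₂ hf x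
  · intro A B hA hB
    rw [map_mul]
    exact Subgroup.mul_mem _ hA hB

/-- The homomorphism from `SL₂` into the isometry group attached to two opposite lines. -/
noncomputable def sgPsi : Matrix.SpecialLinearGroup (Fin 2) F →* ↥(Cfsg.isometryGroup F (⇑Q)) :=
  ((sgPhiHom Q e₁ e₂ f₁ f₂ he₁ he₂ he hf₁ hf₂ hf h11 h12 h21 h22).toHomUnits).codRestrict
    (Cfsg.isometryGroup F (⇑Q)) (sgGL_mem Q e₁ e₂ f₁ f₂ he₁ he₂ he hf₁ hf₂ hf h11 h12 h21 h22)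

theorem sgPsi_coe (g : Matrix.SpecialLinearGroup (Fin 2) F) :
    (((sgPsi Q e₁ e₂ f₁ f₂ he₁ he₂ he hf₁ hf₂ hf h11 h12 h21 h22 g :
      ↥(Cfsg.isometryGroup F (⇑Q))) : Matrix.GeneralLinearGroup ι F) : Matrix ι ι F)
      = sgPhi Q e₁ e₂ f₁ f₂ (g : Matrix (Fin 2) (Fin 2) F) := rfl

theorem sgPsi_upper :
    (Cfsg.upperUnipotentSL2 F).map (sgPsi Q e₁ e₂ f₁ f₂ he₁ he₂ he hf₁ hf₂ hf h11 h12 h21 h22)
      = sgSub Q e₁ e₂ := by
  rw [Cfsg.upperUnipotentSL2, MonoidHom.map_closure, sgSub]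
  congr 1
  ext x
  constructor
  · rintro ⟨g, ⟨hg1, hg2, hg3⟩, rfl⟩
    exact ⟨(g : Matrix (Fin 2) (Fin 2) F) 0 1,
      sgPhi_upper Q e₁ e₂ f₁ f₂ he₁ _ hg1 hg2 hg3⟩
  · rintro ⟨c, hc⟩
    refine ⟨Matrix.SpecialLinearGroup.transvection (show (0 : Fin 2) ≠ 1 by decide) c,
      ⟨?_, ?_, ?_⟩, ?_⟩
    · simp [Matrix.SpecialLinearGroup.transvection_coe, Matrix.transvection]
    · simp [Matrix.SpecialLinearGroup.transvection_coe, Matrix.transvection]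
    · simp [Matrix.SpecialLinearGroup.transvection_coe, Matrix.transvection]
    · apply isomG_ext
      rw [hc, sgPsi_coe, sgPhi_upper Q e₁ e₂ f₁ f₂ he₁ _
        (by simp [Matrix.SpecialLinearGroup.transvection_coe, Matrix.transvection])
        (by simp [Matrix.SpecialLinearGroup.transvection_coe, Matrix.transvection])
        (by simp [Matrix.SpecialLinearGroup.transvection_coe, Matrix.transvection])]
      congr 1
      simp [Matrix.SpecialLinearGroup.transvection_coe, Matrix.transvection]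

theorem sgPsi_lower :
    (Cfsg.lowerUnipotentSL2 F).map (sgPsi Q e₁ e₂ f₁ f₂ he₁ he₂ he hf₁ hf₂ hf h11 h12 h21 h22)
      = sgSub Q f₁ f₂ := by
  rw [Cfsg.lowerUnipotentSL2, MonoidHom.map_closure, sgSub]
  congr 1
  ext x
  constructor
  · rintro ⟨g, ⟨hg1, hg2, hg3⟩, rfl⟩
    exact ⟨-(g : Matrix (Fin 2) (Fin 2) F) 1 0,
      sgPhi_lower Q e₁ e₂ f₁ f₂ hf₂ _ hg1 hg2 hg3⟩
  · rintro ⟨c, hc⟩
    refine ⟨Matrix.SpecialLinearGroup.transvection (show (1 : Fin 2) ≠ 0 by decide) (-c),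
      ⟨?_, ?_, ?_⟩, ?_⟩
    · simp [Matrix.SpecialLinearGroup.transvection_coe, Matrix.transvection]
    · simp [Matrix.SpecialLinearGroup.transvection_coe, Matrix.transvection]
    · simp [Matrix.SpecialLinearGroup.transvection_coe, Matrix.transvection]
    · apply isomG_ext
      rw [hc, sgPsi_coe, sgPhi_lower Q e₁ e₂ f₁ f₂ hf₂ _
        (by simp [Matrix.SpecialLinearGroup.transvection_coe, Matrix.transvection])
        (by simp [Matrix.SpecialLinearGroup.transvection_coe, Matrix.transvection])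
        (by simp [Matrix.SpecialLinearGroup.transvection_coe, Matrix.transvection])]
      congr 1
      simp [Matrix.SpecialLinearGroup.transvection_coe, Matrix.transvection]

include he₁ he₂ he hf₁ hf₂ hf h11 h12 h21 h22 in
/-- Two opposite lines generate an image of `SL₂` with central kernel. -/
theorem sg_frame_psl2 : Cfsg.IsPSL2PairOver F (sgSub Q e₁ e₂) (sgSub Q f₁ f₂) := by
  have hup := sgPsi_upper Q e₁ e₂ f₁ f₂ he₁ he₂ he hf₁ hf₂ hf h11 h12 h21 h22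
  have hlow := sgPsi_lower Q e₁ e₂ f₁ f₂ he₁ he₂ he hf₁ hf₂ hf h11 h12 h21 h22
  refine ⟨sgPsi Q e₁ e₂ f₁ f₂ he₁ he₂ he hf₁ hf₂ hf h11 h12 h21 h22, ?_, ?_, hup, hlow⟩
  · rw [MonoidHom.range_eq_map, ← sl2_gen, Subgroup.map_sup, hup, hlow]
  · intro M hM
    rw [MonoidHom.mem_ker] at hM
    have hf11 : QuadraticMap.polar (⇑Q) f₁ e₁ = 1 := by rw [QuadraticMap.polar_comm]; exact h11
    have hf21 : QuadraticMap.polar (⇑Q) f₂ e₁ = 0 := by rw [QuadraticMap.polar_comm]; exact h12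
    have hf22 : QuadraticMap.polar (⇑Q) f₂ e₂ = 1 := by rw [QuadraticMap.polar_comm]; exact h22
    have hfr : QuadraticMap.polar (⇑Q) f₂ f₁ = 0 := by rw [QuadraticMap.polar_comm]; exact hf
    have H1 : Cfsg.polarVec (⇑Q) e₁ ⬝ᵥ e₂ = 0 := by rw [polarVec_dot]; exact he
    have H2 : Cfsg.polarVec (⇑Q) f₂ ⬝ᵥ f₁ = 0 := by rw [polarVec_dot]; exact hfr
    have Hα : Cfsg.polarVec (⇑Q) e₁ ⬝ᵥ f₁ = 1 := by rw [polarVec_dot]; exact h11
    have Hβ : Cfsg.polarVec (⇑Q) f₂ ⬝ᵥ e₂ = 1 := by rw [polarVec_dot]; exact hf22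
    have hE := embE_mul e₂ (Cfsg.polarVec (⇑Q) e₁) f₁ (Cfsg.polarVec (⇑Q) f₂) H1 H2 Hα Hβ
    have c1 := embE_cross e₂ (Cfsg.polarVec (⇑Q) e₁) f₁ (Cfsg.polarVec (⇑Q) f₂)
      e₁ (Cfsg.polarVec (⇑Q) e₂) f₂ (Cfsg.polarVec (⇑Q) f₁)
      (by rw [polarVec_dot]; exact polar_self_zero Q he₁) (by rw [polarVec_dot]; exact h12)
      (by rw [polarVec_dot]; exact hf21) (by rw [polarVec_dot]; exact polar_self_zero Q hf₂)
    have h0 : sgPhi Q e₁ e₂ f₁ f₂ (M : Matrix (Fin 2) (Fin 2) F) = 1 := by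
      rw [← sgPsi_coe Q e₁ e₂ f₁ f₂ he₁ he₂ he hf₁ hf₂ hf h11 h12 h21 h22, hM]
      rfl
    have k0 : embE e₂ (Cfsg.polarVec (⇑Q) e₁) f₁ (Cfsg.polarVec (⇑Q) f₂) 1
        * embR e₂ (Cfsg.polarVec (⇑Q) e₁) f₁ (Cfsg.polarVec (⇑Q) f₂)
          (M : Matrix (Fin 2) (Fin 2) F)
        = embE e₂ (Cfsg.polarVec (⇑Q) e₁) f₁ (Cfsg.polarVec (⇑Q) f₂)
          (M : Matrix (Fin 2) (Fin 2) F) := by
      rw [embR, mul_add, mul_sub, mul_one, hE, hE, mul_one, one_mul]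
      abel
    have k1 : embE e₂ (Cfsg.polarVec (⇑Q) e₁) f₁ (Cfsg.polarVec (⇑Q) f₂) 1
        * sgPhi Q e₁ e₂ f₁ f₂ (M : Matrix (Fin 2) (Fin 2) F)
        = embE e₂ (Cfsg.polarVec (⇑Q) e₁) f₁ (Cfsg.polarVec (⇑Q) f₂)
          (M : Matrix (Fin 2) (Fin 2) F) := by
      rw [sgPhi, ← mul_assoc, k0, embR, mul_add, mul_sub, mul_one, c1, c1, sub_zero, add_zero]
    rw [h0, mul_one] at k1
    have h3 : M = 1 := by
      apply Subtype.ext
      exact embE_inj e₂ (Cfsg.polarVec (⇑Q) e₁) f₁ (Cfsg.polarVec (⇑Q) f₂) H1 H2 Hα Hβ _ _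
        k1.symm
    rw [h3]
    exact Subgroup.one_mem _

end SgB

end Cfsg.Agent.Lib.Helper3
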