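import Mathlib
import Cfsg.Prelude
import Cfsg.Agent.Lib.Helper3.SgB

/-!
# Siegel transvection subgroups: the three cases for a pair of lines, and the transfer of a
non-degenerate root subgroup family to the subgroup it generates
-/

set_option autoImplicit false
set_option linter.unusedSectionVars false
set_option linter.unusedSimpArgs false

namespace Cfsg.Agent.Lib.Helper3

open Cfsg.Agent.Lib.Helper16 Matrix
open scoped commutatorElement

section Abstract2

variable {G : Type*} [Group G]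

/-- A pair in the commutator case with abelian second member is not a rank one pair. -/
theorem not_rankOne_of_commCase (A B : Subgroup G)
    (hB : ∀ b ∈ B, ∀ b' ∈ B, b * b' = b' * b)
    (hc : ∀ c ∈ ⁅A, B⁆, ∀ b ∈ B, c * b = b * c) (hne : ⁅A, B⁆ ≠ ⊥)
    (hA : ∃ a ∈ A, a ≠ 1) : ¬ Cfsg.IsRankOnePair A B := by
  intro hr
  obtain ⟨a, ha, ha1⟩ := hA
  obtain ⟨b, hb, -, he⟩ := hr.cond_left a ha ha1
  apply hne
  rw [Subgroup.commutator_eq_bot_iff_le_centralizer]
  intro a' ha'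
  rw [Subgroup.mem_centralizer_iff]
  intro b'' hb''
  have h1 : b⁻¹ * a' * b ∈ Cfsg.conjBy A b⁻¹ := by
    rw [Cfsg.conjBy, Subgroup.mem_map]
    exact ⟨a', ha', by simp [MulAut.conj_apply]⟩
  rw [he, Cfsg.conjBy, Subgroup.mem_map] at h1
  obtain ⟨b', hb', hb'e⟩ := h1
  have hb'e' : a⁻¹ * b' * a = b⁻¹ * a' * b := by simpa [MulAut.conj_apply] using hb'e
  have hcm : b'⁻¹ * a⁻¹ * b' * a ∈ ⁅A, B⁆ := by
    rw [Subgroup.commutator_comm]
    have h5 := Subgroup.commutator_mem_commutator (H₁ := B) (H₂ := A) (B.inv_mem hb')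
      (A.inv_mem ha)
    rw [commutatorElement_def, inv_inv, inv_inv] at h5
    exact h5
  have h2 : b' * (b'⁻¹ * a⁻¹ * b' * a) = b⁻¹ * a' * b := by
    rw [← hb'e']
    group
  have ha'e : a' = b * (b' * (b'⁻¹ * a⁻¹ * b' * a)) * b⁻¹ := by
    rw [h2]
    group
  have k1 : Commute b'' b := hB b'' hb'' b hb
  have k2 : Commute b'' b' := hB b'' hb'' b' hb'
  have k3 : Commute b'' (b'⁻¹ * a⁻¹ * b' * a) := (hc _ hcm b'' hb'').symm
  have k4 : Commute b'' a' := by
    rw [ha'e]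
    exact (k1.mul_right (k2.mul_right k3)).mul_right k1.inv_right
  exact k4.eq

theorem conjBy_le (H A : Subgroup G) (hA : A ≤ H) (g : G) (hg : g ∈ H) :
    Cfsg.conjBy A g ≤ H := by
  intro x hx
  rw [Cfsg.conjBy, Subgroup.mem_map] at hx
  obtain ⟨y, hy, rfl⟩ := hx
  show (MulAut.conj g) y ∈ H
  rw [MulAut.conj_apply]
  exact H.mul_mem (H.mul_mem hg (hA hy)) (H.inv_mem hg)

theorem rankOneCond_of_subgroupOf (H A B : Subgroup G) (hA : A ≤ H) (hB : B ≤ H)
    (h : Cfsg.RankOneCondition (A.subgroupOf H) (B.subgroupOf H)) :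
    Cfsg.RankOneCondition A B := by
  intro a ha ha1
  obtain ⟨b, hb, hb1, he⟩ := h ⟨a, hA ha⟩ (Subgroup.mem_subgroupOf.mpr ha)
    (fun h0 => ha1 (congrArg Subtype.val h0))
  refine ⟨(b : G), Subgroup.mem_subgroupOf.mp hb, fun h0 => hb1 (Subtype.ext h0), ?_⟩
  rw [subgroupOf_conjBy, subgroupOf_conjBy] at he
  exact subgroupOf_eq_of_le (conjBy_le H A hA _ (H.inv_mem b.2))
    (conjBy_le H B hB _ (H.inv_mem (hA ha))) he

theorem rankOne_of_subgroupOf (H A B : Subgroup G) (hA : A ≤ H) (hB : B ≤ H)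
    (h : Cfsg.IsRankOnePair (A.subgroupOf H) (B.subgroupOf H)) : Cfsg.IsRankOnePair A B where
  ne := fun he => h.ne (by rw [he])
  nilpotent_left := by
    have := h.nilpotent_left
    exact Group.nilpotent_of_mulEquiv (Subgroup.subgroupOfEquivOfLe hA)
  nilpotent_right := by
    have := h.nilpotent_right
    exact Group.nilpotent_of_mulEquiv (Subgroup.subgroupOfEquivOfLe hB)
  cond_left := rankOneCond_of_subgroupOf H A B hA hB h.cond_left
  cond_right := rankOneCond_of_subgroupOf H B A hB hA h.cond_right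

theorem commCase_subgroupOf (T : Set (Subgroup G)) (H : Subgroup G) (hle : ∀ A ∈ T, A ≤ H)
    (A : Subgroup G) (hA : A ∈ T) (B : Subgroup G) (hB : B ∈ T)
    (h : Cfsg.RootCommutatorCase T A B) :
    Cfsg.RootCommutatorCase ((fun A : Subgroup G => A.subgroupOf H) '' T)
      (A.subgroupOf H) (B.subgroupOf H) := by
  obtain ⟨h1, h2, h3, h4⟩ := h
  have hcab := subgroupOf_commutator H A B (hle A hA) (hle B hB)
  have hcle := commutator_le_of_le H A B (hle A hA) (hle B hB)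
  refine ⟨⟨⁅A, B⁆, h1, hcab.symm⟩, ?_, ?_, ?_⟩
  · intro c hc x hx
    rw [hcab, Subgroup.mem_subgroupOf] at hc
    rw [← Subgroup.subgroupOf_sup (hle A hA) (hle B hB), Subgroup.mem_subgroupOf] at hx
    exact Subtype.ext (h2 c hc x hx)
  · intro a ha ha1
    rw [Subgroup.mem_subgroupOf] at ha
    have h3' := h3 (a : G) ha (fun h0 => ha1 (Subtype.ext h0))
    apply Subgroup.map_injective H.subtype_injective
    rw [hcab, Subgroup.map_subgroupOf_eq_of_le hcle, MonoidHom.map_closure, ← h3']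
    congr 1
    ext y
    constructor
    · rintro ⟨_, ⟨b, hb, rfl⟩, rfl⟩
      exact ⟨(b : G), Subgroup.mem_subgroupOf.mp hb, rfl⟩
    · rintro ⟨b, hb, rfl⟩
      exact ⟨_, ⟨⟨b, hle B hB hb⟩, Subgroup.mem_subgroupOf.mpr hb, rfl⟩, rfl⟩
  · intro b hb hb1
    rw [Subgroup.mem_subgroupOf] at hb
    have h4' := h4 (b : G) hb (fun h0 => hb1 (Subtype.ext h0))
    apply Subgroup.map_injective H.subtype_injective
    rw [hcab, Subgroup.map_subgroupOf_eq_of_le hcle, MonoidHom.map_closure, ← h4']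
    congr 1
    ext y
    constructor
    · rintro ⟨_, ⟨a, ha, rfl⟩, rfl⟩
      exact ⟨(a : G), Subgroup.mem_subgroupOf.mp ha, rfl⟩
    · rintro ⟨a, ha, rfl⟩
      exact ⟨_, ⟨⟨a, hle A hA ha⟩, Subgroup.mem_subgroupOf.mpr ha, rfl⟩, rfl⟩

/-- Root subgroup data of a family with all three cases, viewed inside the subgroup the family
generates. -/
theorem root_transfer2 (T : Set (Subgroup G)) (L : Type*) [Field L]
    (hcomm : ∀ A ∈ T, IsMulCommutative A) (hne : ∀ A ∈ T, A ≠ ⊥)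
    (hconj : ∀ A ∈ T, ∀ g : G, Cfsg.conjBy A g ∈ T)
    (hpair : ∀ A ∈ T, ∀ B ∈ T, (∀ a ∈ A, ∀ b ∈ B, a * b = b * a) ∨
      (Cfsg.IsRankOnePair A B ∧ Cfsg.IsPSL2PairOver L A B) ∨ Cfsg.RootCommutatorCase T A B) :
    Cfsg.IsKRootSubgroupSet L ((fun A : Subgroup G => A.subgroupOf (⨆ B ∈ T, B)) '' T) := by
  obtain ⟨H, hH⟩ : ∃ H : Subgroup G, H = ⨆ B ∈ T, B := ⟨_, rfl⟩
  rw [← hH]
  have hle : ∀ A ∈ T, A ≤ H := fun A hA => hH ▸ le_biSup (fun B => B) hA
  have hex : ∀ A ∈ T, ∃ a ∈ A, a ≠ 1 := by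
    intro A hA
    by_contra hcon
    push Not at hcon
    exact hne A hA ((Subgroup.eq_bot_iff_forall A).mpr hcon)
  have hroot : Cfsg.IsRootSubgroupSet ((fun A : Subgroup G => A.subgroupOf H) '' T) :=
    { commutative := by
        rintro _ ⟨A, hA, rfl⟩
        have hc := hcomm A hA
        refine ⟨⟨fun a b => Subtype.ext (Subtype.ext ?_)⟩⟩
        have h1 := hc.is_comm.comm ⟨((a : H) : G), a.2⟩ ⟨((b : H) : G), b.2⟩
        have h2 := congrArg Subtype.val h1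
        exact h2
      ne_bot := by
        rintro _ ⟨A, hA, rfl⟩ h
        have h' : A.subgroupOf H = ⊥ := h
        apply hne A hA
        rw [← Subgroup.map_subgroupOf_eq_of_le (hle A hA), h', Subgroup.map_bot]
      generates := iSup_subgroupOf_eq_top T H hH
      conj_mem := by
        rintro _ ⟨A, hA, rfl⟩ g
        rw [subgroupOf_conjBy]
        exact ⟨_, hconj A hA g, rfl⟩
      pair := by
        rintro _ ⟨A, hA, rfl⟩ _ ⟨B, hB, rfl⟩
        rcases hpair A hA B hB with h | ⟨h, -⟩ | h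
        · left
          rw [Subgroup.commutator_eq_bot_iff_le_centralizer]
          intro a ha
          rw [Subgroup.mem_centralizer_iff]
          intro b hb
          exact Subtype.ext (h a ha b hb).symm
        · right
          left
          exact rankOne_subgroupOf H A B (hle A hA) (hle B hB) h
        · right
          right
          exact commCase_subgroupOf T H hle A hA B hB h }
  refine ⟨hroot, ?_⟩
  rintro _ ⟨A, hA, rfl⟩ _ ⟨B, hB, rfl⟩ hr
  have hr' := rankOne_of_subgroupOf H A B (hle A hA) (hle B hB) hr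
  rcases hpair A hA B hB with h | ⟨-, h⟩ | h
  · exact absurd hr' (not_rankOne_of_comm A B h (hex A hA))
  · exact psl2_subgroupOf H A B (hle A hA) (hle B hB) h
  · exfalso
    obtain ⟨h1, h2, -, -⟩ := h
    refine not_rankOne_of_commCase A B ?_ ?_ (hne _ h1) (hex A hA) hr'
    · intro b hb b' hb'
      have hc := hcomm B hB
      have h5 := hc.is_comm.comm ⟨b, hb⟩ ⟨b', hb'⟩
      exact congrArg Subtype.val h5
    · intro c hc b hb
      exact h2 c hc b (Subgroup.mem_sup_right hb)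

end Abstract2

section SgC

variable {ι : Type} [Fintype ι] [DecidableEq ι] {F : Type*} [Field F]
variable (Q : QuadraticForm F (ι → F))

/-- Two lines with non-singular Gram matrix give a rank one pair generating an image of the
special linear group of degree two. -/
theorem sg_opp (p₁ r₁ p₂ r₂ : ι → F) (hp₁ : Q p₁ = 0) (hr₁ : Q r₁ = 0)
    (hpr₁ : QuadraticMap.polar (⇑Q) p₁ r₁ = 0) (hp₂ : Q p₂ = 0) (hr₂ : Q r₂ = 0)
    (hpr₂ : QuadraticMap.polar (⇑Q) p₂ r₂ = 0)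
    (hD : QuadraticMap.polar (⇑Q) p₁ p₂ * QuadraticMap.polar (⇑Q) r₁ r₂
      - QuadraticMap.polar (⇑Q) p₁ r₂ * QuadraticMap.polar (⇑Q) r₁ p₂ ≠ 0) :
    Cfsg.IsRankOnePair (sgSub Q p₁ r₁) (sgSub Q p₂ r₂) ∧
      Cfsg.IsPSL2PairOver F (sgSub Q p₁ r₁) (sgSub Q p₂ r₂) := by
  obtain ⟨m11, h11⟩ : ∃ x, x = QuadraticMap.polar (⇑Q) p₁ p₂ := ⟨_, rfl⟩
  obtain ⟨m12, h12⟩ : ∃ x, x = QuadraticMap.polar (⇑Q) p₁ r₂ := ⟨_, rfl⟩
  obtain ⟨m21, h21⟩ : ∃ x, x = QuadraticMap.polar (⇑Q) r₁ p₂ := ⟨_, rfl⟩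
  obtain ⟨m22, h22⟩ : ∃ x, x = QuadraticMap.polar (⇑Q) r₁ r₂ := ⟨_, rfl⟩
  rw [← h11, ← h12, ← h21, ← h22] at hD
  obtain ⟨D, hDdef⟩ : ∃ D, D = m11 * m22 - m12 * m21 := ⟨_, rfl⟩
  rw [← hDdef] at hD
  obtain ⟨f₁, hf₁def⟩ : ∃ f, f = (m22 / D) • p₂ + (-m21 / D) • r₂ := ⟨_, rfl⟩
  obtain ⟨f₂, hf₂def⟩ : ∃ f, f = (-m12 / D) • p₂ + (m11 / D) • r₂ := ⟨_, rfl⟩
  have hsub : sgSub Q f₁ f₂ = sgSub Q p₂ r₂ := by
    rw [hf₁def, hf₂def]
    apply sgSub_basis
    have h5 : m22 / D * (m11 / D) - -m21 / D * (-m12 / D) = 1 / D := by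
      field_simp
      rw [hDdef]
      ring
    rw [h5]
    exact one_div_ne_zero hD
  have hf₁ : Q f₁ = 0 := by rw [hf₁def]; exact Q_comb Q hp₂ hr₂ hpr₂ _ _
  have hf₂ : Q f₂ = 0 := by rw [hf₂def]; exact Q_comb Q hp₂ hr₂ hpr₂ _ _
  have hp₂p₂ := polar_self_zero Q hp₂
  have hr₂r₂ := polar_self_zero Q hr₂
  have hr₂p₂ : QuadraticMap.polar (⇑Q) r₂ p₂ = 0 := by rw [QuadraticMap.polar_comm]; exact hpr₂
  have hf : QuadraticMap.polar (⇑Q) f₁ f₂ = 0 := by
    rw [hf₁def, hf₂def]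
    simp only [QuadraticMap.polar_add_left, QuadraticMap.polar_add_right,
      QuadraticMap.polar_smul_left, QuadraticMap.polar_smul_right, hp₂p₂, hr₂r₂, hr₂p₂, hpr₂,
      smul_eq_mul, mul_zero, add_zero]
  have e11 : QuadraticMap.polar (⇑Q) p₁ f₁ = 1 := by
    rw [hf₁def]
    simp only [QuadraticMap.polar_add_right, QuadraticMap.polar_smul_right, smul_eq_mul,
      ← h11, ← h12]
    field_simp
    rw [hDdef]
    ring
  have e12 : QuadraticMap.polar (⇑Q) p₁ f₂ = 0 := by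
    rw [hf₂def]
    simp only [QuadraticMap.polar_add_right, QuadraticMap.polar_smul_right, smul_eq_mul,
      ← h11, ← h12]
    field_simp
    ring
  have e21 : QuadraticMap.polar (⇑Q) r₁ f₁ = 0 := by
    rw [hf₁def]
    simp only [QuadraticMap.polar_add_right, QuadraticMap.polar_smul_right, smul_eq_mul,
      ← h21, ← h22]
    field_simp
    ring
  have e22 : QuadraticMap.polar (⇑Q) r₁ f₂ = 1 := by
    rw [hf₂def]
    simp only [QuadraticMap.polar_add_right, QuadraticMap.polar_smul_right, smul_eq_mul,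
      ← h21, ← h22]
    field_simp
    rw [hDdef]
    ring
  rw [← hsub]
  exact ⟨sg_frame_rankOne Q p₁ r₁ f₁ f₂ hp₁ hr₁ hpr₁ hf₁ hf₂ hf e11 e12 e21 e22,
    sg_frame_psl2 Q p₁ r₁ f₁ f₂ hp₁ hr₁ hpr₁ hf₁ hf₂ hf e11 e12 e21 e22⟩

/-- Two lines whose Gram matrix has rank one: the groups commute or are in the commutator
case. -/
theorem sg_rank1 (T : Set (Subgroup ↥(Cfsg.isometryGroup F (⇑Q))))
    (hT : ∀ u v : ι → F, LinearIndependent F ![u, v] → Q u = 0 → Q v = 0 →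
      QuadraticMap.polar (⇑Q) u v = 0 → sgSub Q u v ∈ T)
    (p₁ r₁ p₂ r₂ : ι → F) (hli₁ : LinearIndependent F ![p₁, r₁]) (hp₁ : Q p₁ = 0)
    (hr₁ : Q r₁ = 0) (hpr₁ : QuadraticMap.polar (⇑Q) p₁ r₁ = 0) (hp₂ : Q p₂ = 0)
    (hr₂ : Q r₂ = 0) (hpr₂ : QuadraticMap.polar (⇑Q) p₂ r₂ = 0)
    (h11 : QuadraticMap.polar (⇑Q) p₁ p₂ ≠ 0)
    (hD : QuadraticMap.polar (⇑Q) p₁ p₂ * QuadraticMap.polar (⇑Q) r₁ r₂
      - QuadraticMap.polar (⇑Q) p₁ r₂ * QuadraticMap.polar (⇑Q) r₁ p₂ = 0) :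
    (∀ a ∈ sgSub Q p₁ r₁, ∀ b ∈ sgSub Q p₂ r₂, a * b = b * a) ∨
      Cfsg.RootCommutatorCase T (sgSub Q p₁ r₁) (sgSub Q p₂ r₂) := by
  obtain ⟨m11, e11⟩ : ∃ x, x = QuadraticMap.polar (⇑Q) p₁ p₂ := ⟨_, rfl⟩
  obtain ⟨m12, e12⟩ : ∃ x, x = QuadraticMap.polar (⇑Q) p₁ r₂ := ⟨_, rfl⟩
  obtain ⟨m21, e21⟩ : ∃ x, x = QuadraticMap.polar (⇑Q) r₁ p₂ := ⟨_, rfl⟩
  obtain ⟨m22, e22⟩ : ∃ x, x = QuadraticMap.polar (⇑Q) r₁ r₂ := ⟨_, rfl⟩
  rw [← e11, ← e12, ← e21, ← e22] at hD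
  rw [← e11] at h11
  obtain ⟨u, hudef⟩ : ∃ u, u = (-m21 / m11) • p₁ + (1 : F) • r₁ := ⟨_, rfl⟩
  obtain ⟨w, hwdef⟩ : ∃ w, w = (1 : F) • p₁ + (0 : F) • r₁ := ⟨_, rfl⟩
  obtain ⟨u', hu'def⟩ : ∃ u, u = (-m12 / m11) • p₂ + (1 : F) • r₂ := ⟨_, rfl⟩
  obtain ⟨w', hw'def⟩ : ∃ w, w = (1 : F) • p₂ + (0 : F) • r₂ := ⟨_, rfl⟩
  have hA : sgSub Q u w = sgSub Q p₁ r₁ := by
    rw [hudef, hwdef]
    apply sgSub_basis
    simp
  have hB : sgSub Q u' w' = sgSub Q p₂ r₂ := by
    rw [hu'def, hw'def]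
    apply sgSub_basis
    simp
  have hw : w = p₁ := by rw [hwdef]; simp
  have hw' : w' = p₂ := by rw [hw'def]; simp
  have hQu : Q u = 0 := by rw [hudef]; exact Q_comb Q hp₁ hr₁ hpr₁ _ _
  have hQw : Q w = 0 := by rw [hw]; exact hp₁
  have hQu' : Q u' = 0 := by rw [hu'def]; exact Q_comb Q hp₂ hr₂ hpr₂ _ _
  have hQw' : Q w' = 0 := by rw [hw']; exact hp₂
  have hp₁p₁ := polar_self_zero Q hp₁
  have hr₁p₁ : QuadraticMap.polar (⇑Q) r₁ p₁ = 0 := by rw [QuadraticMap.polar_comm]; exact hpr₁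
  have hp₂p₂ := polar_self_zero Q hp₂
  have hr₂p₂ : QuadraticMap.polar (⇑Q) r₂ p₂ = 0 := by rw [QuadraticMap.polar_comm]; exact hpr₂
  have huw : QuadraticMap.polar (⇑Q) u w = 0 := by
    rw [hw, hudef]
    simp only [QuadraticMap.polar_add_left, QuadraticMap.polar_smul_left, hp₁p₁, hr₁p₁,
      smul_eq_mul, mul_zero, add_zero]
  have hu'w' : QuadraticMap.polar (⇑Q) u' w' = 0 := by
    rw [hw', hu'def]
    simp only [QuadraticMap.polar_add_left, QuadraticMap.polar_smul_left, hp₂p₂, hr₂p₂,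
      smul_eq_mul, mul_zero, add_zero]
  have hup₂ : QuadraticMap.polar (⇑Q) u p₂ = 0 := by
    rw [hudef]
    simp only [QuadraticMap.polar_add_left, QuadraticMap.polar_smul_left, smul_eq_mul,
      ← e11, ← e21]
    field_simp
    ring
  have hur₂ : QuadraticMap.polar (⇑Q) u r₂ = 0 := by
    rw [hudef]
    simp only [QuadraticMap.polar_add_left, QuadraticMap.polar_smul_left, smul_eq_mul,
      ← e12, ← e22]
    field_simp
    linear_combination hD
  have hp₁u' : QuadraticMap.polar (⇑Q) p₁ u' = 0 := by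
    rw [hu'def]
    simp only [QuadraticMap.polar_add_right, QuadraticMap.polar_smul_right, smul_eq_mul,
      ← e11, ← e12]
    field_simp
    ring
  have huu' : QuadraticMap.polar (⇑Q) u u' = 0 := by
    rw [hu'def]
    simp only [QuadraticMap.polar_add_right, QuadraticMap.polar_smul_right, smul_eq_mul,
      hup₂, hur₂, mul_zero, add_zero]
  have huw' : QuadraticMap.polar (⇑Q) u w' = 0 := by rw [hw']; exact hup₂
  have hwu' : QuadraticMap.polar (⇑Q) w u' = 0 := by rw [hw]; exact hp₁u'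
  have hww' : QuadraticMap.polar (⇑Q) w w' = m11 := by rw [hw, hw', e11]
  have hu'u : QuadraticMap.polar (⇑Q) u' u = 0 := by rw [QuadraticMap.polar_comm]; exact huu'
  have hu'w : QuadraticMap.polar (⇑Q) u' w = 0 := by rw [QuadraticMap.polar_comm]; exact hwu'
  rw [← hA, ← hB]
  have hform : ∀ c d : F, siegelG Q u w c hQu hQw huw * siegelG Q u' w' d hQu' hQw' hu'w'
      * (siegelG Q u w c hQu hQw huw)⁻¹ * (siegelG Q u' w' d hQu' hQw' hu'w')⁻¹
      = siegelG Q u u' (c * d * m11) hQu hQu' huu' := by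
    intro c d
    rw [sg_commutator_formula Q hQu hQw huw hQu' hQw' hu'w' huu' huw' hwu' c d]
    apply isomG_ext
    rw [siegelG_coe, siegelG_coe, hww']
  by_cases hdep : ∃ l : F, u' = l • u
  · left
    obtain ⟨l, hl⟩ := hdep
    intro a ha b hb
    obtain ⟨c, rfl⟩ := (mem_sgSub Q hQu hQw huw a).1 ha
    obtain ⟨d, rfl⟩ := (mem_sgSub Q hQu' hQw' hu'w' b).1 hb
    have h1 := hform c d
    have h2 : siegelG Q u u' (c * d * m11) hQu hQu' huu' = 1 := by
      apply isomG_ext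
      rw [siegelG_coe, isomG_one_coe]
      have h3 := siegel_dep Q u l (c * d * m11)
      rw [← hl] at h3
      exact h3
    rw [h2] at h1
    have h3 := mul_inv_eq_one.1 h1
    exact mul_inv_eq_iff_eq_mul.1 h3
  · right
    have hu0 : u ≠ 0 := by
      intro h0
      have h5 := LinearIndependent.pair_iff.1 hli₁ (-m21 / m11) 1 (by rw [← hudef]; exact h0)
      exact one_ne_zero h5.2
    have hli : LinearIndependent F ![u, u'] := by
      rw [LinearIndependent.pair_iff' hu0]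
      intro a ha
      exact hdep ⟨a, ha.symm⟩
    have hmem : sgSub Q u u' ∈ T := hT u u' hli hQu hQu' huu'
    have hcomm_eq : ⁅sgSub Q u w, sgSub Q u' w'⁆ = sgSub Q u u' := by
      apply le_antisymm
      · rw [Subgroup.commutator_le]
        intro a ha b hb
        obtain ⟨c, rfl⟩ := (mem_sgSub Q hQu hQw huw a).1 ha
        obtain ⟨d, rfl⟩ := (mem_sgSub Q hQu' hQw' hu'w' b).1 hb
        rw [commutatorElement_def, hform]
        exact siegelG_mem_sgSub Q u u' _ hQu hQu' huu'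
      · intro x hx
        obtain ⟨e, rfl⟩ := (mem_sgSub Q hQu hQu' huu' x).1 hx
        have h1 := Subgroup.commutator_mem_commutator (siegelG_mem_sgSub Q u w 1 hQu hQw huw)
          (siegelG_mem_sgSub Q u' w' (e / m11) hQu' hQw' hu'w')
        rw [commutatorElement_def, hform] at h1
        have h2 : (1 : F) * (e / m11) * m11 = e := by field_simp
        have h3 : siegelG Q u u' (1 * (e / m11) * m11) hQu hQu' huu'
            = siegelG Q u u' e hQu hQu' huu' := by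
          apply isomG_ext
          rw [siegelG_coe, siegelG_coe, h2]
        rw [h3] at h1
        exact h1
    refine ⟨?_, ?_, ?_, ?_⟩
    · rw [hcomm_eq]
      exact hmem
    · rw [hcomm_eq]
      intro c hc x hx
      have hle : sgSub Q u w ⊔ sgSub Q u' w' ≤ Subgroup.centralizer {c} := by
        apply sup_le
        · intro y hy
          rw [Subgroup.mem_centralizer_iff]
          intro z hz
          rw [Set.mem_singleton_iff] at hz
          subst hz
          exact sg_comm_of_perp Q hQu hQu' huu' hQu hQw huw (polar_self_zero Q hQu) huw hu'u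
            hu'w z hc y hy
        · intro y hy
          rw [Subgroup.mem_centralizer_iff]
          intro z hz
          rw [Set.mem_singleton_iff] at hz
          subst hz
          exact sg_comm_of_perp Q hQu hQu' huu' hQu' hQw' hu'w' huu' huw'
            (polar_self_zero Q hQu') hu'w' z hc y hy
      have h5 := hle hx
      rw [Subgroup.mem_centralizer_iff] at h5
      exact h5 c rfl
    · intro a ha ha1
      obtain ⟨c, rfl⟩ := (mem_sgSub Q hQu hQw huw a).1 ha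
      have hc : c ≠ 0 := by
        rintro rfl
        exact ha1 (siegelG_zero Q u w hQu hQw huw)
      rw [hcomm_eq]
      have himg : (fun b => siegelG Q u w c hQu hQw huw * b * (siegelG Q u w c hQu hQw huw)⁻¹
          * b⁻¹) '' (sgSub Q u' w' : Set ↥(Cfsg.isometryGroup F (⇑Q)))
          = (sgSub Q u u' : Set ↥(Cfsg.isometryGroup F (⇑Q))) := by
        ext x
        constructor
        · rintro ⟨b, hb, rfl⟩
          obtain ⟨d, rfl⟩ := (mem_sgSub Q hQu' hQw' hu'w' b).1 hb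
          show siegelG Q u w c hQu hQw huw * siegelG Q u' w' d hQu' hQw' hu'w'
            * (siegelG Q u w c hQu hQw huw)⁻¹ * (siegelG Q u' w' d hQu' hQw' hu'w')⁻¹ ∈ _
          rw [hform]
          exact siegelG_mem_sgSub Q u u' _ hQu hQu' huu'
        · intro hx
          obtain ⟨e, rfl⟩ := (mem_sgSub Q hQu hQu' huu' x).1 hx
          refine ⟨siegelG Q u' w' (e / (c * m11)) hQu' hQw' hu'w',
            siegelG_mem_sgSub Q u' w' _ hQu' hQw' hu'w', ?_⟩
          show siegelG Q u w c hQu hQw huw * siegelG Q u' w' (e / (c * m11)) hQu' hQw' hu'w'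
            * (siegelG Q u w c hQu hQw huw)⁻¹
            * (siegelG Q u' w' (e / (c * m11)) hQu' hQw' hu'w')⁻¹ = _
          rw [hform]
          apply isomG_ext
          rw [siegelG_coe, siegelG_coe]
          congr 1
          field_simp
      rw [himg, Subgroup.closure_eq]
    · intro b hb hb1
      obtain ⟨d, rfl⟩ := (mem_sgSub Q hQu' hQw' hu'w' b).1 hb
      have hd : d ≠ 0 := by
        rintro rfl
        exact hb1 (siegelG_zero Q u' w' hQu' hQw' hu'w')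
      rw [hcomm_eq]
      have himg : (fun a => a * siegelG Q u' w' d hQu' hQw' hu'w' * a⁻¹
          * (siegelG Q u' w' d hQu' hQw' hu'w')⁻¹) ''
            (sgSub Q u w : Set ↥(Cfsg.isometryGroup F (⇑Q)))
          = (sgSub Q u u' : Set ↥(Cfsg.isometryGroup F (⇑Q))) := by
        ext x
        constructor
        · rintro ⟨a, ha, rfl⟩
          obtain ⟨c, rfl⟩ := (mem_sgSub Q hQu hQw huw a).1 ha
          show siegelG Q u w c hQu hQw huw * siegelG Q u' w' d hQu' hQw' hu'w'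
            * (siegelG Q u w c hQu hQw huw)⁻¹ * (siegelG Q u' w' d hQu' hQw' hu'w')⁻¹ ∈ _
          rw [hform]
          exact siegelG_mem_sgSub Q u u' _ hQu hQu' huu'
        · intro hx
          obtain ⟨e, rfl⟩ := (mem_sgSub Q hQu hQu' huu' x).1 hx
          refine ⟨siegelG Q u w (e / (d * m11)) hQu hQw huw,
            siegelG_mem_sgSub Q u w _ hQu hQw huw, ?_⟩
          show siegelG Q u w (e / (d * m11)) hQu hQw huw * siegelG Q u' w' d hQu' hQw' hu'w'
            * (siegelG Q u w (e / (d * m11)) hQu hQw huw)⁻¹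
            * (siegelG Q u' w' d hQu' hQw' hu'w')⁻¹ = _
          rw [hform]
          apply isomG_ext
          rw [siegelG_coe, siegelG_coe]
          congr 1
          field_simp
      rw [himg, Subgroup.closure_eq]

/-- The three cases for two singular lines. -/
theorem sg_pair (T : Set (Subgroup ↥(Cfsg.isometryGroup F (⇑Q))))
    (hT : ∀ u v : ι → F, LinearIndependent F ![u, v] → Q u = 0 → Q v = 0 →
      QuadraticMap.polar (⇑Q) u v = 0 → sgSub Q u v ∈ T)
    (p₁ r₁ p₂ r₂ : ι → F) (hli₁ : LinearIndependent F ![p₁, r₁]) (hp₁ : Q p₁ = 0)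
    (hr₁ : Q r₁ = 0) (hpr₁ : QuadraticMap.polar (⇑Q) p₁ r₁ = 0)
    (hli₂ : LinearIndependent F ![p₂, r₂]) (hp₂ : Q p₂ = 0)
    (hr₂ : Q r₂ = 0) (hpr₂ : QuadraticMap.polar (⇑Q) p₂ r₂ = 0) :
    (∀ a ∈ sgSub Q p₁ r₁, ∀ b ∈ sgSub Q p₂ r₂, a * b = b * a) ∨
      (Cfsg.IsRankOnePair (sgSub Q p₁ r₁) (sgSub Q p₂ r₂) ∧
        Cfsg.IsPSL2PairOver F (sgSub Q p₁ r₁) (sgSub Q p₂ r₂)) ∨
      Cfsg.RootCommutatorCase T (sgSub Q p₁ r₁) (sgSub Q p₂ r₂) := by
  have hli₁' : LinearIndependent F ![r₁, p₁] := LinearIndependent.pair_symm_iff.1 hli₁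
  have hpr₁' : QuadraticMap.polar (⇑Q) r₁ p₁ = 0 := by rw [QuadraticMap.polar_comm]; exact hpr₁
  have hpr₂' : QuadraticMap.polar (⇑Q) r₂ p₂ = 0 := by rw [QuadraticMap.polar_comm]; exact hpr₂
  by_cases hD : QuadraticMap.polar (⇑Q) p₁ p₂ * QuadraticMap.polar (⇑Q) r₁ r₂
      - QuadraticMap.polar (⇑Q) p₁ r₂ * QuadraticMap.polar (⇑Q) r₁ p₂ = 0
  · have fin : ((∀ a ∈ sgSub Q p₁ r₁, ∀ b ∈ sgSub Q p₂ r₂, a * b = b * a) ∨
        Cfsg.RootCommutatorCase T (sgSub Q p₁ r₁) (sgSub Q p₂ r₂)) →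
        ((∀ a ∈ sgSub Q p₁ r₁, ∀ b ∈ sgSub Q p₂ r₂, a * b = b * a) ∨
        (Cfsg.IsRankOnePair (sgSub Q p₁ r₁) (sgSub Q p₂ r₂) ∧
          Cfsg.IsPSL2PairOver F (sgSub Q p₁ r₁) (sgSub Q p₂ r₂)) ∨
        Cfsg.RootCommutatorCase T (sgSub Q p₁ r₁) (sgSub Q p₂ r₂)) := by
      rintro (h | h)
      · exact Or.inl h
      · exact Or.inr (Or.inr h)
    apply fin
    by_cases h11 : QuadraticMap.polar (⇑Q) p₁ p₂ = 0
    · by_cases h12 : QuadraticMap.polar (⇑Q) p₁ r₂ = 0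
      · by_cases h21 : QuadraticMap.polar (⇑Q) r₁ p₂ = 0
        · by_cases h22 : QuadraticMap.polar (⇑Q) r₁ r₂ = 0
          · left
            exact sg_comm_of_perp Q hp₁ hr₁ hpr₁ hp₂ hr₂ hpr₂ h11 h12 h21 h22
          · have h5 := sg_rank1 Q T hT r₁ p₁ r₂ p₂ hli₁' hr₁ hp₁ hpr₁' hr₂ hp₂ hpr₂' h22
              (by linear_combination hD)
            rw [sgSub_swap Q p₁ r₁, sgSub_swap Q p₂ r₂] at h5
            exact h5
        · have h5 := sg_rank1 Q T hT r₁ p₁ p₂ r₂ hli₁' hr₁ hp₁ hpr₁' hp₂ hr₂ hpr₂ h21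
            (by linear_combination -hD)
          rw [sgSub_swap Q p₁ r₁] at h5
          exact h5
      · have h5 := sg_rank1 Q T hT p₁ r₁ r₂ p₂ hli₁ hp₁ hr₁ hpr₁ hr₂ hp₂ hpr₂' h12
          (by linear_combination -hD)
        rw [sgSub_swap Q p₂ r₂] at h5
        exact h5
    · exact sg_rank1 Q T hT p₁ r₁ p₂ r₂ hli₁ hp₁ hr₁ hpr₁ hp₂ hr₂ hpr₂ h11 hD
  · right
    left
    exact sg_opp Q p₁ r₁ p₂ r₂ hp₁ hr₁ hpr₁ hp₂ hr₂ hpr₂ hD

end SgC

end Cfsg.Agent.Lib.Helper3
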