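import Mathlib
import Cfsg.Prelude
import Cfsg.Agent.Lib.Helper3.SgC
import Cfsg.Agent.Lib.Helper3.OrthForms

/-!
# Long root subgroups of singular lines of the hyperbolic quadratic form: the family is a set
of root subgroups over the field, with connected graph of rank one pairs
-/

set_option autoImplicit false
set_option linter.unusedSectionVars false
set_option linter.unusedSimpArgs false
set_option linter.unusedVariables false

namespace Cfsg.Agent.Lib.Helper3

open Cfsg.Agent.Lib.Helper16 Matrix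

section SgD

variable {ι : Type} [Fintype ι] [DecidableEq ι] {F : Type*} [Field F]
variable (Q : QuadraticForm F (ι → F))

/-- The family of long root subgroups of singular lines. -/
def sgFam : Set (Subgroup ↥(Cfsg.isometryGroup F (⇑Q))) :=
  {A | ∃ p r : ι → F, LinearIndependent F ![p, r] ∧ Q p = 0 ∧ Q r = 0 ∧
    QuadraticMap.polar (⇑Q) p r = 0 ∧ A = sgSub Q p r}

theorem sgFam_mem (u v : ι → F) (hli : LinearIndependent F ![u, v]) (hu : Q u = 0)
    (hv : Q v = 0) (huv : QuadraticMap.polar (⇑Q) u v = 0) : sgSub Q u v ∈ sgFam Q :=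
  ⟨u, v, hli, hu, hv, huv, rfl⟩

theorem sgFam_conj (A : Subgroup ↥(Cfsg.isometryGroup F (⇑Q))) (hA : A ∈ sgFam Q)
    (g : ↥(Cfsg.isometryGroup F (⇑Q))) : Cfsg.conjBy A g ∈ sgFam Q := by
  obtain ⟨p, r, hli, hp, hr, hpr, rfl⟩ := hA
  rw [conjBy_sgSub]
  refine ⟨_, _, ?_, ?_, ?_, ?_, rfl⟩
  · rw [LinearIndependent.pair_iff]
    intro s t hst
    have h1 : ((g : Matrix.GeneralLinearGroup ι F) : Matrix ι ι F) *ᵥ (s • p + t • r) = 0 := by
      rw [Matrix.mulVec_add, Matrix.mulVec_smul, Matrix.mulVec_smul]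
      exact hst
    have h2 : s • p + t • r = 0 := by
      have h3 := isomG_inv_mulVec' Q g (s • p + t • r)
      rw [h1, Matrix.mulVec_zero] at h3
      exact h3.symm
    exact LinearIndependent.pair_iff.1 hli s t h2
  · rw [isomG_map]
    exact hp
  · rw [isomG_map]
    exact hr
  · rw [isomG_polar]
    exact hpr

theorem gram_symm (p₁ r₁ p₂ r₂ : ι → F) :
    QuadraticMap.polar (⇑Q) p₂ p₁ * QuadraticMap.polar (⇑Q) r₂ r₁
      - QuadraticMap.polar (⇑Q) p₂ r₁ * QuadraticMap.polar (⇑Q) r₂ p₁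
    = QuadraticMap.polar (⇑Q) p₁ p₂ * QuadraticMap.polar (⇑Q) r₁ r₂
      - QuadraticMap.polar (⇑Q) p₁ r₂ * QuadraticMap.polar (⇑Q) r₁ p₂ := by
  rw [QuadraticMap.polar_comm (⇑Q) p₂ p₁, QuadraticMap.polar_comm (⇑Q) r₂ r₁,
    QuadraticMap.polar_comm (⇑Q) p₂ r₁, QuadraticMap.polar_comm (⇑Q) r₂ p₁]
  ring

theorem li_of_opp (p₁ r₁ p₂ r₂ : ι → F)
    (hD : QuadraticMap.polar (⇑Q) p₁ p₂ * QuadraticMap.polar (⇑Q) r₁ r₂
      - QuadraticMap.polar (⇑Q) p₁ r₂ * QuadraticMap.polar (⇑Q) r₁ p₂ ≠ 0) :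
    LinearIndependent F ![p₂, r₂] := by
  rw [LinearIndependent.pair_iff]
  intro s t hst
  have h1 : QuadraticMap.polar (⇑Q) p₁ (s • p₂ + t • r₂) = 0 := by
    rw [hst, QuadraticMap.polar_zero_right]
  have h2 : QuadraticMap.polar (⇑Q) r₁ (s • p₂ + t • r₂) = 0 := by
    rw [hst, QuadraticMap.polar_zero_right]
  rw [QuadraticMap.polar_add_right, QuadraticMap.polar_smul_right,
    QuadraticMap.polar_smul_right, smul_eq_mul, smul_eq_mul] at h1 h2
  constructor
  · by_contra hs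
    apply hD
    have h5 : s * (QuadraticMap.polar (⇑Q) p₁ p₂ * QuadraticMap.polar (⇑Q) r₁ r₂
        - QuadraticMap.polar (⇑Q) p₁ r₂ * QuadraticMap.polar (⇑Q) r₁ p₂) = 0 := by
      linear_combination (QuadraticMap.polar (⇑Q) r₁ r₂) * h1
        - (QuadraticMap.polar (⇑Q) p₁ r₂) * h2
    exact (mul_eq_zero.1 h5).resolve_left hs
  · by_contra ht
    apply hD
    have h5 : t * (QuadraticMap.polar (⇑Q) p₁ p₂ * QuadraticMap.polar (⇑Q) r₁ r₂
        - QuadraticMap.polar (⇑Q) p₁ r₂ * QuadraticMap.polar (⇑Q) r₁ p₂) = 0 := by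
      linear_combination (QuadraticMap.polar (⇑Q) p₁ p₂) * h2
        - (QuadraticMap.polar (⇑Q) r₁ p₂) * h1
    exact (mul_eq_zero.1 h5).resolve_left ht

theorem sg_adj (p₁ r₁ p₂ r₂ : ι → F) (hp₁ : Q p₁ = 0) (hr₁ : Q r₁ = 0)
    (hpr₁ : QuadraticMap.polar (⇑Q) p₁ r₁ = 0) (hp₂ : Q p₂ = 0) (hr₂ : Q r₂ = 0)
    (hpr₂ : QuadraticMap.polar (⇑Q) p₂ r₂ = 0)
    (hD : QuadraticMap.polar (⇑Q) p₁ p₂ * QuadraticMap.polar (⇑Q) r₁ r₂
      - QuadraticMap.polar (⇑Q) p₁ r₂ * QuadraticMap.polar (⇑Q) r₁ p₂ ≠ 0) :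
    Cfsg.FAdj (sgFam Q) (sgSub Q p₁ r₁) (sgSub Q p₂ r₂) := by
  have hli₂ := li_of_opp Q p₁ r₁ p₂ r₂ hD
  have hli₁ := li_of_opp Q p₂ r₂ p₁ r₁ (by rw [gram_symm]; exact hD)
  exact ⟨sgFam_mem Q p₁ r₁ hli₁ hp₁ hr₁ hpr₁, sgFam_mem Q p₂ r₂ hli₂ hp₂ hr₂ hpr₂,
    (sg_opp Q p₁ r₁ p₂ r₂ hp₁ hr₁ hpr₁ hp₂ hr₂ hpr₂ hD).1⟩

theorem fadj_symm {G : Type*} [Group G] {S : Set (Subgroup G)} {A B : Subgroup G}
    (h : Cfsg.FAdj S A B) : Cfsg.FAdj S B A :=
  ⟨h.2.1, h.1, Cfsg.RankOnePair_symm h.2.2⟩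

variable (hnd : ∀ x : ι → F, (∀ y, QuadraticMap.polar (⇑Q) x y = 0) → x = 0)

include hnd in
theorem sgFam_eq :
    {A : Subgroup ↥(Cfsg.isometryGroup F (⇑Q)) | ∃ p r : ι → F, LinearIndependent F ![p, r] ∧
      Q p = 0 ∧ Q r = 0 ∧ Q (p + r) = 0 ∧
      A = Subgroup.closure {σ : ↥(Cfsg.isometryGroup F (⇑Q)) | ∀ v : ι → F,
        Q (v + p) - Q v - Q p = 0 → Q (v + r) - Q v - Q r = 0 →
          ((σ : Matrix.GeneralLinearGroup ι F) : Matrix ι ι F) *ᵥ v = v}} = sgFam Q := by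
  ext A
  constructor
  · rintro ⟨p, r, hli, hp, hr, hpr, hA⟩
    have hpr' : QuadraticMap.polar (⇑Q) p r = 0 := by
      unfold QuadraticMap.polar
      rw [hpr, hp, hr]
      simp
    refine ⟨p, r, hli, hp, hr, hpr', ?_⟩
    rw [hA]
    exact congrArg Subgroup.closure (fixSet_eq Q hnd p r hli hp hr hpr')
  · rintro ⟨p, r, hli, hp, hr, hpr, hA⟩
    have hpr' : Q (p + r) = 0 := by
      have h := hpr
      unfold QuadraticMap.polar at h
      rw [hp, hr] at h
      simpa using h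
    refine ⟨p, r, hli, hp, hr, hpr', ?_⟩
    rw [hA]
    exact (congrArg Subgroup.closure (fixSet_eq Q hnd p r hli hp hr hpr)).symm

include hnd in
theorem sgSub_ne_bot (p r : ι → F) (hli : LinearIndependent F ![p, r]) (hp : Q p = 0)
    (hr : Q r = 0) (hpr : QuadraticMap.polar (⇑Q) p r = 0) : sgSub Q p r ≠ ⊥ := by
  intro h
  obtain ⟨a, ha1, ha2⟩ := exists_dual_two Q hnd p r hli
  have h1 : siegelG Q p r 1 hp hr hpr ∈ sgSub Q p r := siegelG_mem_sgSub Q p r 1 hp hr hpr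
  rw [h, Subgroup.mem_bot] at h1
  have h2 : (((siegelG Q p r 1 hp hr hpr : ↥(Cfsg.isometryGroup F (⇑Q))) :
      Matrix.GeneralLinearGroup ι F) : Matrix ι ι F) *ᵥ a = a := by
    rw [h1, isomG_one_coe, Matrix.one_mulVec]
  rw [siegelG_mulVec, ha1, ha2] at h2
  have h3 : r = 0 := by
    funext i
    have h4 := congrFun h2 i
    simp only [Pi.add_apply, Pi.sub_apply, Pi.smul_apply, smul_eq_mul, Pi.zero_apply] at h4 ⊢
    linear_combination h4
  have h5 := LinearIndependent.pair_iff.1 hli 0 1 (by rw [h3]; simp)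
  exact one_ne_zero h5.2

include hnd in
theorem sgFam_kRoot :
    Cfsg.IsKRootSubgroupSet F ((fun A : Subgroup ↥(Cfsg.isometryGroup F (⇑Q)) =>
      A.subgroupOf (⨆ B ∈ sgFam Q, B)) '' sgFam Q) := by
  apply root_transfer2 (sgFam Q) F
  · rintro A ⟨p, r, hli, hp, hr, hpr, rfl⟩
    exact sgSub_commutative Q hp hr hpr
  · rintro A ⟨p, r, hli, hp, hr, hpr, rfl⟩
    exact sgSub_ne_bot Q hnd p r hli hp hr hpr
  · exact sgFam_conj Q
  · rintro A ⟨p₁, r₁, hli₁, hp₁, hr₁, hpr₁, rfl⟩ B ⟨p₂, r₂, hli₂, hp₂, hr₂, hpr₂, rfl⟩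
    exact sg_pair Q (sgFam Q) (sgFam_mem Q) p₁ r₁ p₂ r₂ hli₁ hp₁ hr₁ hpr₁ hli₂ hp₂ hr₂ hpr₂

end SgD

section Plus

variable {F : Type*} [Field F] (n : ℕ)

theorem sg_swap_ne_swap {a b : Fin n ⊕ Fin n} (h : a ≠ b) : Sum.swap a ≠ Sum.swap b := by
  intro h'
  apply h
  have h2 := congrArg Sum.swap h'
  rw [Sum.swap_swap, Sum.swap_swap] at h2
  exact h2

theorem sg_ne_swap_symm {a b : Fin n ⊕ Fin n} (h : a ≠ Sum.swap b) : b ≠ Sum.swap a := by
  intro h'
  apply h
  rw [h', Sum.swap_swap]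

theorem sg_swap_ne {a b : Fin n ⊕ Fin n} (h : a ≠ Sum.swap b) : Sum.swap a ≠ b := by
  intro h'
  apply h
  rw [← h', Sum.swap_swap]

theorem sg_swap_ne_self (a : Fin n ⊕ Fin n) : Sum.swap a ≠ a := by
  rcases a with j | j <;> simp

theorem plus_polar_single (x : Fin n ⊕ Fin n → F) (b : Fin n ⊕ Fin n) :
    QuadraticMap.polar (⇑(plusQ n F)) x (Pi.single b 1) = x (Sum.swap b) := by
  rw [plusQ_coe]
  unfold QuadraticMap.polar Cfsg.quadFormPlus
  rcases b with j | j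
  · simp [Pi.single_apply, add_mul, mul_add, Finset.sum_add_distrib]
  · simp [Pi.single_apply, add_mul, mul_add, Finset.sum_add_distrib]

theorem plus_single (b : Fin n ⊕ Fin n) : plusQ n F (Pi.single b 1) = 0 := by
  have h : (⇑(plusQ n F)) (Pi.single b 1) = 0 := by
    rw [plusQ_coe]
    unfold Cfsg.quadFormPlus
    rcases b with j | j
    · simp [Pi.single_apply]
    · simp [Pi.single_apply]
  exact h

theorem plus_two (c : Fin n ⊕ Fin n) (s t : F) :
    plusQ n F (s • Pi.single c 1 + t • Pi.single (Sum.swap c) 1) = s * t := by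
  rw [QuadraticMap.map_add (⇑(plusQ n F)), QuadraticMap.map_smul, QuadraticMap.map_smul,
    plus_single, plus_single, QuadraticMap.polar_smul_left, QuadraticMap.polar_smul_right,
    plus_polar_single, Sum.swap_swap, Pi.single_eq_same]
  simp

theorem plus_polar_two (c : Fin n ⊕ Fin n) (s t s' t' : F) :
    QuadraticMap.polar (⇑(plusQ n F)) (s • Pi.single c 1 + t • Pi.single (Sum.swap c) 1)
      (s' • Pi.single c 1 + t' • Pi.single (Sum.swap c) 1) = s * t' + t * s' := by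
  have h1 : QuadraticMap.polar (⇑(plusQ n F)) (Pi.single c (1 : F)) (Pi.single c 1) = 0 := by
    rw [plus_polar_single, Pi.single_apply, if_neg (sg_swap_ne_self n c)]
  have h2 : QuadraticMap.polar (⇑(plusQ n F)) (Pi.single c (1 : F))
      (Pi.single (Sum.swap c) 1) = 1 := by
    rw [plus_polar_single, Sum.swap_swap, Pi.single_eq_same]
  have h3 : QuadraticMap.polar (⇑(plusQ n F)) (Pi.single (Sum.swap c) (1 : F))
      (Pi.single c 1) = 1 := by
    rw [plus_polar_single, Pi.single_eq_same]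
  have h4 : QuadraticMap.polar (⇑(plusQ n F)) (Pi.single (Sum.swap c) (1 : F))
      (Pi.single (Sum.swap c) 1) = 0 := by
    rw [plus_polar_single, Sum.swap_swap, Pi.single_apply, if_neg (sg_swap_ne_self n c).symm]
  simp only [QuadraticMap.polar_add_left, QuadraticMap.polar_add_right,
    QuadraticMap.polar_smul_left, QuadraticMap.polar_smul_right, h1, h2, h3, h4, smul_eq_mul]
  ring

/-- Every singular line has a non-singular Gram matrix against some coordinate line. -/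
theorem plus_exists_opp (p r : Fin n ⊕ Fin n → F) (hli : LinearIndependent F ![p, r])
    (hp : plusQ n F p = 0) (hr : plusQ n F r = 0)
    (hpr : QuadraticMap.polar (⇑(plusQ n F)) p r = 0) :
    ∃ c d : Fin n ⊕ Fin n, d ≠ c ∧ d ≠ Sum.swap c ∧ p c * r d - p d * r c ≠ 0 := by
  have hpair := LinearIndependent.pair_iff.1 hli
  have hp0 : p ≠ 0 := by
    rintro rfl
    have h5 := hpair 1 0 (by simp)
    exact one_ne_zero h5.1
  obtain ⟨c, hc⟩ : ∃ c, p c ≠ 0 := by
    by_contra hcon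
    push Not at hcon
    exact hp0 (funext hcon)
  obtain ⟨d, hd⟩ : ∃ d, p c * r d - p d * r c ≠ 0 := by
    by_contra hcon
    push Not at hcon
    have h1 : (-r c) • p + (p c) • r = 0 := by
      funext e
      simp only [Pi.add_apply, Pi.smul_apply, smul_eq_mul, Pi.zero_apply]
      linear_combination hcon e
    exact hc (hpair _ _ h1).2
  have hdc : d ≠ c := by
    rintro rfl
    apply hd
    ring
  by_cases hds : d = Sum.swap c
  swap
  · exact ⟨c, d, hdc, hds, hd⟩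
  subst hds
  obtain ⟨e, hec, hes, hne⟩ : ∃ e, e ≠ c ∧ e ≠ Sum.swap c ∧ (p e ≠ 0 ∨ r e ≠ 0) := by
    by_contra hcon
    push Not at hcon
    have hsupp : ∀ q : Fin n ⊕ Fin n → F, (∀ e, e ≠ c → e ≠ Sum.swap c → q e = 0) →
        q = q c • Pi.single c 1 + q (Sum.swap c) • Pi.single (Sum.swap c) 1 := by
      intro q hq
      funext e
      simp only [Pi.add_apply, Pi.smul_apply, smul_eq_mul, Pi.single_apply]
      by_cases h1 : e = c
      · subst h1
        simp [(sg_swap_ne_self n e).symm]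
      · by_cases h2 : e = Sum.swap c
        · subst h2
          simp [sg_swap_ne_self n c]
        · simp [h1, h2, hq e h1 h2]
    have hpe := hsupp p (fun e h1 h2 => (hcon e h1 h2).1)
    have hre := hsupp r (fun e h1 h2 => (hcon e h1 h2).2)
    have hQp : p c * p (Sum.swap c) = 0 := by
      have h := plus_two n c (p c) (p (Sum.swap c))
      rw [← hpe, hp] at h
      exact h.symm
    have hP : p c * r (Sum.swap c) + p (Sum.swap c) * r c = 0 := by
      have h := plus_polar_two n c (p c) (p (Sum.swap c)) (r c) (r (Sum.swap c))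
      rw [← hpe, ← hre, hpr] at h
      exact h.symm
    apply hd
    have h6 : (p c * r (Sum.swap c) - p (Sum.swap c) * r c) ^ 2 = 0 := by
      linear_combination (p c * r (Sum.swap c) + p (Sum.swap c) * r c) * hP
        - 4 * (r c * r (Sum.swap c)) * hQp
    exact pow_eq_zero_iff (two_ne_zero) |>.1 h6
  by_cases h1 : p c * r e - p e * r c = 0
  · refine ⟨Sum.swap c, e, hes, ?_, ?_⟩
    · rw [Sum.swap_swap]
      exact hec
    · intro h2
      have h3 : r e * (p c * r (Sum.swap c) - p (Sum.swap c) * r c) = 0 := by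
        linear_combination (r (Sum.swap c)) * h1 - (r c) * h2
      have h4 : p e * (p c * r (Sum.swap c) - p (Sum.swap c) * r c) = 0 := by
        linear_combination (p (Sum.swap c)) * h1 - (p c) * h2
      rcases hne with h | h
      · exact h ((mul_eq_zero.1 h4).resolve_right hd)
      · exact h ((mul_eq_zero.1 h3).resolve_right hd)
  · exact ⟨c, e, hec, hes, h1⟩

theorem plus_adj_coord (p r : Fin n ⊕ Fin n → F) (hp : plusQ n F p = 0) (hr : plusQ n F r = 0)
    (hpr : QuadraticMap.polar (⇑(plusQ n F)) p r = 0) (c d : Fin n ⊕ Fin n)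
    (hdc' : d ≠ Sum.swap c) (hD : p c * r d - p d * r c ≠ 0) :
    Cfsg.FAdj (sgFam (plusQ n F)) (sgSub (plusQ n F) p r)
      (sgSub (plusQ n F) (Pi.single (Sum.swap c) 1) (Pi.single (Sum.swap d) 1)) := by
  apply sg_adj (plusQ n F) p r _ _ hp hr hpr (plus_single n _) (plus_single n _)
  · rw [plus_polar_single, Sum.swap_swap, Pi.single_apply, if_neg hdc']
  · rw [plus_polar_single, plus_polar_single, plus_polar_single, plus_polar_single,
      Sum.swap_swap, Sum.swap_swap]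
    exact hD

theorem plus_move (A B C : Fin n ⊕ Fin n) (hAB : A ≠ B) (hAB' : A ≠ Sum.swap B)
    (hCB : C ≠ B) (hCB' : C ≠ Sum.swap B) (hCA : C ≠ A) (hCA' : C ≠ Sum.swap A) :
    Relation.ReflTransGen (Cfsg.FAdj (sgFam (plusQ n F)))
      (sgSub (plusQ n F) (Pi.single (Sum.swap A) 1) (Pi.single (Sum.swap B) 1))
      (sgSub (plusQ n F) (Pi.single (Sum.swap C) 1) (Pi.single (Sum.swap B) 1)) := by
  obtain ⟨x, hx⟩ : ∃ x : Fin n ⊕ Fin n → F, x = Pi.single A 1 + Pi.single C 1 := ⟨_, rfl⟩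
  obtain ⟨y, hy⟩ : ∃ y : Fin n ⊕ Fin n → F, y = Pi.single B 1 := ⟨_, rfl⟩
  have hQx : plusQ n F x = 0 := by
    rw [hx, QuadraticMap.map_add (⇑(plusQ n F)), plus_single, plus_single, plus_polar_single,
      Pi.single_apply, if_neg (sg_swap_ne n hCA'), add_zero, add_zero]
  have hQy : plusQ n F y = 0 := by
    rw [hy]
    exact plus_single n B
  have hxy : QuadraticMap.polar (⇑(plusQ n F)) x y = 0 := by
    rw [hy, plus_polar_single, hx, Pi.add_apply, Pi.single_apply, Pi.single_apply,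
      if_neg hAB'.symm, if_neg hCB'.symm, add_zero]
  have hxA : x A = 1 := by
    rw [hx]
    simp [hCA.symm]
  have hxB : x B = 0 := by
    rw [hx]
    simp [hAB.symm, hCB.symm]
  have hxC : x C = 1 := by
    rw [hx]
    simp [hCA]
  have hyA : y A = 0 := by
    rw [hy]
    simp [hAB]
  have hyB : y B = 1 := by
    rw [hy]
    simp
  have hyC : y C = 0 := by
    rw [hy]
    simp [hCB]
  have s1 : Cfsg.FAdj (sgFam (plusQ n F)) (sgSub (plusQ n F) x y)
      (sgSub (plusQ n F) (Pi.single (Sum.swap A) 1) (Pi.single (Sum.swap B) 1)) := by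
    apply sg_adj (plusQ n F) x y _ _ hQx hQy hxy (plus_single n _) (plus_single n _)
    · rw [plus_polar_single, Sum.swap_swap, Pi.single_apply, if_neg (sg_ne_swap_symm n hAB')]
    · rw [plus_polar_single, plus_polar_single, plus_polar_single, plus_polar_single,
        Sum.swap_swap, Sum.swap_swap, hxA, hxB, hyA, hyB]
      simp
  have s2 : Cfsg.FAdj (sgFam (plusQ n F)) (sgSub (plusQ n F) x y)
      (sgSub (plusQ n F) (Pi.single (Sum.swap C) 1) (Pi.single (Sum.swap B) 1)) := by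
    apply sg_adj (plusQ n F) x y _ _ hQx hQy hxy (plus_single n _) (plus_single n _)
    · rw [plus_polar_single, Sum.swap_swap, Pi.single_apply, if_neg (sg_ne_swap_symm n hCB')]
    · rw [plus_polar_single, plus_polar_single, plus_polar_single, plus_polar_single,
        Sum.swap_swap, Sum.swap_swap, hxC, hxB, hyC, hyB]
      simp
  exact (Relation.ReflTransGen.single (fadj_symm s1)).trans (Relation.ReflTransGen.single s2)

theorem plus_exists_other (hn : 3 ≤ n) (A B : Fin n ⊕ Fin n) :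
    ∃ E : Fin n ⊕ Fin n, E ≠ A ∧ E ≠ Sum.swap A ∧ E ≠ B ∧ E ≠ Sum.swap B := by
  obtain ⟨i, hi1, hi2⟩ : ∃ i : Fin n, i ≠ Sum.elim id id A ∧ i ≠ Sum.elim id id B := by
    have hc : ({Sum.elim id id A, Sum.elim id id B} : Finset (Fin n)).card
        < (Finset.univ : Finset (Fin n)).card := by
      rw [Finset.card_univ, Fintype.card_fin]
      exact lt_of_le_of_lt Finset.card_le_two (by omega)
    obtain ⟨i, -, hi⟩ := Finset.exists_mem_notMem_of_card_lt_card hc
    simp only [Finset.mem_insert, Finset.mem_singleton, not_or] at hi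
    exact ⟨i, hi⟩
  refine ⟨Sum.inl i, ?_, ?_, ?_, ?_⟩
  · rintro rfl
    exact hi1 rfl
  · intro h
    apply hi1
    rcases A with j | j
    · simp at h
    · simp at h
      simp [h]
  · rintro rfl
    exact hi2 rfl
  · intro h
    apply hi2
    rcases B with j | j
    · simp at h
    · simp at h
      simp [h]

theorem plus_step (hn : 3 ≤ n) (A B C : Fin n ⊕ Fin n) (hAB : A ≠ B) (hAB' : A ≠ Sum.swap B)
    (hCB : C ≠ B) (hCB' : C ≠ Sum.swap B) :
    Relation.ReflTransGen (Cfsg.FAdj (sgFam (plusQ n F)))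
      (sgSub (plusQ n F) (Pi.single (Sum.swap A) 1) (Pi.single (Sum.swap B) 1))
      (sgSub (plusQ n F) (Pi.single (Sum.swap C) 1) (Pi.single (Sum.swap B) 1)) := by
  by_cases h1 : C = A
  · subst h1
    exact Relation.ReflTransGen.refl
  by_cases h2 : C = Sum.swap A
  · subst h2
    obtain ⟨E, hEA, hEA', hEB, hEB'⟩ := plus_exists_other n hn A B
    exact (plus_move n A B E hAB hAB' hEB hEB' hEA hEA').trans
      (plus_move n E B (Sum.swap A) hEB hEB' hCB hCB' hEA'.symm (sg_swap_ne_swap n hEA.symm))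
  · exact plus_move n A B C hAB hAB' hCB hCB' h1 h2

theorem plus_conn (hn : 3 ≤ n) (A B C D : Fin n ⊕ Fin n) (hAB : A ≠ B)
    (hAB' : A ≠ Sum.swap B) (hCD : C ≠ D) (hCD' : C ≠ Sum.swap D) :
    Relation.ReflTransGen (Cfsg.FAdj (sgFam (plusQ n F)))
      (sgSub (plusQ n F) (Pi.single (Sum.swap A) 1) (Pi.single (Sum.swap B) 1))
      (sgSub (plusQ n F) (Pi.single (Sum.swap C) 1) (Pi.single (Sum.swap D) 1)) := by
  by_cases h : C ≠ B ∧ C ≠ Sum.swap B
  · obtain ⟨h1, h2⟩ := h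
    have s1 := plus_step (F := F) n hn A B C hAB hAB' h1 h2
    have s2 := plus_step (F := F) n hn B C D h1.symm (sg_ne_swap_symm n h2) hCD.symm
      (sg_ne_swap_symm n hCD')
    rw [sgSub_swap (plusQ n F) (Pi.single (Sum.swap C) 1) (Pi.single (Sum.swap B) 1),
      sgSub_swap (plusQ n F) (Pi.single (Sum.swap C) 1) (Pi.single (Sum.swap D) 1)] at s2
    exact s1.trans s2
  · have hDB : D ≠ B ∧ D ≠ Sum.swap B := by
      by_cases h1 : C = B
      · subst h1
        exact ⟨hCD.symm, sg_ne_swap_symm n hCD'⟩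
      · have h2 : C = Sum.swap B := by
          by_contra h2
          exact h ⟨h1, h2⟩
        subst h2
        refine ⟨?_, hCD.symm⟩
        intro h3
        apply hCD'
        rw [h3]
    obtain ⟨h1, h2⟩ := hDB
    have s1 := plus_step (F := F) n hn A B D hAB hAB' h1 h2
    have s2 := plus_step (F := F) n hn B D C h1.symm (sg_ne_swap_symm n h2) hCD hCD'
    rw [sgSub_swap (plusQ n F) (Pi.single (Sum.swap D) 1) (Pi.single (Sum.swap B) 1)] at s2
    exact s1.trans s2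

theorem plus_connected (hn : 3 ≤ n) :
    Cfsg.IsConnectedFamily (Cfsg.FAdj (sgFam (plusQ n F))) (sgFam (plusQ n F)) := by
  rintro A ⟨p₁, r₁, hli₁, hp₁, hr₁, hpr₁, rfl⟩ B ⟨p₂, r₂, hli₂, hp₂, hr₂, hpr₂, rfl⟩
  obtain ⟨c₁, d₁, h1, h2, h3⟩ := plus_exists_opp n p₁ r₁ hli₁ hp₁ hr₁ hpr₁
  obtain ⟨c₂, d₂, h4, h5, h6⟩ := plus_exists_opp n p₂ r₂ hli₂ hp₂ hr₂ hpr₂
  have s1 := plus_adj_coord n p₁ r₁ hp₁ hr₁ hpr₁ c₁ d₁ h2 h3
  have s3 := plus_adj_coord n p₂ r₂ hp₂ hr₂ hpr₂ c₂ d₂ h5 h6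
  have s2 := plus_conn (F := F) n hn c₁ d₁ c₂ d₂ h1.symm (sg_ne_swap_symm n h2) h4.symm
    (sg_ne_swap_symm n h5)
  exact (Relation.ReflTransGen.single s1).trans
    (s2.trans (Relation.ReflTransGen.single (fadj_symm s3)))

end Plus

section Main

variable {F : Type*} [Field F]

/-- The statement for the hyperbolic form, with the form as a plain function. -/
theorem sg_main (n : ℕ) (hn : 3 ≤ n) (Qf : (Fin n ⊕ Fin n → F) → F)
    (hQf : ⇑(plusQ n F) = Qf) :
    Cfsg.IsKRootSubgroupSet F ((fun A : Subgroup ↥(Cfsg.isometryGroup F (Qf)) => A.subgroupOf (⨆ B ∈ {A : Subgroup ↥(Cfsg.isometryGroup F (Qf)) | ∃ p r : Fin n ⊕ Fin n → F, LinearIndependent F ![p, r] ∧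
          Qf p = 0 ∧ Qf r = 0 ∧
          Qf (p + r) = 0 ∧
          A = Subgroup.closure {σ : ↥(Cfsg.isometryGroup F (Qf)) | ∀ v : Fin n ⊕ Fin n → F,
            Qf (v + p) - Qf v - Qf p = 0 →
            Qf (v + r) - Qf v - Qf r = 0 →
              ((σ : Matrix.GeneralLinearGroup (Fin n ⊕ Fin n) F) : Matrix (Fin n ⊕ Fin n) (Fin n ⊕ Fin n) F) *ᵥ v = v}}, B)) ''
      {A : Subgroup ↥(Cfsg.isometryGroup F (Qf)) | ∃ p r : Fin n ⊕ Fin n → F, LinearIndependent F ![p, r] ∧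
          Qf p = 0 ∧ Qf r = 0 ∧
          Qf (p + r) = 0 ∧
          A = Subgroup.closure {σ : ↥(Cfsg.isometryGroup F (Qf)) | ∀ v : Fin n ⊕ Fin n → F,
            Qf (v + p) - Qf v - Qf p = 0 →
            Qf (v + r) - Qf v - Qf r = 0 →
              ((σ : Matrix.GeneralLinearGroup (Fin n ⊕ Fin n) F) : Matrix (Fin n ⊕ Fin n) (Fin n ⊕ Fin n) F) *ᵥ v = v}}) ∧
    Cfsg.IsConnectedFamily (Cfsg.FAdj {A : Subgroup ↥(Cfsg.isometryGroup F (Qf)) | ∃ p r : Fin n ⊕ Fin n → F, LinearIndependent F ![p, r] ∧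
          Qf p = 0 ∧ Qf r = 0 ∧
          Qf (p + r) = 0 ∧
          A = Subgroup.closure {σ : ↥(Cfsg.isometryGroup F (Qf)) | ∀ v : Fin n ⊕ Fin n → F,
            Qf (v + p) - Qf v - Qf p = 0 →
            Qf (v + r) - Qf v - Qf r = 0 →
              ((σ : Matrix.GeneralLinearGroup (Fin n ⊕ Fin n) F) : Matrix (Fin n ⊕ Fin n) (Fin n ⊕ Fin n) F) *ᵥ v = v}})
      {A : Subgroup ↥(Cfsg.isometryGroup F (Qf)) | ∃ p r : Fin n ⊕ Fin n → F, LinearIndependent F ![p, r] ∧
          Qf p = 0 ∧ Qf r = 0 ∧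
          Qf (p + r) = 0 ∧
          A = Subgroup.closure {σ : ↥(Cfsg.isometryGroup F (Qf)) | ∀ v : Fin n ⊕ Fin n → F,
            Qf (v + p) - Qf v - Qf p = 0 →
            Qf (v + r) - Qf v - Qf r = 0 →
              ((σ : Matrix.GeneralLinearGroup (Fin n ⊕ Fin n) F) : Matrix (Fin n ⊕ Fin n) (Fin n ⊕ Fin n) F) *ᵥ v = v}} := by
  subst hQf
  rw [sgFam_eq (plusQ n F) (plusQ_nondeg n)]
  exact ⟨sgFam_kRoot (plusQ n F) (plusQ_nondeg n), plus_connected n hn⟩

end Main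

end Cfsg.Agent.Lib.Helper3
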