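import Mathlib
import Cfsg.Prelude
import Cfsg.Agent.S0764
import Cfsg.Agent.S0765
import Cfsg.Agent.S0766
import Cfsg.Agent.S0767
import Cfsg.Agent.S0768
import Cfsg.Agent.Lib.Helper3.SpTools

set_option autoImplicit false

namespace Cfsg.Agent.Lib.Helper3

open Matrix Cfsg
open scoped LinearAlgebra.Projectivization
open scoped Pointwise

section spiwa

variable (m : ℕ) (F : Type*) [Field F]

/-- the symplectic group inside the general linear group -/
noncomputable def spToGL :
    Matrix.symplecticGroup (Fin m) F →* Matrix.GeneralLinearGroup (Fin m ⊕ Fin m) F :=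
  (Units.map (Matrix.symplecticGroup (Fin m) F).subtype).comp
    (toUnits (G := Matrix.symplecticGroup (Fin m) F)).toMonoidHom

theorem spToGL_val (A : Matrix.symplecticGroup (Fin m) F) :
    ((spToGL m F A : Matrix.GeneralLinearGroup (Fin m ⊕ Fin m) F) :
      Matrix (Fin m ⊕ Fin m) (Fin m ⊕ Fin m) F) = A := rfl

theorem spToGL_mem (A : Matrix.symplecticGroup (Fin m) F) : spToGL m F A ∈ spGL m F := by
  intro u v
  exact Cfsg.Agent.S0766.form_pres m A u v

/-- the symplectic group onto the form-preserving subgroup of the general linear group -/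
noncomputable def spToSpGL : Matrix.symplecticGroup (Fin m) F →* ↥(spGL m F) :=
  (spToGL m F).codRestrict (spGL m F) (spToGL_mem m F)

theorem spToSpGL_val (A : Matrix.symplecticGroup (Fin m) F) :
    (((spToSpGL m F A : ↥(spGL m F)) : Matrix.GeneralLinearGroup (Fin m ⊕ Fin m) F) :
      Matrix (Fin m ⊕ Fin m) (Fin m ⊕ Fin m) F) = A := rfl

theorem mem_symplectic_of_form_pres (A : Matrix (Fin m ⊕ Fin m) (Fin m ⊕ Fin m) F)
    (h : ∀ u v, sympForm m F (A *ᵥ u) (A *ᵥ v) = sympForm m F u v) :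
    A ∈ Matrix.symplecticGroup (Fin m) F := by
  rw [SymplecticGroup.mem_iff']
  apply Matrix.mulVec_injective
  funext v
  apply dotProduct_eq
  intro u
  have h1 := h u v
  unfold sympForm at h1
  rw [dotProduct_comm, dotProduct_comm (Matrix.J (Fin m) F *ᵥ v), ← h1, ← Matrix.mulVec_mulVec,
    ← Matrix.mulVec_mulVec, Matrix.dotProduct_mulVec, Matrix.vecMul_transpose]

theorem spToSpGL_surjective : Function.Surjective (spToSpGL m F) := by
  rintro ⟨g, hg⟩
  have hmem : (g : Matrix (Fin m ⊕ Fin m) (Fin m ⊕ Fin m) F) ∈ Matrix.symplecticGroup (Fin m) F :=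
    mem_symplectic_of_form_pres m F _ hg
  refine ⟨⟨_, hmem⟩, ?_⟩
  apply Subtype.ext
  apply Units.ext
  rfl

/-- the action of the symplectic group on projective points -/
@[reducible] noncomputable def spAct :
    MulAction (Matrix.symplecticGroup (Fin m) F) (ℙ F (Fin m ⊕ Fin m → F)) :=
  MulAction.compHom _ (spToSpGL m F)

attribute [local instance] spAct

theorem spAct_mk (A : Matrix.symplecticGroup (Fin m) F) (v : Fin m ⊕ Fin m → F) (hv : v ≠ 0)
    (hv' : (A : Matrix (Fin m ⊕ Fin m) (Fin m ⊕ Fin m) F) *ᵥ v ≠ 0) :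
    A • Projectivization.mk F v hv
      = Projectivization.mk F ((A : Matrix (Fin m ⊕ Fin m) (Fin m ⊕ Fin m) F) *ᵥ v) hv' := rfl

theorem sp_mulVec_ne_zero (A : Matrix.symplecticGroup (Fin m) F) (v : Fin m ⊕ Fin m → F)
    (hv : v ≠ 0) : (A : Matrix (Fin m ⊕ Fin m) (Fin m ⊕ Fin m) F) *ᵥ v ≠ 0 := by
  intro h0
  apply hv
  have h1 : ((A⁻¹ : Matrix.symplecticGroup (Fin m) F) : Matrix (Fin m ⊕ Fin m) (Fin m ⊕ Fin m) F)
      *ᵥ ((A : Matrix (Fin m ⊕ Fin m) (Fin m ⊕ Fin m) F) *ᵥ v) = v := by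
    rw [Matrix.mulVec_mulVec, ← Submonoid.coe_mul, inv_mul_cancel, Submonoid.coe_one,
      Matrix.one_mulVec]
  rw [← h1, h0, Matrix.mulVec_zero]

theorem sp_preprimitive [Finite F] (hm : 1 ≤ m) :
    MulAction.IsPreprimitive (Matrix.symplecticGroup (Fin m) F) (ℙ F (Fin m ⊕ Fin m → F)) := by
  have h := Cfsg.Agent.S0768.result (F := F) m hm
  let f : ℙ F (Fin m ⊕ Fin m → F) →ₑ[spToSpGL m F] ℙ F (Fin m ⊕ Fin m → F) :=
    { toFun := id, map_smul' := fun g x => rfl }
  exact (MulAction.isPreprimitive_congr (f := f) (spToSpGL_surjective m F)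
    Function.bijective_id).mpr h

variable {F}

theorem sympTransvection_smul (a : F) (v : Fin m ⊕ Fin m → F) (c : F) :
    sympTransvection m (a • v) c = sympTransvection m v (a * a * c) := by
  unfold sympTransvection
  rw [Matrix.mulVec_smul, Matrix.vecMulVec_smul, Matrix.smul_vecMulVec, smul_smul, smul_smul]
  congr 2
  ring

/-- the group of symplectic transvections along `v` -/
def tvSubgroup (v : Fin m ⊕ Fin m → F) : Subgroup (Matrix.symplecticGroup (Fin m) F) where
  carrier := {A | ∃ c : F, (A : Matrix (Fin m ⊕ Fin m) (Fin m ⊕ Fin m) F) = sympTransvection m v c}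
  mul_mem' := by
    rintro A B ⟨c, hc⟩ ⟨d, hd⟩
    exact ⟨c + d, by rw [Submonoid.coe_mul, hc, hd, (Cfsg.Agent.S0767.result m v).1]⟩
  one_mem' := ⟨0, by simp [sympTransvection]⟩
  inv_mem' := by
    rintro A ⟨c, hc⟩
    refine ⟨-c, ?_⟩
    obtain ⟨B, hB⟩ : ∃ B : Matrix.symplecticGroup (Fin m) F,
        (B : Matrix (Fin m ⊕ Fin m) (Fin m ⊕ Fin m) F) = sympTransvection m v (-c) :=
      ⟨⟨_, Cfsg.Agent.S0764.result m v (-c)⟩, rfl⟩
    have h1 : A * B = 1 := by
      apply Subtype.ext
      rw [Submonoid.coe_mul, hc, hB, (Cfsg.Agent.S0767.result m v).1, add_neg_cancel]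
      simp [sympTransvection]
    rw [← eq_inv_of_mul_eq_one_right h1, hB]

theorem mem_tvSubgroup (v : Fin m ⊕ Fin m → F) (A : Matrix.symplecticGroup (Fin m) F) :
    A ∈ tvSubgroup m v ↔
      ∃ c : F, (A : Matrix (Fin m ⊕ Fin m) (Fin m ⊕ Fin m) F) = sympTransvection m v c := Iff.rfl

theorem tvSubgroup_smul (a : F) (ha : a ≠ 0) (v : Fin m ⊕ Fin m → F) :
    tvSubgroup m (a • v) = tvSubgroup m v := by
  ext A
  rw [mem_tvSubgroup, mem_tvSubgroup]
  constructor
  · rintro ⟨c, hc⟩
    exact ⟨a * a * c, by rw [hc, sympTransvection_smul]⟩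
  · rintro ⟨c, hc⟩
    refine ⟨c / (a * a), ?_⟩
    rw [hc, sympTransvection_smul]
    congr 1
    field_simp

theorem tvSubgroup_conj (g : Matrix.symplecticGroup (Fin m) F) (v : Fin m ⊕ Fin m → F) :
    tvSubgroup m ((g : Matrix (Fin m ⊕ Fin m) (Fin m ⊕ Fin m) F) *ᵥ v)
      = MulAut.conj g • tvSubgroup m v := by
  ext A
  rw [Subgroup.mem_pointwise_smul_iff_inv_smul_mem, mem_tvSubgroup, mem_tvSubgroup,
    MulAut.smul_def, ← map_inv, MulAut.conj_apply, inv_inv]
  constructor
  · rintro ⟨c, hc⟩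
    refine ⟨c, ?_⟩
    obtain ⟨t, ht⟩ : ∃ t : Matrix.symplecticGroup (Fin m) F,
        (t : Matrix (Fin m ⊕ Fin m) (Fin m ⊕ Fin m) F) = sympTransvection m v c :=
      ⟨⟨_, Cfsg.Agent.S0764.result m v c⟩, rfl⟩
    have hA : A = g * t * g⁻¹ := by
      apply Subtype.ext
      rw [Submonoid.coe_mul, Submonoid.coe_mul, ht, sp_conj_transvection, hc]
    rw [hA, ← ht]
    congr 1
    group
  · rintro ⟨c, hc⟩
    refine ⟨c, ?_⟩
    have hA : A = g * (g⁻¹ * A * g) * g⁻¹ := by group
    rw [hA, Submonoid.coe_mul, Submonoid.coe_mul, hc, sp_conj_transvection]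

/-- the Iwasawa structure of the symplectic group acting on projective points -/
noncomputable def spIwasawa :
    MulAction.IwasawaStructure (Matrix.symplecticGroup (Fin m) F) (ℙ F (Fin m ⊕ Fin m → F)) where
  T x := tvSubgroup m x.rep
  is_comm x := by
    refine ⟨⟨fun a b => ?_⟩⟩
    obtain ⟨c, hc⟩ := a.2
    obtain ⟨d, hd⟩ := b.2
    apply Subtype.ext
    apply Subtype.ext
    change ((a : Matrix.symplecticGroup (Fin m) F) : Matrix (Fin m ⊕ Fin m) (Fin m ⊕ Fin m) F)
        * ((b : Matrix.symplecticGroup (Fin m) F) : Matrix (Fin m ⊕ Fin m) (Fin m ⊕ Fin m) F)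
      = ((b : Matrix.symplecticGroup (Fin m) F) : Matrix (Fin m ⊕ Fin m) (Fin m ⊕ Fin m) F)
        * ((a : Matrix.symplecticGroup (Fin m) F) : Matrix (Fin m ⊕ Fin m) (Fin m ⊕ Fin m) F)
    rw [hc, hd, (Cfsg.Agent.S0767.result m x.rep).1, (Cfsg.Agent.S0767.result m x.rep).1, add_comm]
  is_conj g x := by
    have hne := sp_mulVec_ne_zero m F g x.rep x.rep_nonzero
    have h1 : g • x = Projectivization.mk F
        ((g : Matrix (Fin m ⊕ Fin m) (Fin m ⊕ Fin m) F) *ᵥ x.rep) hne := by
      conv_lhs => rw [← x.mk_rep]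
      exact spAct_mk m F g x.rep x.rep_nonzero hne
    obtain ⟨a, ha⟩ : ∃ a : F, a • ((g : Matrix (Fin m ⊕ Fin m) (Fin m ⊕ Fin m) F) *ᵥ x.rep)
        = (g • x).rep := by
      apply (Projectivization.mk_eq_mk_iff' F _ _ (g • x).rep_nonzero hne).mp
      rw [Projectivization.mk_rep, h1]
    have ha0 : a ≠ 0 := by
      rintro rfl
      rw [zero_smul] at ha
      exact (g • x).rep_nonzero ha.symm
    rw [← ha, tvSubgroup_smul m a ha0, tvSubgroup_conj]
  is_generator := by
    rw [eq_top_iff, ← Cfsg.Agent.S0765.result m, Subgroup.closure_le]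
    rintro A ⟨w, c, hA⟩
    rw [SetLike.mem_coe]
    by_cases hw : w = 0
    · have : A = 1 := Subtype.ext (by rw [hA, hw, sympTransvection_zero]; rfl)
      rw [this]
      exact one_mem _
    · apply Subgroup.mem_iSup_of_mem (Projectivization.mk F w hw)
      obtain ⟨a, ha⟩ : ∃ a : F, a • w = (Projectivization.mk F w hw).rep := by
        apply (Projectivization.mk_eq_mk_iff' F _ _ (Projectivization.mk F w hw).rep_nonzero hw).mp
        rw [Projectivization.mk_rep]
      have ha0 : a ≠ 0 := by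
        rintro rfl
        rw [zero_smul] at ha
        exact (Projectivization.mk F w hw).rep_nonzero ha.symm
      change A ∈ tvSubgroup m (Projectivization.mk F w hw).rep
      rw [← ha, tvSubgroup_smul m a ha0]
      exact ⟨c, hA⟩

/-- elements acting trivially on projective points are central -/
theorem sp_mem_center_of_fix (n : Matrix.symplecticGroup (Fin m) F)
    (hn : ∀ x : ℙ F (Fin m ⊕ Fin m → F), n • x = x) :
    n ∈ Subgroup.center (Matrix.symplecticGroup (Fin m) F) := by
  set f : (Fin m ⊕ Fin m → F) →ₗ[F] (Fin m ⊕ Fin m → F) :=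
    Matrix.toLin' (n : Matrix (Fin m ⊕ Fin m) (Fin m ⊕ Fin m) F) with hf
  obtain ⟨a, ha⟩ := f.exists_eq_smul_id_of_forall_notLinearIndependent
    fun (v : Fin m ⊕ Fin m → F) ↦ by
      by_cases hv : v = 0
      · simp [hv, linearIndependent_fin2]
      · have hne := sp_mulVec_ne_zero m F n v hv
        have h1 := hn (Projectivization.mk F v hv)
        rw [spAct_mk m F n v hv hne, Projectivization.mk_eq_mk_iff'] at h1
        obtain ⟨b, hb⟩ := h1
        rw [LinearIndependent.pair_iff' hv]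
        push Not
        exact ⟨b, by rw [hf, Matrix.toLin'_apply, hb]⟩
  have hscalar : (n : Matrix (Fin m ⊕ Fin m) (Fin m ⊕ Fin m) F) = a • 1 := by
    have h2 : (n : Matrix (Fin m ⊕ Fin m) (Fin m ⊕ Fin m) F) = LinearMap.toMatrix' f := by
      rw [hf, LinearMap.toMatrix'_toLin']
    rw [h2, ha]
    simp
  rw [Subgroup.mem_center_iff]
  intro g
  apply Subtype.ext
  rw [Submonoid.coe_mul, Submonoid.coe_mul, hscalar, Matrix.mul_smul, Matrix.smul_mul, mul_one,
    one_mul]

/-- a normal subgroup of a perfect symplectic group is central or everything -/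
theorem sp_normal_central_or_top [Finite F] (hm : 1 ≤ m)
    (hperf : commutator (Matrix.symplecticGroup (Fin m) F) = ⊤)
    (N : Subgroup (Matrix.symplecticGroup (Fin m) F)) [N.Normal] :
    N ≤ Subgroup.center (Matrix.symplecticGroup (Fin m) F) ∨ N = ⊤ := by
  have := sp_preprimitive m F hm
  by_cases hfix : MulAction.fixedPoints N (ℙ F (Fin m ⊕ Fin m → F)) = Set.univ
  · left
    intro n hn
    apply sp_mem_center_of_fix m n
    intro x
    have hx : x ∈ MulAction.fixedPoints N (ℙ F (Fin m ⊕ Fin m → F)) := by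
      rw [hfix]; exact Set.mem_univ x
    exact hx ⟨n, hn⟩
  · right
    have := (spIwasawa m (F := F)).commutator_le N hfix
    rw [hperf] at this
    exact top_le_iff.mp this

end spiwa

end Cfsg.Agent.Lib.Helper3
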