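import Mathlib
import Cfsg.Agent.Lib.Helper3.PermWreathDL
import Cfsg.Agent.Lib.Helper3.GLWreathDL
import Cfsg.Agent.Lib.Helper15.SpW

/-!
Lower bound for the derived length of a Sylow `2`-subgroup of `Sp_{2n}(F)`, from a nonabelian
`2`-subgroup of `Sp_2(F)`.
-/

set_option autoImplicit false

namespace Cfsg.Agent.Lib.Helper3

open Cfsg.Agent.Lib.Helper15

/-- If `Sp_2(F)` has a `2`-subgroup `Q` with nontrivial commutator subgroup, then the
`Nat.log 2 (2 * n)`-th derived subgroup of a Sylow `2`-subgroup of `Sp_{2n}(F)` is nontrivial. -/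
theorem sp_sylow_derived_ne_bot_of_base {F : Type*} [Field F] [Fintype F] [DecidableEq F]
    (n : ℕ) (hn : 1 ≤ n)
    (hbase : ∃ Q : Subgroup ↥(Matrix.symplecticGroup (Fin 1) F),
      IsPGroup 2 ↥Q ∧ derivedSeries ↥Q 1 ≠ ⊥)
    (R : Sylow 2 ↥(Matrix.symplecticGroup (Fin n) F)) :
    derivedSeries ↥(R : Subgroup ↥(Matrix.symplecticGroup (Fin n) F)) (Nat.log 2 (2 * n)) ≠ ⊥ := by
  obtain ⟨Q, hQ, hQ1⟩ := hbase
  have hn0 : n ≠ 0 := by omega
  obtain ⟨B, _, hB2, hB3⟩ := perm_wreath_derived n (SpW.iota F n) (SpW.piHom F n)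
    (fun σ g => SpW.star σ g) (SpW.psi_injective F n) Q hQ 1 hQ1 (Nat.log 2 n)
    (Nat.pow_log_le_self 2 hn0)
  have h1 := derived_ne_bot_of_injective 2 hB2 B.subtype B.subtype_injective R
    (1 + Nat.log 2 n) hB3
  have h2 : Nat.log 2 (2 * n) = 1 + Nat.log 2 n := by
    rw [mul_comm, Nat.log_mul_base (by norm_num) hn0, add_comm]
  rw [h2]
  exact h1

end Cfsg.Agent.Lib.Helper3
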