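import Mathlib
import Cfsg.Prelude
import Cfsg.Agent.Lib.Helper3.SLRoot
import Cfsg.Agent.Lib.Helper3.SpIwasawa

set_option autoImplicit false

/-!
Symplectic transvection subgroups as abstract root subgroups of the symplectic group.
-/

namespace Cfsg.Agent.Lib.Helper3

open Matrix Cfsg
open scoped commutatorElement

section sproot

variable (m : ℕ) {F : Type*} [Field F]

/-- A symplectic transvection as an element of the symplectic group. -/
def stv (p : Fin m ⊕ Fin m → F) (c : F) : Matrix.symplecticGroup (Fin m) F :=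
  ⟨sympTransvection m p c, Cfsg.Agent.S0764.result m p c⟩

theorem stv_coe (p : Fin m ⊕ Fin m → F) (c : F) :
    ((stv m p c : Matrix.symplecticGroup (Fin m) F) : Matrix (Fin m ⊕ Fin m) (Fin m ⊕ Fin m) F)
      = sympTransvection m p c := rfl

theorem stv_mulVec (p x : Fin m ⊕ Fin m → F) (c : F) :
    ((stv m p c : Matrix.symplecticGroup (Fin m) F) : Matrix (Fin m ⊕ Fin m) (Fin m ⊕ Fin m) F)
      *ᵥ x = x + (c * sympForm m F x p) • p :=
  Cfsg.Agent.S0766.tv_mulVec m p x c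

theorem spr_ext {A B : Matrix.symplecticGroup (Fin m) F}
    (h : ∀ x : Fin m ⊕ Fin m → F,
      (A : Matrix (Fin m ⊕ Fin m) (Fin m ⊕ Fin m) F) *ᵥ x
        = (B : Matrix (Fin m ⊕ Fin m) (Fin m ⊕ Fin m) F) *ᵥ x) : A = B := by
  apply Subtype.ext
  apply Matrix.mulVec_injective
  funext x
  exact h x

theorem spr_mul_mulVec (A B : Matrix.symplecticGroup (Fin m) F) (x : Fin m ⊕ Fin m → F) :
    ((A * B : Matrix.symplecticGroup (Fin m) F) : Matrix (Fin m ⊕ Fin m) (Fin m ⊕ Fin m) F) *ᵥ x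
      = (A : Matrix (Fin m ⊕ Fin m) (Fin m ⊕ Fin m) F)
        *ᵥ ((B : Matrix (Fin m ⊕ Fin m) (Fin m ⊕ Fin m) F) *ᵥ x) := by
  rw [Submonoid.coe_mul, Matrix.mulVec_mulVec]

theorem stv_mem (p : Fin m ⊕ Fin m → F) (c : F) : stv m p c ∈ tvSubgroup m p := ⟨c, rfl⟩

theorem mem_tvSubgroup_iff (p : Fin m ⊕ Fin m → F) (A : Matrix.symplecticGroup (Fin m) F) :
    A ∈ tvSubgroup m p ↔ ∃ c : F, A = stv m p c := by
  constructor
  · rintro ⟨c, hc⟩
    exact ⟨c, Subtype.ext hc⟩
  · rintro ⟨c, rfl⟩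
    exact stv_mem m p c

theorem stv_mul (p : Fin m ⊕ Fin m → F) (c d : F) : stv m p c * stv m p d = stv m p (c + d) :=
  Subtype.ext (by
    rw [Submonoid.coe_mul, stv_coe, stv_coe, stv_coe, (Cfsg.Agent.S0767.result m p).1])

theorem stv_zero (p : Fin m ⊕ Fin m → F) : stv m p (0 : F) = 1 :=
  Subtype.ext (by rw [stv_coe]; simp [sympTransvection])

theorem stv_inv (p : Fin m ⊕ Fin m → F) (c : F) : (stv m p c)⁻¹ = stv m p (-c) := by
  rw [inv_eq_iff_mul_eq_one, stv_mul, add_neg_cancel, stv_zero]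

theorem sform_smul_left (a : F) (x y : Fin m ⊕ Fin m → F) :
    sympForm m F (a • x) y = a * sympForm m F x y := by
  unfold sympForm
  rw [smul_dotProduct, smul_eq_mul]

theorem sform_smul_right (a : F) (x y : Fin m ⊕ Fin m → F) :
    sympForm m F x (a • y) = a * sympForm m F x y := by
  unfold sympForm
  rw [Matrix.mulVec_smul, dotProduct_smul, smul_eq_mul]

theorem vec_eq_zero_of_add {x y : Fin m ⊕ Fin m → F} (h : x + y = x) : y = 0 := by
  have h1 := congrArg (fun t => t - x) h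
  simpa using h1

theorem stv_ne_one (p : Fin m ⊕ Fin m → F) (hp : p ≠ 0) (c : F) (hc : c ≠ 0) :
    stv m p c ≠ 1 := by
  intro h
  obtain ⟨y, hy⟩ := Cfsg.Agent.S0766.form_nondeg m p hp
  have h1 := stv_mulVec m p y c
  rw [h, Submonoid.coe_one, Matrix.one_mulVec] at h1
  have h2 : (c * sympForm m F y p) • p = 0 := vec_eq_zero_of_add m h1.symm
  rcases smul_eq_zero.mp h2 with h3 | h3
  · rcases mul_eq_zero.mp h3 with h4 | h4
    · exact hc h4
    · rw [Cfsg.Agent.S0766.form_swap] at h4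
      exact hy (neg_eq_zero.mp h4)
  · exact hp h3

theorem stv_comm (p r : Fin m ⊕ Fin m → F) (h : sympForm m F p r = 0) (c d : F) :
    stv m p c * stv m r d = stv m r d * stv m p c := by
  have h' : sympForm m F r p = 0 := by rw [Cfsg.Agent.S0766.form_swap, h, neg_zero]
  apply spr_ext
  intro x
  simp only [spr_mul_mulVec, stv_mulVec, Cfsg.Agent.S0766.form_add_left, sform_smul_left, h, h',
    mul_zero, add_zero]
  abel

theorem conjBy_tvSubgroup (g : Matrix.symplecticGroup (Fin m) F) (p : Fin m ⊕ Fin m → F) :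
    Cfsg.conjBy (tvSubgroup m p) g
      = tvSubgroup m ((g : Matrix (Fin m ⊕ Fin m) (Fin m ⊕ Fin m) F) *ᵥ p) := by
  rw [tvSubgroup_conj]
  rfl

theorem tvSubgroup_commutative (p : Fin m ⊕ Fin m → F) : IsMulCommutative (tvSubgroup m p) :=
  ⟨⟨fun a b => Subtype.ext (by
    obtain ⟨c, hc⟩ := (mem_tvSubgroup_iff m p a.1).mp a.2
    obtain ⟨d, hd⟩ := (mem_tvSubgroup_iff m p b.1).mp b.2
    show (a : Matrix.symplecticGroup (Fin m) F) * (b : Matrix.symplecticGroup (Fin m) F)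
      = (b : Matrix.symplecticGroup (Fin m) F) * (a : Matrix.symplecticGroup (Fin m) F)
    rw [hc, hd, stv_mul, stv_mul, add_comm])⟩⟩

/-- The parametrisation of a transvection subgroup by the additive group of the field. -/
def tvHom (p : Fin m ⊕ Fin m → F) : Multiplicative F →* tvSubgroup m p where
  toFun c := ⟨stv m p (Multiplicative.toAdd c), stv_mem m p _⟩
  map_one' := Subtype.ext (stv_zero m p)
  map_mul' c d := Subtype.ext (by
    show stv m p (Multiplicative.toAdd (c * d))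
      = stv m p (Multiplicative.toAdd c) * stv m p (Multiplicative.toAdd d)
    rw [stv_mul, toAdd_mul])

theorem tvSubgroup_nilpotent (p : Fin m ⊕ Fin m → F) : Group.IsNilpotent (tvSubgroup m p) :=
  Group.nilpotent_of_surjective (tvHom m p) (by
    rintro ⟨t, ht⟩
    obtain ⟨c, rfl⟩ := (mem_tvSubgroup_iff m p t).mp ht
    exact ⟨Multiplicative.ofAdd c, rfl⟩)

theorem tvSubgroup_ne_bot (p : Fin m ⊕ Fin m → F) (hp : p ≠ 0) : tvSubgroup m p ≠ ⊥ := by
  intro h
  have h1 := stv_mem m p (1 : F)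
  rw [h, Subgroup.mem_bot] at h1
  exact stv_ne_one m p hp 1 one_ne_zero h1

theorem tvSubgroup_ne (p r : Fin m ⊕ Fin m → F) (hp : p ≠ 0) (hr : r ≠ 0)
    (hα : sympForm m F p r ≠ 0) : tvSubgroup m p ≠ tvSubgroup m r := by
  intro he
  have hm : stv m p 1 ∈ tvSubgroup m r := he ▸ stv_mem m p 1
  rw [mem_tvSubgroup_iff] at hm
  obtain ⟨d, hd⟩ := hm
  have h1 := stv_mulVec m p p (1 : F)
  rw [hd, stv_mulVec, Cfsg.Agent.S0766.form_self, mul_zero, zero_smul, add_zero] at h1
  have h2 : (d * sympForm m F p r) • r = 0 := vec_eq_zero_of_add m h1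
  rcases smul_eq_zero.mp h2 with h3 | h3
  · rcases mul_eq_zero.mp h3 with h4 | h4
    · rw [h4, stv_zero] at hd
      exact stv_ne_one m p hp 1 one_ne_zero hd
    · exact hα h4
  · exact hr h3

theorem tv_rankOneCond (p r : Fin m ⊕ Fin m → F) (hr : r ≠ 0)
    (hα : sympForm m F p r ≠ 0) :
    Cfsg.RankOneCondition (tvSubgroup m p) (tvSubgroup m r) := by
  intro a ha ha1
  rw [mem_tvSubgroup_iff] at ha
  obtain ⟨c, rfl⟩ := ha
  have hc : c ≠ 0 := by
    rintro rfl
    exact ha1 (stv_zero m p)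
  obtain ⟨α, hαdef⟩ : ∃ α : F, α = sympForm m F p r := ⟨_, rfl⟩
  rw [← hαdef] at hα
  have hα' : sympForm m F r p = -α := by rw [Cfsg.Agent.S0766.form_swap, hαdef]
  obtain ⟨d, hd⟩ : ∃ d : F, d = -(c * α * α)⁻¹ := ⟨_, rfl⟩
  have hd0 : d ≠ 0 := by
    rw [hd]
    exact neg_ne_zero.mpr (inv_ne_zero (mul_ne_zero (mul_ne_zero hc hα) hα))
  refine ⟨stv m r d, stv_mem m r d, stv_ne_one m r hr d hd0, ?_⟩
  rw [conjBy_tvSubgroup, conjBy_tvSubgroup, stv_inv, stv_inv, stv_mulVec, stv_mulVec]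
  have e : p + (-d * sympForm m F p r) • r
      = (c * α)⁻¹ • (r + (-c * sympForm m F r p) • p) := by
    rw [hα', ← hαdef, smul_add, smul_smul]
    have k1 : (c * α)⁻¹ * (-c * -α) = 1 := by field_simp
    have k2 : -d * α = (c * α)⁻¹ := by
      rw [hd]
      field_simp
    rw [k1, k2, one_smul, add_comm]
  rw [e, tvSubgroup_smul m _ (inv_ne_zero (mul_ne_zero hc hα))]

theorem tv_rankOne (p r : Fin m ⊕ Fin m → F) (hp : p ≠ 0) (hr : r ≠ 0)
    (hα : sympForm m F p r ≠ 0) :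
    Cfsg.IsRankOnePair (tvSubgroup m p) (tvSubgroup m r) :=
  ⟨tvSubgroup_ne m p r hp hr hα, tvSubgroup_nilpotent m p, tvSubgroup_nilpotent m r,
    tv_rankOneCond m p r hr hα,
    tv_rankOneCond m r p hp (by
      rw [Cfsg.Agent.S0766.form_swap]
      exact neg_ne_zero.mpr hα)⟩

theorem tv_commutator_bot (p r : Fin m ⊕ Fin m → F) (h : sympForm m F p r = 0) :
    ⁅tvSubgroup m p, tvSubgroup m r⁆ = ⊥ := by
  rw [Subgroup.commutator_eq_bot_iff_le_centralizer]
  intro a ha
  rw [Subgroup.mem_centralizer_iff]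
  intro b hb
  obtain ⟨c, rfl⟩ := (mem_tvSubgroup_iff m p a).mp ha
  obtain ⟨d, rfl⟩ := (mem_tvSubgroup_iff m r b).mp hb
  exact (stv_comm m p r h c d).symm

theorem form_zero_of_stv_comm (w p : Fin m ⊕ Fin m → F) (hp : p ≠ 0)
    (h : stv m w (1 : F) * stv m p 1 = stv m p 1 * stv m w 1) : sympForm m F p w = 0 := by
  by_contra hne
  have e1 : ((stv m w (1 : F) * stv m p 1 : Matrix.symplecticGroup (Fin m) F) :
      Matrix (Fin m ⊕ Fin m) (Fin m ⊕ Fin m) F) *ᵥ p = p + sympForm m F p w • w := by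
    rw [spr_mul_mulVec, stv_mulVec m p p, Cfsg.Agent.S0766.form_self, mul_zero, zero_smul,
      add_zero, stv_mulVec, one_mul]
  have e2 : ((stv m p (1 : F) * stv m w 1 : Matrix.symplecticGroup (Fin m) F) :
      Matrix (Fin m ⊕ Fin m) (Fin m ⊕ Fin m) F) *ᵥ p
      = p + sympForm m F p w • w + (sympForm m F p w * sympForm m F w p) • p := by
    rw [spr_mul_mulVec, stv_mulVec m w p, stv_mulVec, one_mul, one_mul,
      Cfsg.Agent.S0766.form_add_left, sform_smul_left, Cfsg.Agent.S0766.form_self, zero_add]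
  rw [h, e2] at e1
  have e3 := vec_eq_zero_of_add m e1
  rcases smul_eq_zero.mp e3 with h3 | h3
  · rcases mul_eq_zero.mp h3 with h4 | h4
    · exact hne h4
    · rw [Cfsg.Agent.S0766.form_swap] at h4
      exact hne (neg_eq_zero.mp h4)
  · exact hp h3

theorem tv_not_commCase (S : Set (Subgroup (Matrix.symplecticGroup (Fin m) F)))
    (hS : ∀ A ∈ S, ∃ w : Fin m ⊕ Fin m → F, w ≠ 0 ∧ A = tvSubgroup m w)
    (p r : Fin m ⊕ Fin m → F) (hp : p ≠ 0) (hr : r ≠ 0) :
    ¬ Cfsg.RootCommutatorCase S (tvSubgroup m p) (tvSubgroup m r) := by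
  rintro ⟨h1, h2, -, -⟩
  obtain ⟨w, hw, hw'⟩ := hS _ h1
  by_cases hα : sympForm m F p r = 0
  · rw [tv_commutator_bot m p r hα] at hw'
    exact tvSubgroup_ne_bot m w hw hw'.symm
  · have hwmem : stv m w (1 : F) ∈ ⁅tvSubgroup m p, tvSubgroup m r⁆ := by
      rw [hw']
      exact stv_mem m w 1
    have hwp : sympForm m F p w = 0 :=
      form_zero_of_stv_comm m w p hp
        (h2 _ hwmem _ (Subgroup.mem_sup_left (stv_mem m p 1)))
    have hwr : sympForm m F r w = 0 :=
      form_zero_of_stv_comm m w r hr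
        (h2 _ hwmem _ (Subgroup.mem_sup_right (stv_mem m r 1)))
    have hcomm : ⁅stv m p (1 : F), stv m r (1 : F)⁆ ∈ tvSubgroup m w := by
      rw [← hw']
      exact Subgroup.commutator_mem_commutator (stv_mem m p 1) (stv_mem m r 1)
    obtain ⟨s, hs⟩ := (mem_tvSubgroup_iff m w _).mp hcomm
    have h3 : stv m p (1 : F) * stv m r 1 = stv m w s * (stv m r 1 * stv m p 1) := by
      rw [← hs, commutatorElement_def]
      group
    have e5 : ((stv m p (1 : F) * stv m r 1 : Matrix.symplecticGroup (Fin m) F) :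
        Matrix (Fin m ⊕ Fin m) (Fin m ⊕ Fin m) F) *ᵥ p
        = p + sympForm m F p r • r + (sympForm m F p r * sympForm m F r p) • p := by
      rw [spr_mul_mulVec, stv_mulVec m r p, stv_mulVec, one_mul, one_mul,
        Cfsg.Agent.S0766.form_add_left, sform_smul_left, Cfsg.Agent.S0766.form_self, zero_add]
    have e6 : ((stv m w s * (stv m r (1 : F) * stv m p 1) : Matrix.symplecticGroup (Fin m) F) :
        Matrix (Fin m ⊕ Fin m) (Fin m ⊕ Fin m) F) *ᵥ p
        = p + sympForm m F p r • r := by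
      rw [spr_mul_mulVec, spr_mul_mulVec, stv_mulVec m p p, Cfsg.Agent.S0766.form_self, mul_zero,
        zero_smul, add_zero, stv_mulVec m r p, one_mul, stv_mulVec,
        Cfsg.Agent.S0766.form_add_left, sform_smul_left, hwp, hwr, mul_zero, add_zero, mul_zero,
        zero_smul, add_zero]
    rw [h3, e6] at e5
    have e7 := vec_eq_zero_of_add m e5.symm
    rcases smul_eq_zero.mp e7 with h4 | h4
    · rcases mul_eq_zero.mp h4 with h5 | h5
      · exact hα h5
      · rw [Cfsg.Agent.S0766.form_swap] at h5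
        exact hα (neg_eq_zero.mp h5)
    · exact hp h4

end sproot

section spemb

variable (m : ℕ) {F : Type*} [Field F]
variable (p r : Fin m ⊕ Fin m → F)

/-- The covector paired with the first vector of a hyperbolic pair. -/
def covP : Fin m ⊕ Fin m → F := (-(sympForm m F p r)⁻¹) • (Matrix.J (Fin m) F *ᵥ p)

/-- The covector paired with the second vector of a hyperbolic pair. -/
def covR : Fin m ⊕ Fin m → F := (sympForm m F p r)⁻¹ • (Matrix.J (Fin m) F *ᵥ r)

theorem J_dot (x y : Fin m ⊕ Fin m → F) :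
    (Matrix.J (Fin m) F *ᵥ x) ⬝ᵥ y = sympForm m F y x := by
  unfold sympForm
  rw [dotProduct_comm]

theorem covP_dot_p : covP m p r ⬝ᵥ p = 0 := by
  rw [covP, smul_dotProduct, J_dot, Cfsg.Agent.S0766.form_self, smul_zero]

theorem covR_dot_r : covR m p r ⬝ᵥ r = 0 := by
  rw [covR, smul_dotProduct, J_dot, Cfsg.Agent.S0766.form_self, smul_zero]

theorem covP_dot_r (hα : sympForm m F p r ≠ 0) : covP m p r ⬝ᵥ r = 1 := by
  rw [covP, smul_dotProduct, J_dot, Cfsg.Agent.S0766.form_swap m r p, smul_eq_mul]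
  field_simp

theorem covR_dot_p (hα : sympForm m F p r ≠ 0) : covR m p r ⬝ᵥ p = 1 := by
  rw [covR, smul_dotProduct, J_dot, smul_eq_mul]
  field_simp

theorem one_add_covP (a : F) :
    (1 : Matrix (Fin m ⊕ Fin m) (Fin m ⊕ Fin m) F) + a • vecMulVec p (covP m p r)
      = sympTransvection m p (a * -(sympForm m F p r)⁻¹) := by
  rw [covP, sympTransvection, vecMulVec_smul, smul_smul]

theorem one_add_covR (a : F) :
    (1 : Matrix (Fin m ⊕ Fin m) (Fin m ⊕ Fin m) F) + a • vecMulVec r (covR m p r)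
      = sympTransvection m r (a * (sympForm m F p r)⁻¹) := by
  rw [covR, sympTransvection, vecMulVec_smul, smul_smul]

theorem embR_mem_symplectic (hα : sympForm m F p r ≠ 0)
    (M : Matrix.SpecialLinearGroup (Fin 2) F) :
    embR p (covP m p r) r (covR m p r) (M : Matrix (Fin 2) (Fin 2) F)
      ∈ Matrix.symplecticGroup (Fin m) F := by
  refine sl_transvection_induction
    (fun M : Matrix.SpecialLinearGroup (Fin 2) F =>
      embR p (covP m p r) r (covR m p r) (M : Matrix (Fin 2) (Fin 2) F)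
        ∈ Matrix.symplecticGroup (Fin m) F) ?_ ?_ M
  · intro i j hij a
    show embR p (covP m p r) r (covR m p r) ((Matrix.SpecialLinearGroup.transvection hij a :
      Matrix.SpecialLinearGroup (Fin 2) F) : Matrix (Fin 2) (Fin 2) F)
        ∈ Matrix.symplecticGroup (Fin m) F
    rw [Matrix.SpecialLinearGroup.transvection_coe, embR_one_add]
    have hcase : (i = 0 ∧ j = 1) ∨ (i = 1 ∧ j = 0) := by
      have h01 : ∀ i : Fin 2, i = 0 ∨ i = 1 := by decide
      rcases h01 i with hi | hi <;> rcases h01 j with hj | hj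
      · exact absurd (hi.trans hj.symm) hij
      · exact Or.inl ⟨hi, hj⟩
      · exact Or.inr ⟨hi, hj⟩
      · exact absurd (hi.trans hj.symm) hij
    rcases hcase with ⟨hi, hj⟩ | ⟨hi, hj⟩
    · rw [hi, hj, embE_single01, one_add_covP]
      exact Cfsg.Agent.S0764.result m p _
    · rw [hi, hj, embE_single10, one_add_covR]
      exact Cfsg.Agent.S0764.result m r _
  · intro A B hA hB
    show embR p (covP m p r) r (covR m p r) ((A * B : Matrix.SpecialLinearGroup (Fin 2) F) :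
      Matrix (Fin 2) (Fin 2) F) ∈ Matrix.symplecticGroup (Fin m) F
    rw [Matrix.SpecialLinearGroup.coe_mul,
      ← embR_mul p (covP m p r) r (covR m p r) (covP_dot_p m p r) (covR_dot_r m p r)
        (covP_dot_r m p r hα) (covR_dot_p m p r hα)]
    exact mul_mem hA hB

/-- The homomorphism from `SL₂` into the symplectic group attached to a hyperbolic pair. -/
def spEmb (hα : sympForm m F p r ≠ 0) :
    Matrix.SpecialLinearGroup (Fin 2) F →* Matrix.symplecticGroup (Fin m) F where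
  toFun M := ⟨embR p (covP m p r) r (covR m p r) (M : Matrix (Fin 2) (Fin 2) F),
    embR_mem_symplectic m p r hα M⟩
  map_one' := Subtype.ext (by
    show embR p (covP m p r) r (covR m p r)
      ((1 : Matrix.SpecialLinearGroup (Fin 2) F) : Matrix (Fin 2) (Fin 2) F) = 1
    rw [Matrix.SpecialLinearGroup.coe_one, embR_one])
  map_mul' A B := Subtype.ext (by
    show embR p (covP m p r) r (covR m p r)
        ((A * B : Matrix.SpecialLinearGroup (Fin 2) F) : Matrix (Fin 2) (Fin 2) F)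
      = embR p (covP m p r) r (covR m p r) (A : Matrix (Fin 2) (Fin 2) F)
        * embR p (covP m p r) r (covR m p r) (B : Matrix (Fin 2) (Fin 2) F)
    rw [Matrix.SpecialLinearGroup.coe_mul,
      embR_mul p (covP m p r) r (covR m p r) (covP_dot_p m p r) (covR_dot_r m p r)
        (covP_dot_r m p r hα) (covR_dot_p m p r hα)])

theorem spEmb_coe (hα : sympForm m F p r ≠ 0) (M : Matrix.SpecialLinearGroup (Fin 2) F) :
    ((spEmb m p r hα M : Matrix.symplecticGroup (Fin m) F) :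
      Matrix (Fin m ⊕ Fin m) (Fin m ⊕ Fin m) F)
      = embR p (covP m p r) r (covR m p r) (M : Matrix (Fin 2) (Fin 2) F) := rfl

theorem spEmb_map (hα : sympForm m F p r ≠ 0) (K : Subgroup (Matrix.SpecialLinearGroup (Fin 2) F))
    (x : Matrix.symplecticGroup (Fin m) F) :
    x ∈ K.map (spEmb m p r hα) ↔
      ∃ t ∈ K.map (embHom p (covP m p r) r (covR m p r) (covP_dot_p m p r) (covR_dot_r m p r)
        (covP_dot_r m p r hα) (covR_dot_p m p r hα)),
        (t : Matrix (Fin m ⊕ Fin m) (Fin m ⊕ Fin m) F)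
          = (x : Matrix (Fin m ⊕ Fin m) (Fin m ⊕ Fin m) F) := by
  constructor
  · rintro ⟨M, hM, rfl⟩
    exact ⟨_, ⟨M, hM, rfl⟩, rfl⟩
  · rintro ⟨t, ⟨M, hM, rfl⟩, ht⟩
    exact ⟨M, hM, Subtype.ext ht⟩

theorem spEmb_upper (hα : sympForm m F p r ≠ 0) :
    (Cfsg.upperUnipotentSL2 F).map (spEmb m p r hα) = tvSubgroup m p := by
  ext x
  rw [spEmb_map, embHom_upper]
  constructor
  · rintro ⟨t, ⟨c, rfl⟩, ht⟩
    rw [rt_coe, one_add_covP] at ht
    exact ⟨_, ht.symm⟩
  · rintro ⟨c, hc⟩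
    refine ⟨rt p (covP m p r) (covP_dot_p m p r) (c * -(sympForm m F p r)), rt_mem _ _ _ _, ?_⟩
    rw [rt_coe, one_add_covP, hc]
    congr 1
    field_simp

theorem spEmb_lower (hα : sympForm m F p r ≠ 0) :
    (Cfsg.lowerUnipotentSL2 F).map (spEmb m p r hα) = tvSubgroup m r := by
  ext x
  rw [spEmb_map, embHom_lower]
  constructor
  · rintro ⟨t, ⟨c, rfl⟩, ht⟩
    rw [rt_coe, one_add_covR] at ht
    exact ⟨_, ht.symm⟩
  · rintro ⟨c, hc⟩
    refine ⟨rt r (covR m p r) (covR_dot_r m p r) (c * sympForm m F p r), rt_mem _ _ _ _, ?_⟩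
    rw [rt_coe, one_add_covR, hc]
    congr 1
    field_simp

theorem spEmb_range (hα : sympForm m F p r ≠ 0) :
    (spEmb m p r hα).range = tvSubgroup m p ⊔ tvSubgroup m r := by
  rw [MonoidHom.range_eq_map, ← sl2_gen, Subgroup.map_sup, spEmb_upper, spEmb_lower]

theorem spEmb_ker (hα : sympForm m F p r ≠ 0) :
    (spEmb m p r hα).ker ≤ Subgroup.center (Matrix.SpecialLinearGroup (Fin 2) F) := by
  intro M hM
  apply embHom_ker p (covP m p r) r (covR m p r) (covP_dot_p m p r) (covR_dot_r m p r)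
    (covP_dot_r m p r hα) (covR_dot_p m p r hα)
  rw [MonoidHom.mem_ker] at hM ⊢
  apply sl_ext
  rw [embHom_coe, Matrix.SpecialLinearGroup.coe_one]
  have h4 := congrArg (fun t : Matrix.symplecticGroup (Fin m) F =>
    (t : Matrix (Fin m ⊕ Fin m) (Fin m ⊕ Fin m) F)) hM
  simpa only [spEmb_coe, Submonoid.coe_one] using h4

theorem tv_psl2 (hα : sympForm m F p r ≠ 0) :
    Cfsg.IsPSL2PairOver F (tvSubgroup m p) (tvSubgroup m r) :=
  ⟨spEmb m p r hα, spEmb_range m p r hα, spEmb_ker m p r hα, spEmb_upper m p r hα,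
    spEmb_lower m p r hα⟩

end spemb

section spclass

variable (m : ℕ) (F : Type*) [Field F]

/-- The set of symplectic transvection subgroups. -/
def spRootSet : Set (Subgroup (Matrix.symplecticGroup (Fin m) F)) :=
  {A | ∃ p : Fin m ⊕ Fin m → F, p ≠ 0 ∧ A = tvSubgroup m p}

variable {F}

theorem tvGen_eq (p : Fin m ⊕ Fin m → F) :
    {g : ↥(Matrix.symplecticGroup (Fin m) F) | ∃ c : F, ∀ v : Fin m ⊕ Fin m → F,
      (g : Matrix (Fin m ⊕ Fin m) (Fin m ⊕ Fin m) F) *ᵥ v
        = v + (c * (v ⬝ᵥ (Matrix.J (Fin m) F *ᵥ p))) • p}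
      = (tvSubgroup m p : Set (Matrix.symplecticGroup (Fin m) F)) := by
  ext g
  constructor
  · rintro ⟨c, hc⟩
    refine ⟨c, ?_⟩
    apply Matrix.mulVec_injective
    funext v
    rw [hc, Cfsg.Agent.S0766.tv_mulVec]
    rfl
  · rintro ⟨c, hc⟩
    refine ⟨c, fun v => ?_⟩
    rw [hc, Cfsg.Agent.S0766.tv_mulVec]
    rfl

theorem tvClosure_eq (p : Fin m ⊕ Fin m → F) :
    Subgroup.closure {g : ↥(Matrix.symplecticGroup (Fin m) F) | ∃ c : F,
      ∀ v : Fin m ⊕ Fin m → F,
      (g : Matrix (Fin m ⊕ Fin m) (Fin m ⊕ Fin m) F) *ᵥ v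
        = v + (c * (v ⬝ᵥ (Matrix.J (Fin m) F *ᵥ p))) • p} = tvSubgroup m p := by
  rw [tvGen_eq, Subgroup.closure_eq]

theorem spRootSet_eq :
    {A : Subgroup ↥(Matrix.symplecticGroup (Fin m) F) | ∃ p : Fin m ⊕ Fin m → F, p ≠ 0 ∧
        A = Subgroup.closure {g : ↥(Matrix.symplecticGroup (Fin m) F) | ∃ c : F,
          ∀ v : Fin m ⊕ Fin m → F,
          (g : Matrix (Fin m ⊕ Fin m) (Fin m ⊕ Fin m) F) *ᵥ v =
            v + (c * (v ⬝ᵥ (Matrix.J (Fin m) F *ᵥ p))) • p}} = spRootSet m F := by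
  ext A
  simp only [Set.mem_ofPred_eq, spRootSet, tvClosure_eq]

theorem mem_spRootSet (p : Fin m ⊕ Fin m → F) (hp : p ≠ 0) : tvSubgroup m p ∈ spRootSet m F :=
  ⟨p, hp, rfl⟩

theorem sp_trans (p r : Fin m ⊕ Fin m → F) (hp : p ≠ 0) (hr : r ≠ 0) :
    ∃ g : Matrix.symplecticGroup (Fin m) F,
      (g : Matrix (Fin m ⊕ Fin m) (Fin m ⊕ Fin m) F) *ᵥ p = r := by
  obtain ⟨A, -, hA⟩ := Cfsg.Agent.S0766.trans_vec m (⊤ : Subgroup (Matrix.symplecticGroup (Fin m) F))
    (fun w c => ⟨stv m w c, Subgroup.mem_top _, rfl⟩) p r hp hr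
  exact ⟨A, hA⟩

theorem exists_form_two (p r : Fin m ⊕ Fin m → F) (hp : p ≠ 0) (hr : r ≠ 0) :
    ∃ w : Fin m ⊕ Fin m → F, sympForm m F p w ≠ 0 ∧ sympForm m F w r ≠ 0 := by
  obtain ⟨x, hx⟩ := Cfsg.Agent.S0766.form_nondeg m p hp
  obtain ⟨y, hy⟩ := Cfsg.Agent.S0766.form_nondeg m r hr
  have hy' : sympForm m F y r ≠ 0 := by
    rw [Cfsg.Agent.S0766.form_swap]
    exact neg_ne_zero.mpr hy
  by_cases c1 : sympForm m F x r = 0
  · by_cases c2 : sympForm m F p y = 0
    · refine ⟨x + y, ?_, ?_⟩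
      · rw [Cfsg.Agent.S0766.form_add_right, c2, add_zero]
        exact hx
      · rw [Cfsg.Agent.S0766.form_add_left, c1, zero_add]
        exact hy'
    · exact ⟨y, c2, hy'⟩
  · exact ⟨x, hx, c1⟩

theorem spRootSet_isRootSubgroupSet : Cfsg.IsRootSubgroupSet (spRootSet m F) where
  commutative := by
    rintro A ⟨p, hp, rfl⟩
    exact tvSubgroup_commutative m p
  ne_bot := by
    rintro A ⟨p, hp, rfl⟩
    exact tvSubgroup_ne_bot m p hp
  generates := by
    rw [eq_top_iff, ← Cfsg.Agent.S0765.result m, Subgroup.closure_le]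
    rintro A ⟨w, c, hA⟩
    rw [SetLike.mem_coe]
    by_cases hw : w = 0
    · have : A = 1 := Subtype.ext (by rw [hA, hw, sympTransvection_zero]; rfl)
      rw [this]
      exact one_mem _
    · exact Subgroup.mem_iSup_of_mem (tvSubgroup m w)
        (Subgroup.mem_iSup_of_mem (mem_spRootSet m w hw) ⟨c, hA⟩)
  conj_mem := by
    rintro A ⟨p, hp, rfl⟩ g
    rw [conjBy_tvSubgroup]
    exact mem_spRootSet m _ (sp_mulVec_ne_zero m F g p hp)
  pair := by
    rintro A ⟨p, hp, rfl⟩ B ⟨r, hr, rfl⟩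
    by_cases hα : sympForm m F p r = 0
    · left
      exact tv_commutator_bot m p r hα
    · right
      left
      exact tv_rankOne m p r hp hr hα

theorem spRootSet_conjClass (hm : 0 < m) : Cfsg.IsConjClassOfSubgroups (spRootSet m F) := by
  refine ⟨⟨tvSubgroup m (fun _ => 1), mem_spRootSet m _ ?_⟩, ?_⟩
  · intro h
    have := congrFun h (Sum.inl ⟨0, hm⟩)
    exact one_ne_zero this
  · rintro A ⟨p, hp, rfl⟩ B ⟨r, hr, rfl⟩
    obtain ⟨g, hg⟩ := sp_trans m p r hp hr
    exact ⟨g, by rw [conjBy_tvSubgroup, hg]⟩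

theorem spRootSet_degenerate : Cfsg.IsDegenerateRootSet (spRootSet m F) := by
  rintro A ⟨p, hp, rfl⟩ B ⟨r, hr, rfl⟩
  exact tv_not_commCase m (spRootSet m F) (fun A hA => hA) p r hp hr

theorem spRootSet_kRoot : Cfsg.IsKRootSubgroupSet F (spRootSet m F) := by
  refine ⟨spRootSet_isRootSubgroupSet m, ?_⟩
  rintro A ⟨p, hp, rfl⟩ B ⟨r, hr, rfl⟩ hrk
  by_cases hα : sympForm m F p r = 0
  · refine absurd hrk (not_rankOne_of_comm _ _ ?_ ⟨stv m p 1, stv_mem m p 1,
      stv_ne_one m p hp 1 one_ne_zero⟩)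
    intro a ha b hb
    obtain ⟨c, rfl⟩ := (mem_tvSubgroup_iff m p a).mp ha
    obtain ⟨d, rfl⟩ := (mem_tvSubgroup_iff m r b).mp hb
    exact stv_comm m p r hα c d
  · exact tv_psl2 m p r hα

theorem spRootSet_connected :
    Cfsg.IsConnectedFamily (Cfsg.FAdj (spRootSet m F)) (spRootSet m F) := by
  rintro A ⟨p, hp, rfl⟩ B ⟨r, hr, rfl⟩
  obtain ⟨w, hw1, hw2⟩ := exists_form_two m p r hp hr
  have hw : w ≠ 0 := by
    rintro rfl
    apply hw1
    unfold sympForm
    rw [Matrix.mulVec_zero, dotProduct_zero]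
  have e1 : Cfsg.FAdj (spRootSet m F) (tvSubgroup m p) (tvSubgroup m w) :=
    ⟨mem_spRootSet m p hp, mem_spRootSet m w hw, tv_rankOne m p w hp hw hw1⟩
  have e2 : Cfsg.FAdj (spRootSet m F) (tvSubgroup m w) (tvSubgroup m r) :=
    ⟨mem_spRootSet m w hw, mem_spRootSet m r hr, tv_rankOne m w r hw hr hw2⟩
  exact Relation.ReflTransGen.trans (Relation.ReflTransGen.single e1)
    (Relation.ReflTransGen.single e2)

end spclass


end Cfsg.Agent.Lib.Helper3
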