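import Mathlib
import Cfsg.Agent.S0245
import Cfsg.Agent.S0764
import Cfsg.Agent.Lib.Helper3.SpTools

/-!
Symplectic transvections in characteristic two: elements `t` of the symplectic group with
`t - 1` of rank one are the transvections `x ↦ x + f(x, v) v`, and the centralizer of such an
element is the stabilizer of `v`.
-/

set_option autoImplicit false

namespace Cfsg.Agent.Lib.Helper3

open Cfsg Matrix

section SpTransv

variable {F : Type*} [Field F] (m : ℕ)

/-- The natural action of the symplectic group on vectors. -/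
@[reducible] def spVecAction :
    MulAction (Matrix.symplecticGroup (Fin m) F) (Fin m ⊕ Fin m → F) where
  smul g v := (g : Matrix (Fin m ⊕ Fin m) (Fin m ⊕ Fin m) F) *ᵥ v
  one_smul v := Matrix.one_mulVec v
  mul_smul g h v := by
    show ((g * h : Matrix.symplecticGroup (Fin m) F) :
      Matrix (Fin m ⊕ Fin m) (Fin m ⊕ Fin m) F) *ᵥ v
        = (g : Matrix (Fin m ⊕ Fin m) (Fin m ⊕ Fin m) F) *ᵥ
          ((h : Matrix (Fin m ⊕ Fin m) (Fin m ⊕ Fin m) F) *ᵥ v)
    rw [Matrix.mulVec_mulVec]
    rfl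

theorem sp_mulVec_injective (g : Matrix.symplecticGroup (Fin m) F) :
    Function.Injective
      (fun v : Fin m ⊕ Fin m → F => (g : Matrix (Fin m ⊕ Fin m) (Fin m ⊕ Fin m) F) *ᵥ v) := by
  intro x y h
  have h1 : ∀ z : Fin m ⊕ Fin m → F,
      ((g⁻¹ : Matrix.symplecticGroup (Fin m) F) : Matrix (Fin m ⊕ Fin m) (Fin m ⊕ Fin m) F) *ᵥ
      ((g : Matrix (Fin m ⊕ Fin m) (Fin m ⊕ Fin m) F) *ᵥ z) = z := by
    intro z
    rw [Matrix.mulVec_mulVec, ← Submonoid.coe_mul, inv_mul_cancel, Submonoid.coe_one,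
      Matrix.one_mulVec]
  have h2 := congrArg (fun z => ((g⁻¹ : Matrix.symplecticGroup (Fin m) F) :
    Matrix (Fin m ⊕ Fin m) (Fin m ⊕ Fin m) F) *ᵥ z) h
  simp only [h1] at h2
  exact h2

theorem sp_orbit (v : Fin m ⊕ Fin m → F) (hv : v ≠ 0) :
    letI := spVecAction (F := F) m
    MulAction.orbit (Matrix.symplecticGroup (Fin m) F) v = {u | u ≠ 0} := by
  letI := spVecAction (F := F) m
  ext u
  constructor
  · rintro ⟨g, rfl⟩
    show (g : Matrix (Fin m ⊕ Fin m) (Fin m ⊕ Fin m) F) *ᵥ v ≠ 0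
    intro h
    apply hv
    apply sp_mulVec_injective m g
    show (g : Matrix (Fin m ⊕ Fin m) (Fin m ⊕ Fin m) F) *ᵥ v
      = (g : Matrix (Fin m ⊕ Fin m) (Fin m ⊕ Fin m) F) *ᵥ 0
    rw [h, Matrix.mulVec_zero]
  · intro hu
    obtain ⟨A, -, hA⟩ := Cfsg.Agent.S0766.trans_vec m ⊤
      (fun w c => ⟨⟨_, Cfsg.Agent.S0764.result m w c⟩, Subgroup.mem_top _, rfl⟩) v u hv hu
    exact ⟨A, hA⟩

/-- In characteristic two a symplectic transvection determines its vector. -/
theorem tv_inj [CharP F 2] (u v : Fin m ⊕ Fin m → F) (hv : v ≠ 0)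
    (h : sympTransvection m u (1 : F) = sympTransvection m v 1) : u = v := by
  obtain ⟨x, hx⟩ := Cfsg.Agent.S0766.form_nondeg m v hv
  have key : ∀ z : Fin m ⊕ Fin m → F, sympForm m F z u • u = sympForm m F z v • v := by
    intro z
    have h1 := congrArg (fun M => M *ᵥ z) h
    simp only [Cfsg.Agent.S0766.tv_mulVec, one_mul] at h1
    exact add_left_cancel h1
  have hxv : sympForm m F x v ≠ 0 := by
    rw [Cfsg.Agent.S0766.form_swap, neg_ne_zero]
    exact hx
  have h1 := key x
  have hxu : sympForm m F x u ≠ 0 := by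
    intro h0
    rw [h0, zero_smul] at h1
    exact (smul_ne_zero hxv hv) h1.symm
  obtain ⟨l, hl⟩ : ∃ l : F, u = l • v := by
    refine ⟨(sympForm m F x u)⁻¹ * sympForm m F x v, ?_⟩
    rw [← smul_smul, ← h1, smul_smul, inv_mul_cancel₀ hxu, one_smul]
  have h2 : (l * l) • (sympForm m F x v • v) = sympForm m F x v • v := by
    have h3 := key x
    rw [hl] at h3
    have h4 : sympForm m F x (l • v) = l * sympForm m F x v := by
      unfold sympForm
      rw [Matrix.mulVec_smul, dotProduct_smul, smul_eq_mul]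
    rw [h4, smul_smul] at h3
    rw [smul_smul, ← h3]
    congr 1
    ring
  have h5 : l * l = 1 := by
    by_contra hne
    have h6 : (l * l - 1) • (sympForm m F x v • v) = 0 := by
      rw [sub_smul, h2, one_smul, sub_self]
    rcases smul_eq_zero.1 h6 with h7 | h7
    · exact hne (sub_eq_zero.1 h7)
    · exact (smul_ne_zero hxv hv) h7
  have h6 : l = 1 := by
    have h7 : (l - 1) * (l - 1) = 0 := by
      have h8 : (2 : F) = 0 := CharP.cast_eq_zero F 2
      linear_combination h5 + (1 - l) * h8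
    have := mul_self_eq_zero.1 h7
    exact sub_eq_zero.1 this
  rw [hl, h6, one_smul]

/-- Characteristic two: the centralizer of the transvection of `v` is the stabilizer of `v`. -/
theorem sp_centralizer_tv [CharP F 2] (t : Matrix.symplecticGroup (Fin m) F)
    (v : Fin m ⊕ Fin m → F) (hv : v ≠ 0)
    (ht : (t : Matrix (Fin m ⊕ Fin m) (Fin m ⊕ Fin m) F) = sympTransvection m v 1) :
    letI := spVecAction (F := F) m
    Subgroup.centralizer ({t} : Set (Matrix.symplecticGroup (Fin m) F))
      = MulAction.stabilizer (Matrix.symplecticGroup (Fin m) F) v := by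
  letI := spVecAction (F := F) m
  ext g
  rw [Subgroup.mem_centralizer_iff, MulAction.mem_stabilizer_iff]
  have hconj : ((g * t * g⁻¹ : Matrix.symplecticGroup (Fin m) F) :
      Matrix (Fin m ⊕ Fin m) (Fin m ⊕ Fin m) F)
        = sympTransvection m ((g : Matrix (Fin m ⊕ Fin m) (Fin m ⊕ Fin m) F) *ᵥ v) 1 := by
    rw [Submonoid.coe_mul, Submonoid.coe_mul, ht]
    exact sp_conj_transvection m g v 1
  constructor
  · intro h
    have h1 : g * t * g⁻¹ = t := by
      have := h t (Set.mem_singleton t)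
      rw [← this]
      group
    have h2 : sympTransvection m ((g : Matrix (Fin m ⊕ Fin m) (Fin m ⊕ Fin m) F) *ᵥ v) (1 : F)
        = sympTransvection m v 1 := by
      rw [← hconj, h1, ht]
    exact tv_inj m _ v hv h2
  · intro h x hx
    rw [Set.mem_singleton_iff] at hx
    subst hx
    have h1 : g * x * g⁻¹ = x := by
      apply Subtype.ext
      rw [hconj, ht]
      congr 1
    calc x * g = (g * x * g⁻¹) * g := by rw [h1]
      _ = g * x := by group

/-- Characteristic two, finite field: a symplectic matrix `t` with `t - 1` of rank one is the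
transvection of a nonzero vector. -/
theorem sp_rank_one_tv [Fintype F] [CharP F 2] (t : Matrix.symplecticGroup (Fin m) F)
    (ht : ((t : Matrix (Fin m ⊕ Fin m) (Fin m ⊕ Fin m) F) - 1).rank = 1) :
    ∃ v : Fin m ⊕ Fin m → F, v ≠ 0 ∧
      (t : Matrix (Fin m ⊕ Fin m) (Fin m ⊕ Fin m) F) = sympTransvection m v 1 := by
  set G := (t : Matrix (Fin m ⊕ Fin m) (Fin m ⊕ Fin m) F) with hG
  unfold Matrix.rank at ht
  rw [finrank_eq_one_iff'] at ht
  obtain ⟨⟨w, hwr⟩, hw0, hall⟩ := ht
  have hw0' : w ≠ 0 := fun h => hw0 (Subtype.ext h)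
  have hc : ∀ x : Fin m ⊕ Fin m → F, ∃ c : F, (G - 1) *ᵥ x = c • w := by
    intro x
    obtain ⟨c, hc⟩ := hall ⟨(G - 1) *ᵥ x, LinearMap.mem_range.2 ⟨x, rfl⟩⟩
    exact ⟨c, (congrArg Subtype.val hc).symm⟩
  choose c hc using hc
  have hGx : ∀ x, G *ᵥ x = x + c x • w := by
    intro x
    have := hc x
    rw [Matrix.sub_mulVec, Matrix.one_mulVec] at this
    rw [← this]
    abel
  obtain ⟨y₀, hy₀⟩ : ∃ y₀, c y₀ ≠ 0 := by
    obtain ⟨y, hy⟩ := LinearMap.mem_range.1 hwr
    rw [Matrix.mulVecLin_apply, hc y] at hy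
    refine ⟨y, ?_⟩
    intro h
    rw [h, zero_smul] at hy
    exact hw0' hy.symm
  have hform : ∀ x y, c y * sympForm m F x w = c x * sympForm m F y w := by
    intro x y
    have h1 := Cfsg.Agent.S0766.form_pres m t x y
    rw [← hG, hGx, hGx, Cfsg.Agent.S0766.form_add_left, Cfsg.Agent.S0766.form_add_right,
      Cfsg.Agent.S0766.form_add_right] at h1
    have e1 : sympForm m F x (c y • w) = c y * sympForm m F x w := by
      unfold sympForm
      rw [Matrix.mulVec_smul, dotProduct_smul, smul_eq_mul]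
    have e2 : sympForm m F (c x • w) y = c x * sympForm m F w y := by
      unfold sympForm
      rw [smul_dotProduct, smul_eq_mul]
    have e3 : sympForm m F (c x • w) (c y • w) = 0 := by
      unfold sympForm
      rw [Matrix.mulVec_smul, dotProduct_smul, smul_dotProduct]
      have := Cfsg.Agent.S0766.form_self m w
      unfold sympForm at this
      rw [this]
      simp
    rw [e1, e2, e3, Cfsg.Agent.S0766.form_swap m w y] at h1
    linear_combination h1
  obtain ⟨κ, hκ⟩ : ∃ κ : F, κ = sympForm m F y₀ w / c y₀ := ⟨_, rfl⟩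
  have hfc : ∀ x, sympForm m F x w = c x * κ := by
    intro x
    have := hform x y₀
    rw [hκ]
    field_simp
    linear_combination this
  have hκ0 : κ ≠ 0 := by
    rintro rfl
    obtain ⟨z, hz⟩ := Cfsg.Agent.S0766.form_nondeg m w hw0'
    apply hz
    rw [Cfsg.Agent.S0766.form_swap, hfc z, mul_zero, neg_zero]
  obtain ⟨b, hb⟩ := FiniteField.isSquare_of_char_two (CharP.ringChar_of_prime_eq_zero
    Nat.prime_two (CharP.cast_eq_zero F 2)) κ⁻¹
  have hb0 : b ≠ 0 := by
    rintro rfl
    rw [mul_zero] at hb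
    exact (inv_ne_zero hκ0) hb
  refine ⟨b • w, smul_ne_zero hb0 hw0', ?_⟩
  apply Matrix.mulVec_injective
  funext x
  rw [hGx, Cfsg.Agent.S0766.tv_mulVec, one_mul]
  have e1 : sympForm m F x (b • w) = b * sympForm m F x w := by
    unfold sympForm
    rw [Matrix.mulVec_smul, dotProduct_smul, smul_eq_mul]
  rw [e1, smul_smul, hfc x]
  congr 2
  have : b * b * κ = 1 := by
    rw [← hb, inv_mul_cancel₀ hκ0]
  linear_combination -(c x) * this

/-- Order of the centralizer of a symplectic transvection in characteristic two. -/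
theorem card_centralizer_tv [Fintype F] [CharP F 2] (hm : 1 ≤ m)
    (t : Matrix.symplecticGroup (Fin m) F)
    (ht : ((t : Matrix (Fin m ⊕ Fin m) (Fin m ⊕ Fin m) F) - 1).rank = 1) :
    (Fintype.card F ^ (2 * m) - 1)
      * Nat.card ↥(Subgroup.centralizer ({t} : Set ↥(Matrix.symplecticGroup (Fin m) F)))
      = Nat.card (Matrix.symplecticGroup (Fin m) F) := by
  classical
  letI := spVecAction (F := F) m
  obtain ⟨v, hv, htv⟩ := sp_rank_one_tv m t ht
  rw [sp_centralizer_tv m t v hv htv]
  have h1 := Nat.card_congr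
    (MulAction.orbitProdStabilizerEquivGroup (Matrix.symplecticGroup (Fin m) F) v)
  rw [Nat.card_prod] at h1
  rw [← h1]
  congr 1
  rw [sp_orbit m v hv]
  have h2 : Nat.card {u : Fin m ⊕ Fin m → F // u ≠ 0}
      = Nat.card (Fin m ⊕ Fin m → F) - 1 := by
    rw [Nat.card_eq_fintype_card, Nat.card_eq_fintype_card, Fintype.card_subtype_compl,
      Fintype.card_subtype_eq]
  have h3 : Nat.card (Fin m ⊕ Fin m → F) = Fintype.card F ^ (2 * m) := by
    rw [Nat.card_eq_fintype_card, Fintype.card_fun, Fintype.card_sum, Fintype.card_fin]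
    congr 1
    omega
  show _ = Nat.card {u : Fin m ⊕ Fin m → F // u ≠ 0}
  rw [h2, h3]

end SpTransv

end Cfsg.Agent.Lib.Helper3
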