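import Mathlib
import Cfsg.Agent.Lib.Helper3.UnitaryTv

/-!
# Transitivity of the special unitary group on isotropic vectors

In dimension at least three the special unitary group is transitive on the nonzero isotropic
vectors; consequently all its transvections are conjugate.
-/

set_option autoImplicit false
set_option linter.unusedSectionVars false

namespace Cfsg.Agent.Lib.Helper3

open Cfsg.Agent.S0837 (Bh Bh_apply hf Bh_symm Bh_nondeg)
open Cfsg.Agent.S0780 Cfsg.Agent.S0781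
open Matrix

section UConj

variable {F : Type*} [Field F] (φ : F →+* F) {n : ℕ} {q : ℕ}
  (hφq : ∀ a : F, φ a = a ^ q) (hφ2 : ∀ a : F, φ (φ a) = a) (hφ : φ ≠ RingHom.id F)

local notation "B" => Bh φ n

include hφ2 in
/-- The Eichler move with its explicit scalar. -/
theorem eich_move_val (u x y : Fin n → F) (hu : B u u = 0) (hx : B x x = 0) (hy : B y y = 0)
    (hux : B u x ≠ 0) (huy : B u y ≠ 0) :
    ∃ M : Matrix (Fin n) (Fin n) F, IsSUm φ M ∧ M.mulVec u = u ∧
      M.mulVec x = (B u x / B u y) • y := by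
  obtain ⟨β, hβ⟩ : ∃ β : F, β = B u x := ⟨_, rfl⟩
  obtain ⟨γ, hγ⟩ : ∃ γ : F, γ = B u y := ⟨_, rfl⟩
  obtain ⟨δ, hδ⟩ : ∃ δ : F, δ = B y x := ⟨_, rfl⟩
  have hβ0 : β ≠ 0 := by rw [hβ]; exact hux
  have hγ0 : γ ≠ 0 := by rw [hγ]; exact huy
  have hφβ0 : φ β ≠ 0 := by rwa [Ne, map_eq_zero]
  have hφγ0 : φ γ ≠ 0 := by rwa [Ne, map_eq_zero]
  have exu : B x u = φ β := by rw [hβ]; exact bh_swap φ hφ2 u x
  have eyu : B y u = φ γ := by rw [hγ]; exact bh_swap φ hφ2 u y
  have exy : B x y = φ δ := by rw [hδ]; exact bh_swap φ hφ2 y x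
  obtain ⟨a, ha⟩ : ∃ a : F, a = β / γ := ⟨_, rfl⟩
  have ha0 : a ≠ 0 := by rw [ha]; exact div_ne_zero hβ0 hγ0
  obtain ⟨yy, hyy⟩ : ∃ yy : Fin n → F, yy = β⁻¹ • (a • y - x) := ⟨_, rfl⟩
  obtain ⟨κ, hκ⟩ : ∃ κ : F, κ = B yy x / β := ⟨_, rfl⟩
  have huyy : B u yy = 0 := by
    rw [hyy, map_smul, map_sub, map_smul, ← hβ, ← hγ, ha, smul_eq_mul, smul_eq_mul,
      div_mul_cancel₀ _ hγ0, sub_self, mul_zero]
  have hyyu : B yy u = 0 := bh_zero_swap φ hφ2 u yy huyy
  have hyyx : B yy x = φ a * δ / φ β := by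
    rw [hyy]
    simp only [LinearMap.map_smulₛₗ, LinearMap.smul_apply, map_sub, LinearMap.sub_apply,
      smul_eq_mul, hx, ← hδ, map_inv₀]
    field_simp
    ring
  have hyyyy : B yy yy = -(φ a * δ + a * φ δ) / (β * φ β) := by
    rw [hyy]
    simp only [LinearMap.map_smulₛₗ, LinearMap.smul_apply, map_sub, LinearMap.sub_apply,
      map_smul, smul_eq_mul, hx, hy, ← hδ, exy, map_inv₀]
    field_simp
    ring
  have hE : IsSUm φ (EE φ u yy κ) := by
    apply EE_isSUm φ hφ2 u yy κ hu huyy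
    rw [hκ, hyyyy, hyyx]
    simp only [map_div₀, map_mul, hφ2]
    field_simp
  refine ⟨EE φ u yy κ, hE, ?_, ?_⟩
  · rw [EE_mulVec, hu, hyyu, zero_smul, zero_smul, add_zero, add_zero]
  · rw [EE_mulVec, ← hβ, ← hγ, ← ha, hκ, hyy]
    funext i
    simp only [Pi.add_apply, Pi.smul_apply, Pi.sub_apply, Pi.neg_apply, smul_eq_mul]
    field_simp
    ring

include hφ2 hφ in
/-- A nonzero vector orthogonal to two non-orthogonal isotropic vectors, in dimension at
least three. -/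
theorem exists_perp_two_ne (hn : 3 ≤ n) (v w : Fin n → F) (hv : B v v = 0)
    (hvw : B v w ≠ 0) : ∃ x : Fin n → F, x ≠ 0 ∧ B v x = 0 ∧ B w x = 0 := by
  have hv0 : v ≠ 0 := by
    rintro rfl
    exact hvw (by simp)
  obtain ⟨i, hi⟩ := Function.ne_iff.mp hv0
  have hi' : v i ≠ 0 := hi
  obtain ⟨j, hj⟩ : ∃ j, v i * w j - v j * w i ≠ 0 := by
    by_contra hcon
    push Not at hcon
    apply hvw
    have hw : w = (w i / v i) • v := by
      funext k
      have hk := hcon k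
      rw [Pi.smul_apply, smul_eq_mul]
      field_simp
      linear_combination hk
    rw [hw, map_smul, hv, smul_zero]
  have hij : i ≠ j := by
    rintro rfl
    apply hj
    ring
  obtain ⟨k, hki, hkj⟩ : ∃ k : Fin n, k ≠ i ∧ k ≠ j := by
    by_contra hcon
    push Not at hcon
    have h0 := hcon ⟨0, by omega⟩
    have h1 := hcon ⟨1, by omega⟩
    have h2 := hcon ⟨2, by omega⟩
    have hij' : i.val ≠ j.val := fun h => hij (Fin.ext h)
    simp only [ne_eq, Fin.ext_iff] at h0 h1 h2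
    omega
  refine ⟨φ (v j * w k - v k * w j) • ee i + φ (v k * w i - v i * w k) • ee j
    + φ (v i * w j - v j * w i) • ee k, ?_, ?_, ?_⟩
  · intro h0
    have h1 := congrFun h0 k
    simp only [Pi.add_apply, Pi.smul_apply, smul_eq_mul, Pi.zero_apply, ee, Pi.single_apply,
      hki, hkj, ↓reduceIte, mul_zero, zero_add, mul_one] at h1
    exact hj ((map_eq_zero φ).mp h1)
  · simp only [map_add, map_smul, smul_eq_mul, B_ee_right]
    rw [← map_mul, ← map_mul, ← map_mul, ← map_add, ← map_add]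
    have : (v j * w k - v k * w j) * v i + (v k * w i - v i * w k) * v j
        + (v i * w j - v j * w i) * v k = 0 := by ring
    rw [this, map_zero]
  · simp only [map_add, map_smul, smul_eq_mul, B_ee_right]
    rw [← map_mul, ← map_mul, ← map_mul, ← map_add, ← map_add]
    have : (v j * w k - v k * w j) * w i + (v k * w i - v i * w k) * w j
        + (v i * w j - v j * w i) * w k = 0 := by ring
    rw [this, map_zero]

include hφ2 hφ in
/-- An anisotropic vector orthogonal to two non-orthogonal isotropic vectors. -/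
theorem exists_perp_two_aniso (hn : 3 ≤ n) (v w : Fin n → F) (hv : B v v = 0)
    (hw : B w w = 0) (hvw : B v w ≠ 0) :
    ∃ e : Fin n → F, B e e ≠ 0 ∧ B v e = 0 ∧ B w e = 0 := by
  obtain ⟨x, hx0, hvx, hwx⟩ := exists_perp_two_ne φ hφ2 hφ hn v w hv hvw
  by_cases hxx : B x x = 0
  · obtain ⟨y₀, hy₀⟩ := exists_np1 φ x hx0
    have hwv : B w v ≠ 0 := bh_ne_swap φ hφ2 v w hvw
    obtain ⟨y, hy⟩ : ∃ y : Fin n → F,
        y = y₀ - (B w y₀ / B w v) • v - (B v y₀ / B v w) • w := ⟨_, rfl⟩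
    have hvy : B v y = 0 := by
      rw [hy, map_sub, map_sub, map_smul, map_smul, hv, smul_zero, sub_zero, smul_eq_mul,
        div_mul_cancel₀ _ hvw, sub_self]
    have hwy : B w y = 0 := by
      rw [hy, map_sub, map_sub, map_smul, map_smul, hw, smul_zero, sub_zero, smul_eq_mul,
        div_mul_cancel₀ _ hwv, sub_self]
    have hxv : B x v = 0 := bh_zero_swap φ hφ2 v x hvx
    have hxw : B x w = 0 := bh_zero_swap φ hφ2 w x hwx
    have hxy : B x y ≠ 0 := by
      rw [hy, map_sub, map_sub, map_smul, map_smul, hxv, hxw, smul_zero, smul_zero, sub_zero,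
        sub_zero]
      exact hy₀
    by_cases hyy : B y y = 0
    · obtain ⟨θ, hθ⟩ := Cfsg.Agent.S0751.trace_surj φ hφ hφ2 1 (map_one φ)
      have hyx : B y x = φ (B x y) := bh_swap φ hφ2 x y
      have hφxy : φ (B x y) ≠ 0 := by rwa [Ne, map_eq_zero]
      refine ⟨x + (θ / B x y) • y, ?_, ?_, ?_⟩
      · simp only [map_add, LinearMap.add_apply, LinearMap.map_smulₛₗ, LinearMap.smul_apply,
          map_smul, smul_eq_mul, hxx, hyy, hyx, map_div₀]
        have h3 : θ / B x y * B x y = θ := div_mul_cancel₀ _ hxy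
        have h4 : φ θ / φ (B x y) * φ (B x y) = φ θ := div_mul_cancel₀ _ hφxy
        rw [mul_zero, add_zero, zero_add, h3, h4, add_comm, hθ]
        exact one_ne_zero
      · rw [map_add, map_smul, hvx, hvy, smul_zero, add_zero]
      · rw [map_add, map_smul, hwx, hwy, smul_zero, add_zero]
    · exact ⟨y, hyy, hvy, hwy⟩
  · exact ⟨x, hxx, hvx, hwx⟩

include hφ2 hφ in
/-- The special unitary group maps an isotropic `v` to any multiple of an isotropic `w` not
orthogonal to `v`. -/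
theorem su_move_np [Finite F] (hn : 3 ≤ n) (v w : Fin n → F) (hv : B v v = 0)
    (hw : B w w = 0) (hvw : B v w ≠ 0) (a : F) (ha : a ≠ 0) :
    ∃ M : Matrix (Fin n) (Fin n) F, IsSUm φ M ∧ M.mulVec v = a • w := by
  obtain ⟨β, hβ⟩ : ∃ β : F, β = B v w := ⟨_, rfl⟩
  have hβ0 : β ≠ 0 := by rw [hβ]; exact hvw
  have hwv : B w v = φ β := by rw [hβ]; exact bh_swap φ hφ2 v w
  have hφβ0 : φ β ≠ 0 := by rwa [Ne, map_eq_zero]
  -- the correction vector
  obtain ⟨e', hve', hwe', he'⟩ : ∃ e' : Fin n → F, B v e' = 0 ∧ B w e' = 0 ∧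
      B e' e' = -(a * β + φ (a * β)) := by
    by_cases ht : a * β + φ (a * β) = 0
    · exact ⟨0, by simp, by simp, by rw [ht, neg_zero]; simp⟩
    · obtain ⟨e, hee, hve, hwe⟩ := exists_perp_two_aniso φ hφ2 hφ hn v w hv hw hvw
      have hfix : φ (B e e) = B e e := bh_self_fix φ hφ2 e
      obtain ⟨l, hl⟩ := Cfsg.Agent.S0755.norm_surj φ hφ hφ2 (-(a * β + φ (a * β)) / B e e)
        (by rw [map_div₀, map_neg, map_add, hφ2, hfix]; ring)
        (div_ne_zero (neg_ne_zero.mpr ht) hee)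
      refine ⟨l • e, by rw [map_smul, hve, smul_zero], by rw [map_smul, hwe, smul_zero], ?_⟩
      simp only [LinearMap.map_smulₛₗ, LinearMap.smul_apply, map_smul, smul_eq_mul]
      rw [← mul_assoc, mul_comm l (φ l), hl, div_mul_cancel₀ _ hee]
  have he'v : B e' v = 0 := bh_zero_swap φ hφ2 v e' hve'
  have he'w : B e' w = 0 := bh_zero_swap φ hφ2 w e' hwe'
  obtain ⟨z, hz⟩ : ∃ z : Fin n → F, z = v + a • w + e' := ⟨_, rfl⟩
  have hzz : B z z = 0 := by
    rw [hz]
    simp only [map_add, LinearMap.add_apply, LinearMap.map_smulₛₗ, LinearMap.smul_apply,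
      map_smul, smul_eq_mul, hv, hw, hve', hwe', he'v, he'w, he', ← hβ, hwv, map_mul]
    ring
  have hwz : B w z = φ β := by
    rw [hz, map_add, map_add, map_smul, hw, hwe', hwv]
    simp
  have hvz : B v z = a * β := by
    rw [hz, map_add, map_add, map_smul, hv, hve', ← hβ]
    simp
  obtain ⟨M₁, hM₁, -, h1⟩ := eich_move_val φ hφ2 w v z hw hv hzz (by rw [hwv]; exact hφβ0)
    (by rw [hwz]; exact hφβ0)
  obtain ⟨M₂, hM₂, -, h2⟩ := eich_move_val φ hφ2 v z w hv hzz hw
    (by rw [hvz]; exact mul_ne_zero ha hβ0) hvw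
  refine ⟨M₂ * M₁, hM₂.mul φ hM₁, ?_⟩
  rw [← Matrix.mulVec_mulVec, h1, hwv, hwz, div_self hφβ0, one_smul, h2, hvz, ← hβ,
    mul_div_assoc, div_self hβ0, mul_one]

include hφ2 hφ in
/-- In dimension at least three the special unitary group is transitive on nonzero
isotropic vectors. -/
theorem su_move_vec [Finite F] (hn : 3 ≤ n) (v w : Fin n → F) (hv0 : v ≠ 0) (hw0 : w ≠ 0)
    (hv : B v v = 0) (hw : B w w = 0) (a : F) (ha : a ≠ 0) :
    ∃ M : Matrix (Fin n) (Fin n) F, IsSUm φ M ∧ M.mulVec v = a • w := by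
  obtain ⟨s, hs, hvs, hws⟩ := exists_iso_np φ hφ2 hφ v w hv0 hw0 hv hw
  obtain ⟨M₁, hM₁, h1⟩ := su_move_np φ hφ2 hφ hn v s hv hs hvs 1 one_ne_zero
  obtain ⟨M₂, hM₂, h2⟩ := su_move_np φ hφ2 hφ hn s w hs hw (bh_ne_swap φ hφ2 w s hws) a ha
  refine ⟨M₂ * M₁, hM₂.mul φ hM₁, ?_⟩
  rw [← Matrix.mulVec_mulVec, h1, one_smul, h2]

end UConj

end Cfsg.Agent.Lib.Helper3
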